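import Cfsg.Agent.Lib.E6.A5b

/-!
# Parabolics over a Sylow subgroup of a nonsolvable `2`-local subgroup
-/

set_option autoImplicit false
set_option linter.unusedSectionVars false

namespace CfsgLib.E6

open Subgroup Cfsg CfsgLib.FT.BGN CfsgLib.Cit CfsgLib.H1 A5f
open scoped commutatorElement

variable {G : Type*} [Group G] [Finite G]

theorem mv_sq {w : G} {B C : Subgroup G} (hc : Nat.card B = Nat.card C) (hn : ¬ B ≤ C)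
    (h1 : Mv w B B ∨ Mv w B C) (h2 : Mv w C B ∨ Mv w C C) : Mv (w * w) B B ∧ Mv (w * w) C C := by
  rcases h1 with h1 | h1 <;> rcases h2 with h2 | h2
  · refine absurd (eq_of_le_of_card_ge (fun c hc => ?_) hc.le).ge hn
    simpa [mul_assoc] using cmem (inv_mem (mem_normalizer_of_conj_mem h1)) (h2 c hc)
  · exact ⟨h1.mul h1, h2.mul h2⟩
  · exact ⟨h2.mul h1, h1.mul h2⟩
  · refine absurd (fun c hc => ?_) hn
    simpa [mul_assoc] using cmem (inv_mem (mem_normalizer_of_conj_mem h2)) (h1 c hc)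

namespace AB

variable {T Q B : Subgroup G} {x u k : G} (h : AB T Q B x u k)
include h

theorem mem2 {y : G} : y ∈ x⁻¹ •ᶜ (B ⊓ Q) ↔ x * y * x⁻¹ ∈ B ⊓ Q := by rw [mem_cj, inv_inv]

theorem fix' {y : G} (h0 : y ∈ B ⊓ x •ᶜ (B ⊓ Q)) : x * y * x⁻¹ = y := by
  rw [h.z0_fix h0.1 h0.2, mul_inv_cancel_right]

theorem mv1 : Mv x (x •ᶜ (B ⊓ Q)) (x⁻¹ •ᶜ (B ⊓ Q)) := fun y hy => by
  have : x * (x * y * x⁻¹) * x⁻¹ = (x * x) * y * (x * x)⁻¹ := by group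
  rw [h.mem2, this, ← h.x_inv, inv_inv]
  exact mem_cj.1 hy

theorem i12 {y : G} (h1 : y ∈ x •ᶜ (B ⊓ Q)) (h2 : y ∈ x⁻¹ •ᶜ (B ⊓ Q)) : y ∈ B ⊓ x •ᶜ (B ⊓ Q) := by
  have h3 : x⁻¹ * y * x ∈ x •ᶜ (B ⊓ Q) := by
    have : x⁻¹ * (x⁻¹ * y * x) * x = (x * x)⁻¹ * y * (x * x) := by group
    rw [mem_cj, this, ← h.x_inv, inv_inv]
    exact h.mem2.1 h2
  have h4 := h.fix' ⟨(mem_cj.1 h1).1, h3⟩
  rw [show x * (x⁻¹ * y * x) * x⁻¹ = y by group] at h4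
  exact ⟨h4 ▸ (mem_cj.1 h1).1, h1⟩

theorem i20 {y : G} (h1 : y ∈ x⁻¹ •ᶜ (B ⊓ Q)) (h2 : y ∈ B ⊓ Q) : y ∈ B ⊓ x •ᶜ (B ⊓ Q) := by
  have h3 : x * y * x⁻¹ ∈ B ⊓ x •ᶜ (B ⊓ Q) := ⟨(h.mem2.1 h1).1, cj_mem h2⟩
  have h4 : x * y * x⁻¹ = y := (MulAut.conj x).injective (h.fix' h3)
  rwa [h4] at h3

theorem z2 {y : G} (h0 : y ∈ B ⊓ x •ᶜ (B ⊓ Q)) : y ∈ x⁻¹ •ᶜ (B ⊓ Q) := by
  rw [h.mem2, h.fix' h0]
  exact ⟨h0.1, h.le1 h0.2⟩

theorem le2 : x⁻¹ •ᶜ (B ⊓ Q) ≤ Q := (map_mono inf_le_right).trans (cj_eq (inv_mem h.xn)).le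

end AB

namespace NQ

variable {Q S R : Subgroup G} {F : G → A5} {x u k : G} (h : NQ Q S F)
include h

theorem card_le (A : AB S R Q x u k) : Nat.card Q ≤ Nat.card ↥(Q ⊓ R) * 2 := by
  rw [inf_comm, ← card_inf_mul_relIndex R Q]
  exact Nat.mul_le_mul_left _ (A.idx ▸ relIndex_le_of_le_right h.le index_ne_zero_of_finite)

theorem ab_four (A : AB S R Q x u k) :
    ∃ a ∈ x •ᶜ (Q ⊓ R), ∃ b ∈ x •ᶜ (Q ⊓ R), a ∉ Q ∧ b ∉ Q ∧ a * b ∉ Q := by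
  by_contra h1
  push Not at h1
  obtain ⟨a, ha, ha'⟩ := SetLike.not_le_iff_exists.1 A.not_le
  have h2 := h.sq_le (A.le (A.le1 ha)) ha' (inf_le_left : Q ⊓ R ≤ Q)
    fun d hd => A.cent_of_two h.sq h1 hd ha
  have h3 := h.card_le A
  have h4 : 0 < Nat.card ↥(Q ⊓ R) := Nat.card_pos
  have h5 : Nat.card ↥(Q ⊓ R) ≤ 2 := by nlinarith
  have h6 := h.card_eq (by omega)
  omega

theorem ab_card (A : AB S R Q x u k) :
    Nat.card Q = 16 ∧ Nat.card ↥(Q ⊓ x •ᶜ (Q ⊓ R)) = 2 := by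
  obtain ⟨a, ha, b, hb, h1, h2, h3⟩ := h.ab_four A
  have h4 := h.sq_le (A.le (A.le1 ha)) h1 (inf_le_left : Q ⊓ x •ᶜ (Q ⊓ R) ≤ Q)
    fun d hd => A.comm1 ha hd.2
  have h5 := card_inf_mul_relIndex Q (x •ᶜ (Q ⊓ R))
  have h6 : Q.relIndex (x •ᶜ (Q ⊓ R)) ≤ 4 :=
    h.idx4 ▸ relIndex_le_of_le_right (A.le1.trans A.le) index_ne_zero_of_finite
  have h7 := h.card_le A
  have h8 : ¬ Nat.card ↥(x •ᶜ (Q ⊓ R)) ≤ 2 * Nat.card ↥(Q ⊓ x •ᶜ (Q ⊓ R)) := fun e =>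
    h3 (mul_mem_of_card_le inf_le_right e ha (fun e => h1 e.1) hb (fun e => h2 e.1)).1
  have h9 : Nat.card ↥(Q ⊓ R) < Nat.card Q := lt_of_not_ge fun e =>
    A.kn ((eq_of_le_of_card_ge inf_le_left e).ge A.km).2
  have h10 := card_dvd_of_le (inf_le_left : Q ⊓ R ≤ Q)
  rw [card_map_conj] at h5 h8
  have h11 : 0 < Nat.card ↥(Q ⊓ x •ᶜ (Q ⊓ R)) := Nat.card_pos
  have h12 : Nat.card ↥(Q ⊓ x •ᶜ (Q ⊓ R)) ≤ 8 := by nlinarith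
  have h13 := h.card_eq (by nlinarith)
  rw [h13] at h7 h9 h10
  have h14 : Nat.card ↥(Q ⊓ R) = 8 := by
    have : 8 ≤ Nat.card ↥(Q ⊓ R) := by omega
    interval_cases Nat.card ↥(Q ⊓ R) <;> omega
  refine ⟨h13, ?_⟩
  interval_cases Nat.card ↥(Q ⊓ x •ᶜ (Q ⊓ R)) <;> omega

theorem ab_mul (A : AB S R Q x u k) {s : G} (hs : s ∈ S) :
    ∃ q ∈ Q, ∃ b ∈ x •ᶜ (Q ⊓ R), s = q * b := by
  obtain ⟨a, ha, b, hb, h1, h2, h3⟩ := h.ab_four A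
  have h4 := A.le (A.le1 ha)
  rcases h.cover' h4 h1 (A.le (A.le1 hb)) h2 h3 (h.sn hs) (h.F_comm hs h4) with e | e | e | e
  · exact ⟨s, e, 1, one_mem _, (mul_one s).symm⟩
  · exact ⟨_, e, a, ha, (inv_mul_cancel_right s a).symm⟩
  · exact ⟨_, e, b, hb, (inv_mul_cancel_right s b).symm⟩
  · exact ⟨_, e, _, mul_mem ha hb, (inv_mul_cancel_right s _).symm⟩

theorem ab_sq {y : G} : ∀ b ∈ y •ᶜ (Q ⊓ R), b * b = 1 := sq_cj (A := Q ⊓ R) (fun b hb => h.sq b hb.1) y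

theorem ab_inv (A : AB S R Q x u k) {t : G} (ht : t ∈ S) (ht' : t ∉ Q) (h1 : t * t = 1) :
    t ∈ x •ᶜ (Q ⊓ R) ∨ t ∈ x⁻¹ •ᶜ (Q ⊓ R) := by
  obtain ⟨q, hq, b, hb, rfl⟩ := h.ab_mul A ht
  obtain ⟨h2, h3⟩ := h.ab_card A
  have hb' : b ∉ Q := fun e => ht' (Q.mul_mem hq e)
  by_cases e : q ∈ x •ᶜ (Q ⊓ R)
  · exact Or.inl (mul_mem e hb)
  have h4 := h.sq_le (A.le (A.le1 hb)) hb' (inf_le_left : Q ⊓ 𝐂[b] ≤ Q)
    fun d hd => (mem_centralizer_singleton_iff.1 hd.2).symm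
  have h5 := A.comm_k (A.le1 hb)
  have h6 := A.mem2.2 (A.swap1 (A.bt A.km) A.kn hb)
  have h7 : k * b * k⁻¹ = ⁅b, k⁆⁻¹ * b := by simp only [commutatorElement_def]; group
  rw [h7] at h6
  have h8 := mul_mem_of_card_le (Z := Q ⊓ x •ᶜ (Q ⊓ R)) (D := Q ⊓ 𝐂[b])
    (fun d hd => ⟨hd.1, mem_centralizer_singleton_iff.2 (A.comm1 hd.2 hb)⟩) (by nlinarith)
    (a := q) (b := ⁅b, k⁆⁻¹⁻¹)
    ⟨hq, mem_centralizer_singleton_iff.2 (comm_of_three (h.sq _ hq) (h.ab_sq _ hb) h1)⟩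
    (fun e' => e e'.2) (Subgroup.inv_mem _ ⟨Q.inv_mem h5.1, mem_centralizer_singleton_iff.2
      (comm_of_three (h.sq _ (inv_mem h5.1)) (h.ab_sq _ hb) (h.ab_sq _ h6))⟩)
    (fun e' => hb' (A.inj hb (by simpa using e'.2)))
  have h9 := mul_mem (A.z2 h8) h6
  rw [mul_assoc, inv_mul_cancel_left] at h9
  exact Or.inr h9

theorem ab_cent (A : AB S R Q x u k) {z s : G} (hz : z ∈ Q ⊓ x •ᶜ (Q ⊓ R)) (hs : s ∈ S) :
    s * z = z * s := by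
  obtain ⟨q, hq, b, hb, rfl⟩ := h.ab_mul A hs
  exact Commute.mul_left (h.comm hq hz.1) (A.comm1 hb hz.2)

theorem ab_cent' (A : AB S R Q x u k) {z : G} (hz : z ∈ Q) (hs : ∀ s ∈ S, s * z = z * s) :
    z ∈ x •ᶜ (Q ⊓ R) := by
  by_contra h0
  obtain ⟨a, ha, b, hb, h1, h2, h3⟩ := h.ab_four A
  have key : ∀ c ∈ x •ᶜ (Q ⊓ R), c ∉ Q → z * c ∈ x⁻¹ •ᶜ (Q ⊓ R) := fun c hc hc' =>
    (h.ab_inv A (S.mul_mem (h.le hz) (A.le (A.le1 hc))) (fun e => hc' ((Q.mul_mem_cancel_left hz).1 e))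
      (by rw [Commute.mul_mul_mul_comm (hs _ (A.le (A.le1 hc))), h.sq _ hz, h.ab_sq _ hc,
        one_mul])).resolve_left fun e => h0 ((mul_mem_cancel_right hc).1 e)
  have h4 := mul_mem (key a ha h1) (key b hb h2)
  rw [Commute.mul_mul_mul_comm (hs _ (A.le (A.le1 ha))), h.sq _ hz, one_mul] at h4
  exact h3 (A.i12 (mul_mem ha hb) h4).1

theorem ab_gen (A : AB S R Q x u k) {r : G} (hr : r ∈ R) :
    ∃ a ∈ Q ⊓ R, ∃ b ∈ x •ᶜ (Q ⊓ R), r = a * b := by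
  obtain ⟨q, hq, b, hb, rfl⟩ := h.ab_mul A (A.le hr)
  exact ⟨q, ⟨hq, (R.mul_mem_cancel_right (A.le1 hb)).1 hr⟩, b, hb, rfl⟩

theorem ab_es (A : AB S R Q x u k) :
    ES R (Q ⊓ R) (x •ᶜ (Q ⊓ R)) (x⁻¹ •ᶜ (Q ⊓ R)) (Q ⊓ x •ᶜ (Q ⊓ R)) where
  o6 := h.o6
  two := A.twoQ
  lA := inf_le_right
  lB := A.le1
  zA := inf_le_inf_left _ A.le1
  zB := inf_le_right
  zC := fun _ => A.z2
  iAB := fun _ h1 h2 => ⟨h1.1, h2⟩
  iBC := fun _ => A.i12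
  iCA := fun _ => A.i20
  gen := fun _ => h.ab_gen A
  comm := fun r hr s hs => by
    have hn : ∀ a ∈ R, ∀ z ∈ Q ⊓ x •ᶜ (Q ⊓ R), a * z * a⁻¹ ∈ Q ⊓ x •ᶜ (Q ⊓ R) := fun a ha z hz => by
      rwa [h.ab_cent A hz (A.le ha), mul_inv_cancel_right]
    obtain ⟨a, ha, b, hb, rfl⟩ := h.ab_gen A hr
    obtain ⟨c, hc, d, hd, rfl⟩ := h.ab_gen A hs
    refine comm_mul_mem (hn _ hc.2) ?_ ?_ <;> rw [← commutatorElement_inv] <;>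
      refine inv_mem (comm_mul_mem (hn _ ha.2) ?_ ?_)
    · rw [commutatorElement_eq_one_iff_mul_comm.2 (h.comm hc.1 ha.1)]; exact one_mem _
    · rw [← commutatorElement_inv]; exact inv_mem (A.comm_mem hc hb)
    · exact A.comm_mem ha hd
    · rw [commutatorElement_eq_one_iff_mul_comm.2 (A.comm1 hd hb)]; exact one_mem _
  inv := fun r hr h1 => by
    by_cases e : r ∈ Q
    · exact Or.inl ⟨e, hr⟩
    · exact Or.inr (h.ab_inv A (A.le hr) e h1)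
  sq := fun z hz => h.sq z hz.1

theorem ab_false (A : AB S R Q x u k) : False := by
  obtain ⟨a, ha, -, -, h1, -⟩ := h.ab_four A
  obtain ⟨w, hw, hw', h2, h3⟩ := h.ex_w (A.le (A.le1 ha)) h1
  have h4 : w ∈ 𝐂(Q ⊓ x •ᶜ (Q ⊓ R)) := mem_centralizer_iff.2 fun z hz => by
    by_cases e : z = 1
    · rw [e, one_mul, mul_one]
    have h5 : w * z * w⁻¹ ∈ Q ⊓ x •ᶜ (Q ⊓ R) := ⟨cmem hw hz.1, h.ab_cent' A (cmem hw hz.1)
      fun s hs => by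
        calc s * (w * z * w⁻¹) = w * (w⁻¹ * s * w⁻¹⁻¹ * z) * w⁻¹ := by group
          _ = _ := by rw [h.ab_cent A hz (cmem (inv_mem hw') hs)]; group⟩
    have h6 := mem_bot.1 (mul_mem_of_card_le bot_le (by rw [(h.ab_card A).2, card_bot]) h5
      (by simpa using e) hz (by simpa using e))
    rw [← h.sq z hz.1, mul_left_inj, mul_inv_eq_iff_eq_mul] at h6
    exact h6.symm
  have h5 : ∀ y : G, y •ᶜ (Q ⊓ R) ≤ R → (∀ b ∈ y •ᶜ (Q ⊓ R), b ∈ Q → b ∈ x •ᶜ (Q ⊓ R)) →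
      Mv w (y •ᶜ (Q ⊓ R)) (x •ᶜ (Q ⊓ R)) ∨ Mv w (y •ᶜ (Q ⊓ R)) (x⁻¹ •ᶜ (Q ⊓ R)) := by
    intro y h5 h6
    refine (SubgroupClass.subset_union (H := w •ᶜ (y •ᶜ (Q ⊓ R)))).1 ?_ |>.imp
      (fun e b hb => e (cj_mem hb)) (fun e b hb => e (cj_mem hb))
    rintro _ ⟨b, hb, rfl⟩
    change w * b * w⁻¹ ∈ _
    by_cases e : b ∈ Q
    · rw [cent_fix h4 ⟨e, h6 b hb e⟩]; exact Or.inl (h6 b hb e)
    · exact h.ab_inv A (cmem hw' (A.le (h5 hb)))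
        (fun e' => e (by simpa [mul_assoc] using cmem (inv_mem hw) e'))
        (by rw [conj_mul, h.ab_sq _ hb, mul_one, mul_inv_cancel])
  obtain ⟨h6, h7⟩ := mv_sq (by rw [card_map_conj, card_map_conj])
    (fun e => h1 (A.i12 ha (e ha)).1) (h5 x A.le1 fun _ e _ => e)
    (h5 x⁻¹ A.le2 fun b hb e => (A.i20 hb ⟨e, A.le2 hb⟩).2)
  have h8 : w * w ∈ 𝐍(R) := mem_normalizer_of_conj_mem fun r hr => by
    obtain ⟨c, hc, b, hb, rfl⟩ := h.ab_gen A hr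
    obtain ⟨y, hy, h8⟩ := A.surj hc
    have : w * w * (c * b) * (w * w)⁻¹ = w * w * (c * ⁅y, k⁆) * (w * w)⁻¹ *
        (w * w * (k * y * k⁻¹) * (w * w)⁻¹) * (w * w * (y⁻¹ * b) * (w * w)⁻¹) := by
      simp only [commutatorElement_def]; group
    rw [this]
    exact R.mul_mem (R.mul_mem (A.le1 (h6 _ h8))
      (A.le2 (h7 _ (A.mem2.2 (A.swap1 (A.bt A.km) A.kn hy))))) (A.le1 (h6 _ (mul_mem (inv_mem hy) hb)))
  have h9 := (h.ab_es A).main A.le2 ⟨A.xn, mem_centralizer_iff.2 fun z hz => (A.z0_fix hz.1 hz.2).symm,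
    fun _ => cj_mem, A.mv1, fun _ => A.mem2.1⟩ A.x3 ⟨h8, mul_mem h4 h4,
    fun b hb => ⟨cmem (mul_mem hw hw) hb.1, cmem h8 hb.2⟩, h6, h7⟩ h2
  exact h3 (h9.2.2 a (A.le1 ha)).1

theorem pb {r : ℕ} (p : Pb S R x u r) : x ∈ 𝐍(Q) := by
  rcases p.r35 with rfl | rfl
  · by_cases e : Q ≤ R
    · by_contra h1
      have h2 : x •ᶜ Q ≤ R := (map_mono e).trans (cj_eq p.xn).le
      obtain ⟨a, ha, b, hb, h3⟩ := h.nat_mul (sq_cj h.sq x) (h2.trans p.le) (card_map_conj _ _)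
        (fun e => h1 (mem_norm e)) p.um
      exact p.un (h3 ▸ R.mul_mem (e ha) (h2 hb))
    · obtain ⟨k, hk, hk'⟩ := SetLike.not_le_iff_exists.1 e
      exact (h.ab_false ⟨p, h.o6, h.le, h.sn, le_cent_of_sq h.sq, hk, hk'⟩).elim
  · have h1 := mod_five h.o6 p.twoQ p.ox p.xn
    have h2 := card_mul_relIndex p.le
    have h3 := h.mod5
    rw [p.idx, h.card_S] at h2
    omega

end NQ

end CfsgLib.E6
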