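import Cfsg.Agent.Lib.E6.S1a

/-!
# Solvable groups of characteristic two: generation by minimal parabolics
-/

set_option autoImplicit false

namespace CfsgLib.E6

open Subgroup Cfsg CfsgLib.FT.BGN CfsgLib.Cit CfsgLib.H1
open scoped commutatorElement

universe u

variable {G : Type*} [Group G] [Finite G]

omit [Finite G] in
theorem sc_of (h6 : O6 G) {H : Subgroup G} (hs : Group.IsSolvable H)
    (hc : 𝐂(pCoreOf 2 H) ≤ pCoreOf 2 H) : SC (QuotientGroup.mk' (pCore 2 H)) where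
  o6 := h6.subgroup H
  solv := hs
  surj := QuotientGroup.mk'_surjective _
  two := by rw [QuotientGroup.ker_mk']; exact pCore_isPGroup 2
  ch := by rw [QuotientGroup.ker_mk']; exact centralizer_le_iff_amb.2 (inf_le_right.trans hc)
  o2 := pCore_quotient_pCore 2

omit [Finite G] in
theorem syl_top {H T : Subgroup G} (hT : IsSylowIn 2 T H) : IsSylowIn 2 (T.subgroupOf H) ⊤ :=
  subgroupOf_self H ▸ hT.subgroupOf le_rfl

/-- The Sylow `2`-subgroups are elementary modulo `O₂`. -/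
theorem sq_mem_core (h6 : O6 G) {H T : Subgroup G} (hs : Group.IsSolvable H)
    (hc : 𝐂(pCoreOf 2 H) ≤ pCoreOf 2 H) (hT : IsSylowIn 2 T H) {t : G} (ht : t ∈ T) :
    t * t ∈ pCoreOf 2 H := by
  obtain ⟨F, M, -, -, -, h, -⟩ := (sc_of h6 hs hc).struct (syl_top hT)
  have := h ⟨t, hT.le ht⟩ ht
  rw [QuotientGroup.ker_mk'] at this
  exact mem_map_of_mem H.subtype this

theorem par (h6 : O6 G) {H T K : Subgroup G} (hs : Group.IsSolvable H)
    (hc : 𝐂(pCoreOf 2 H) ≤ pCoreOf 2 H) (hT : IsSylowIn 2 T H) (h1 : H ⊓ 𝐍(T) ≤ K)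
    (h2 : ∀ Q x u r, Pb T Q x u r → x ∈ H → x ∈ K) : H ≤ K := fun g hg => by
  have e := map_subtype_subgroupOf hT.le
  refine (sc_of h6 hs hc).par (K := K.subgroupOf H) (syl_top hT) (fun x hx => h1 ⟨x.2, ?_⟩)
    (fun Q x u r h hk => h2 (Q.map H.subtype) x u r ⟨hT.isPGroup, e ▸ map_mono h.le, ?_, h.um,
      fun e => h.un ((mem_map_iff_mem H.subtype_injective).1 e), (orderOf_coe x).trans h.ox, h.r35,
      le_normalizer_map H.subtype (mem_map_of_mem _ h.xn), congrArg Subtype.val h.inv, ?_⟩ x.2)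
    ⟨g, hg⟩
  · exact e ▸ le_normalizer_map H.subtype (mem_map_of_mem _ hx)
  · rw [← e, relIndex_map_map_of_injective _ _ H.subtype_injective, h.idx]
  · rw [QuotientGroup.ker_mk'] at hk
    exact ((centralizer_le (map_mono hk)).trans hc).trans (map_mono hk)

theorem Pb.comm {H T Q : Subgroup G} {x u : G} {r : ℕ} (h : Pb T Q x u r) (h6 : O6 G)
    (hs : Group.IsSolvable H) (hc : 𝐂(pCoreOf 2 H) ≤ pCoreOf 2 H) (hT : IsSylowIn 2 T H)
    (hx : x ∈ H) : pCoreOf 2 H ≤ Q ∧ ∀ q ∈ Q, x * q * x⁻¹ * q⁻¹ ∈ pCoreOf 2 H := by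
  have := Fact.mk Nat.prime_two
  have hR := pCoreOf_le_sylow hT
  refine ⟨fun a ha => by_contra fun e => h.x_ne (eq_one_of_sq_odd h.odd ?_), fun q hq => ?_⟩
  · have h1 := h.le (h.inv_mod (hR ha) e)
    have h2 := hR (cmem (le_normalizer_pCoreOf H hx) ha)
    have h3 := hR (cmem (pow_mem (le_normalizer_pCoreOf H hx) 2) (inv_mem ha))
    have h4 : x * x ∈ T := by
      have := T.mul_mem (inv_mem (T.mul_mem h2 h3)) h1
      have h5 : x * (a * x * a⁻¹) = x * a * x⁻¹ * (x ^ 2 * a⁻¹ * (x ^ 2)⁻¹) * (x * x) := by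
        simp only [pow_two]; group
      rwa [h5, inv_mul_cancel_left] at this
    refine eq_one_of_two_of_odd (two_of_mem h.two h4) (Odd.of_dvd_nat h.odd ?_)
    rw [← pow_two]
    exact orderOf_pow_dvd 2
  · have := (sc_of h6 hs hc).comm (syl_top hT) (x := ⟨x, hx⟩) (u := ⟨u, hT.le h.um⟩)
      (q := ⟨q, hT.le (h.le hq)⟩) h.um (by rw [← orderOf_coe]; exact h.odd) (Subtype.ext h.inv)
      (h.le (Q.mul_mem (h.xmem hq) (inv_mem hq)))
    rw [QuotientGroup.ker_mk'] at this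
    exact mem_map_of_mem H.subtype this

end CfsgLib.E6
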