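import Cfsg.Agent.Lib.E6.Defs

/-!
# Parabolics of type D10
-/

set_option autoImplicit false

namespace CfsgLib.E6

open Subgroup Cfsg CfsgLib.FT.BGN CfsgLib.Cit CfsgLib.H1
open scoped commutatorElement

universe u

variable {G : Type*} [Group G] [Finite G]

/-- A `2`-group `Q` normalized by `x` of order five and by `u` inverting `x`. -/
structure D10 (Q : Subgroup G) (x u : G) : Prop where
  o6 : O6 G
  two : IsPGroup 2 Q
  ox : orderOf x = 5
  xn : x ∈ 𝐍(Q)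
  un : u ∈ 𝐍(Q)
  uu : u * u ∈ Q
  inv : u * x * u⁻¹ = x⁻¹

namespace D10

variable {Q : Subgroup G} {x u : G} (h : D10 Q x u)
include h

theorem fpf {y : G} (hy : y ∈ Q) (e : x * y = y * x) : y = 1 :=
  h.o6.eq_one_of_comm5 h.ox (two_of_mem h.two hy) e

theorem fpf2 {y : G} (hy : y ∈ Q) (e : x * y * x⁻¹ = x⁻¹ * y * x) : y = 1 := by
  refine h.o6.eq_one_of_comm5 (x := x ^ 2) ?_ (two_of_mem h.two hy) ?_
  · rw [orderOf_pow' _ two_ne_zero, h.ox]; rfl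
  · rw [pow_two]
    calc x * x * y = x * (x * y * x⁻¹) * x := by group
      _ = _ := by rw [e]; simp only [mul_assoc, mul_inv_cancel_left]

theorem inv' : u * x⁻¹ * u⁻¹ = x := by rw [← conj_inv, h.inv, inv_inv]

theorem u_sq : u * u = 1 := h.fpf h.uu (by
  calc x * (u * u) = u * (u * x * u⁻¹) * u⁻¹ * (u * u) := by rw [h.inv, h.inv']
    _ = _ := by group)

theorem r_sq {q : G} (hq : q ∈ Q) : q * (u * q * u⁻¹) * (q * (u * q * u⁻¹)) = 1 := by
  have e : q * u * (q * u) = q * (u * q * u⁻¹) := by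
    rw [inv_eq_of_mul_eq_one_right h.u_sq]; group
  rw [← e]
  exact h.o6.four_of_two (two_of_sq_mem h.two (e ▸ mul_mem hq (cmem h.un hq)))

theorem z_sq {c : G} (hc : c ∈ Q) (hz : ∀ q ∈ Q, Commute q c) : c * c = 1 := by
  have key : ∀ c ∈ Q, (∀ q ∈ Q, Commute q c) → u * (c * c) * u⁻¹ = (c * c)⁻¹ := fun c hc hz => by
    have e := h.r_sq hc
    rw [mul_assoc, ← mul_assoc _ c, (hz _ (cmem h.un hc)).eq, mul_assoc c, ← mul_assoc c,
      conj_mul] at e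
    exact eq_inv_of_mul_eq_one_right e
  have e1 := key c hc hz
  have e2 := key _ (cmem h.xn hc) fun q hq => by
    have := hz _ (cmem (inv_mem h.xn) hq)
    calc q * (x * c * x⁻¹) = x * (x⁻¹ * q * x⁻¹⁻¹ * c) * x⁻¹ := by group
      _ = _ := by rw [this.eq]; group
  refine h.fpf2 (mul_mem hc hc) (inv_injective ?_)
  rw [← conj_mul, ← e2]
  calc _ = (u * x * u⁻¹) * (u * (c * c) * u⁻¹) * (u * x⁻¹ * u⁻¹) := by group
    _ = _ := by rw [h.inv, h.inv', e1]; group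

theorem surj {w : G} (hw : w ∈ Q) : ∃ q ∈ Q, q⁻¹ * (x⁻¹ * x⁻¹ * q * (x * x)) = w := by
  have hm : ∀ q ∈ Q, x⁻¹ * x⁻¹ * q * (x * x) ∈ Q := fun q hq => by
    simpa [mul_assoc] using cmem (inv_mem h.xn) (cmem (inv_mem h.xn) hq)
  have hi : Function.Injective (fun q : Q =>
    (⟨_, mul_mem (inv_mem q.2) (hm q q.2)⟩ : Q)) := fun a b e => Subtype.ext (by
      have e1 : (a : G)⁻¹ * (x⁻¹ * x⁻¹ * a * (x * x)) = (b : G)⁻¹ * (x⁻¹ * x⁻¹ * b * (x * x)) :=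
        congrArg Subtype.val e
      refine mul_inv_eq_one.1 (h.fpf2 (mul_mem a.2 (inv_mem b.2)) ?_)
      calc _ = x * (a * ((b : G)⁻¹ * (x⁻¹ * x⁻¹ * b * (x * x)))) * (x⁻¹ * x⁻¹ * (b : G)⁻¹ * x) := by
            group
        _ = _ := by rw [← e1]; group)
  obtain ⟨q, e⟩ := Finite.injective_iff_surjective.1 hi ⟨w, hw⟩
  exact ⟨q, q.2, congrArg Subtype.val e⟩

theorem comm_of_two (h2 : ∀ a ∈ Q, ∀ b ∈ Q, ∀ c ∈ Q, Commute c ⁅a, b⁆) {a b : G} (ha : a ∈ Q)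
    (hb : b ∈ Q) : Commute a b := by
  have cm : ∀ a ∈ Q, ∀ b ∈ Q, ⁅a, b⁆ ∈ Q := fun a ha b hb =>
    mul_mem (mul_mem (mul_mem ha hb) (inv_mem ha)) (inv_mem hb)
  have c2 : ∀ a ∈ Q, ∀ b ∈ Q, ⁅a, b⁆ * ⁅a, b⁆ = 1 := fun a ha b hb =>
    h.z_sq (cm a ha b hb) fun q hq => h2 a ha b hb q hq
  have br : ∀ a ∈ Q, ∀ b ∈ Q, ∀ c ∈ Q, ⁅a, b * c⁆ = ⁅a, b⁆ * ⁅a, c⁆ := fun a ha b hb c hc => by
    calc _ = ⁅a, b⁆ * (b * ⁅a, c⁆ * b⁻¹) := by simp only [commutatorElement_def]; group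
      _ = _ := by rw [(h2 a ha c hc b hb).eq, mul_inv_cancel_right]
  have bl : ∀ a ∈ Q, ∀ b ∈ Q, ∀ c ∈ Q, ⁅a * b, c⁆ = ⁅b, c⁆ * ⁅a, c⁆ := fun a ha b hb c hc => by
    calc _ = (a * ⁅b, c⁆ * a⁻¹) * ⁅a, c⁆ := by simp only [commutatorElement_def]; group
      _ = _ := by rw [(h2 b hb c hc a ha).eq, mul_inv_cancel_right]
  set r : G → G := fun q => q * (u * q * u⁻¹) with hr
  have rm : ∀ q ∈ Q, r q ∈ Q := fun q hq => mul_mem hq (cmem h.un hq)
  have rr : ∀ p ∈ Q, ∀ q ∈ Q, Commute (r p) (r q) := fun p hp q hq => by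
    have p' := cmem h.un hp
    have e := h.r_sq (mul_mem hp hq)
    have e1 : p * q * (u * (p * q) * u⁻¹) = r p * r q * ⁅(u * p * u⁻¹)⁻¹, q⁆ := by
      rw [mul_assoc (r p), (h2 _ (inv_mem p') q hq _ (rm q hq)).eq]
      simp only [hr, commutatorElement_def]
      group
    rw [e1, mul_assoc, ← mul_assoc ⁅_, _⁆,
      ← (h2 _ (inv_mem p') q hq _ (mul_mem (rm p hp) (rm q hq))).eq, mul_assoc _ ⁅_, _⁆,
      c2 _ (inv_mem p') q hq, mul_one] at e
    have e2 := inv_eq_of_mul_eq_one_right e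
    rw [mul_inv_rev, inv_eq_of_mul_eq_one_right (h.r_sq hp),
      inv_eq_of_mul_eq_one_right (h.r_sq hq)] at e2
    exact e2.symm
  have xm : ∀ q ∈ Q, x * q * x⁻¹ ∈ Q := fun q hq => cmem h.xn hq
  have xm' : ∀ q ∈ Q, x⁻¹ * q * x ∈ Q := fun q hq => by simpa using cmem (inv_mem h.xn) hq
  have tau : ∀ p ∈ Q, ∀ q ∈ Q, Commute (r p) (x * r q * x⁻¹ * (x⁻¹ * r q * x)) :=
    fun p hp q hq => by
    have q' := cmem h.un hq
    have e1 : u * r q * u⁻¹ = ⁅u * q * u⁻¹, q⁆ * r q := by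
      simp only [hr, commutatorElement_def]
      rw [← conj_mul (b := u), show u * (u * q * u⁻¹) * u⁻¹ = u * u * q * (u * u)⁻¹ by group, h.u_sq]
      group
    have e2 : r (x * r q * x⁻¹) = x * r q * x⁻¹ * (x⁻¹ * ⁅u * q * u⁻¹, q⁆ * x) *
        (x⁻¹ * r q * x) := by
      calc _ = x * r q * x⁻¹ * ((u * x * u⁻¹) * (u * r q * u⁻¹) * (u * x⁻¹ * u⁻¹)) := by
            simp only [hr]; group
        _ = _ := by rw [h.inv, h.inv', e1]; group
    have e3 : x⁻¹ * ⁅u * q * u⁻¹, q⁆ * x = ⁅x⁻¹ * (u * q * u⁻¹) * x, x⁻¹ * q * x⁆ := by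
      simp only [commutatorElement_def]; group
    have e4 := rr p hp _ (xm _ (rm q hq))
    have c1 := fun c hc => h2 _ (xm' _ q') _ (xm' _ hq) c hc
    rw [e2, e3, (c1 _ (xm _ (rm q hq))).eq, mul_assoc] at e4
    have := (c1 _ (rm p hp)).inv_right.mul_right e4
    rwa [inv_mul_cancel_left] at this
  have rx : ∀ p ∈ Q, ∀ q ∈ Q, Commute (r p) (x * r q * x⁻¹) := fun p hp q hq => by
    have a1 := rm p hp
    have b1 := rm q hq
    have e1 := commutatorElement_eq_one_iff_commute.2 (tau p hp q hq)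
    have e2 := commutatorElement_eq_one_iff_commute.2 (tau q hq p hp).symm
    rw [br _ a1 _ (xm _ b1) _ (xm' _ b1)] at e1
    rw [bl _ (xm _ a1) _ (xm' _ a1) _ b1] at e2
    have e3 : ⁅r p, x⁻¹ * r q * x⁆ = ⁅r p, x * r q * x⁻¹⁆ := by
      rw [eq_inv_of_mul_eq_one_right e1, inv_eq_of_mul_eq_one_right (c2 _ a1 _ (xm _ b1))]
    have e4 : ⁅x⁻¹ * r p * x, r q⁆ = x⁻¹ * ⁅r p, x * r q * x⁻¹⁆ * x := by
      simp only [commutatorElement_def]; group
    have e5 : ⁅x * r p * x⁻¹, r q⁆ = x * ⁅r p, x⁻¹ * r q * x⁆ * x⁻¹ := by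
      simp only [commutatorElement_def]; group
    refine commutatorElement_eq_one_iff_commute.1 (h.fpf2 (cm _ a1 _ (xm _ b1)) ?_)
    rw [← e4, eq_inv_of_mul_eq_one_left e2, inv_eq_of_mul_eq_one_right (c2 _ (xm _ a1) _ b1), e5, e3]
  have sq : ∀ q ∈ Q, ∀ c ∈ Q, Commute c (q * q) := fun q hq c hc =>
    commutatorElement_eq_one_iff_commute.1 (by rw [br _ hc _ hq _ hq, c2 _ hc _ hq])
  have gen : ∀ c : G, (∀ q ∈ Q, Commute c (q * q)) → (∀ q ∈ Q, Commute c (r q)) →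
      (∀ q ∈ Q, Commute c (x * r q * x⁻¹)) → ∀ w ∈ Q, Commute c w := fun c h1 h3 h4 w hw => by
    obtain ⟨q, hq, rfl⟩ := h.surj hw
    have m1 := xm _ (cmem h.un (xm' _ hq))
    have e : q⁻¹ * (x⁻¹ * x⁻¹ * q * (x * x)) = (q * q)⁻¹ * (x * r (x⁻¹ * q * x) * x⁻¹) *
        ((x * (u * (x⁻¹ * q * x) * u⁻¹) * x⁻¹) * (x * (u * (x⁻¹ * q * x) * u⁻¹) * x⁻¹))⁻¹ *
          r (x * (u * (x⁻¹ * q * x) * u⁻¹) * x⁻¹) := by
      have e1 : u * (x * (u * (x⁻¹ * q * x) * u⁻¹) * x⁻¹) * u⁻¹ = x⁻¹ * x⁻¹ * q * (x * x) := by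
        calc _ = (u * x * u⁻¹) * (u * u) * (x⁻¹ * q * x) * (u * u)⁻¹ * (u * x⁻¹ * u⁻¹) := by group
          _ = _ := by rw [h.inv, h.inv', h.u_sq]; group
      simp only [hr]
      rw [e1]; group
    rw [e]
    exact (((h1 q hq).inv_right.mul_right (h4 _ (xm' q hq))).mul_right
      (h1 _ m1).inv_right).mul_right (h3 _ m1)
  refine gen a (fun q hq => sq q hq a ha) (fun q hq => (gen _ (fun p hp => sq p hp _ (rm q hq))
    (fun p hp => rr q hq p hp) (fun p hp => rx q hq p hp) a ha).symm)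
    (fun q hq => (gen _ (fun p hp => sq p hp _ (xm _ (rm q hq))) (fun p hp => (rx p hp q hq).symm)
      (fun p hp => ?_) a ha).symm) b hb
  have := (rr q hq p hp).eq
  rw [Commute, SemiconjBy, conj_mul, conj_mul, this]

theorem map {X : Type*} [Group X] [Finite X] {f : G →* X} (hf : Function.Surjective f)
    (hk : f.ker ≤ Q) : D10 (Q.map f) (f x) (f u) where
  o6 := h.o6.of_surjective f hf
  two := h.two.map f
  ox := by
    have := Fact.mk Nat.prime_five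
    refine orderOf_eq_prime (by rw [← map_pow, ← h.ox, pow_orderOf_eq_one, map_one]) fun e => ?_
    have e1 := h.fpf (hk e) rfl
    have := h.ox
    rw [e1, orderOf_one] at this
    omega
  xn := le_normalizer_map f (mem_map_of_mem f h.xn)
  un := le_normalizer_map f (mem_map_of_mem f h.un)
  uu := by rw [← map_mul]; exact mem_map_of_mem f h.uu
  inv := by rw [← map_inv, ← map_mul, ← map_mul, h.inv, map_inv]

theorem sq_normal [Q.Normal] : ∀ q ∈ Q, q * q = 1 := by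
  have h3 : ⁅⁅Q, Q⁆, Q⁆ ≤ Q := commutator_le_right _ _
  have h1 := h.map (QuotientGroup.mk'_surjective ⁅⁅Q, Q⁆, Q⁆) (by rwa [QuotientGroup.ker_mk'])
  have h4 : ⁅Q, Q⁆ ≤ ⁅⁅Q, Q⁆, Q⁆ := commutator_le.2 fun a ha b hb => by
    rw [← QuotientGroup.eq_one_iff, ← QuotientGroup.mk'_apply, map_commutatorElement,
      commutatorElement_eq_one_iff_commute]
    refine h1.comm_of_two ?_ (mem_map_of_mem _ ha) (mem_map_of_mem _ hb)
    rintro _ ⟨a, ha, rfl⟩ _ ⟨b, hb, rfl⟩ _ ⟨c, hc, rfl⟩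
    rw [← map_commutatorElement]
    refine (commutatorElement_eq_one_iff_commute.1 ?_).symm
    rw [← map_commutatorElement, QuotientGroup.mk'_apply, QuotientGroup.eq_one_iff]
    exact commutator_mem_commutator (commutator_mem_commutator ha hb) hc
  have := Fact.mk Nat.prime_two
  have h5 : ⁅Q, Q⁆ = ⊥ := eq_bot_of_le_commutator_of_isNilpotent h.two.isNilpotent
    (commutator_le_right _ _) h4
  exact fun q hq => h.z_sq hq fun p hp => commutatorElement_eq_one_iff_commute.1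
    (mem_bot.1 (h5 ▸ commutator_mem_commutator hp hq))

theorem sq : ∀ q ∈ Q, q * q = 1 := by
  have h1 : D10 (Q.subgroupOf 𝐍(Q)) ⟨x, h.xn⟩ ⟨u, h.un⟩ :=
    { o6 := h.o6.subgroup _
      two := h.two.comap_subtype
      ox := (orderOf_injective (Subgroup.subtype _) (Subgroup.subtype_injective _) _).symm.trans h.ox
      xn := le_normalizer_of_normal (K := ⊤) trivial
      un := le_normalizer_of_normal (K := ⊤) trivial
      uu := h.uu
      inv := Subtype.ext h.inv }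
  exact fun q hq => congrArg Subtype.val (h1.sq_normal ⟨q, le_normalizer hq⟩ hq)

end D10

theorem Pb.d10 {T Q : Subgroup G} {x u : G} (h : Pb T Q x u 5) (h6 : O6 G) : D10 Q x u :=
  ⟨h6, h.twoQ, h.ox, h.xn, h.tn h.um, h.sq_mem h.um, h.inv⟩

theorem Pb.sq5 {T Q : Subgroup G} {x u : G} (h : Pb T Q x u 5) (h6 : O6 G) :
    ∀ q ∈ Q, q * q = 1 := (h.d10 h6).sq

end CfsgLib.E6
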