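import Cfsg.Agent.Lib.E6.Kn
import Cfsg.Agent.Lib.E6.S1
import Cfsg.Agent.Lib.E6.S2
import Cfsg.Agent.Lib.E6.A5c

/-!
# Nonsolvable 2-local subgroups
-/

set_option autoImplicit false
set_option linter.unusedSectionVars false

namespace CfsgLib.E6

open Subgroup Cfsg CfsgLib.FT.BGN CfsgLib.Cit CfsgLib.H1 A5f
open scoped commutatorElement

universe u

variable {G : Type u} [Group G] [Finite G]

theorem card_A5 : Nat.card A5 = 60 := by
  have : 2 * Nat.card A5 = _ := two_mul_nat_card_alternatingGroup (α := Fin 5)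
  rw [Nat.card_perm, Nat.card_fin, show Nat.factorial 5 = 120 from rfl] at this
  omega

theorem ext0 (H : Ctx G) {U : Subgroup G} (hU : IsPGroup 2 U) (h0 : U ≠ ⊥)
    (hs : ¬ Group.IsSolvable 𝐍(U)) : ∃ f : 𝐍(U) →* A5, Function.Surjective f ∧
      (∀ a : 𝐍(U), f a = 1 ↔ (a : G) ∈ pCoreOf 2 𝐍(U)) ∧ (∀ q ∈ pCoreOf 2 𝐍(U), q * q = 1) ∧
      (pCoreOf 2 𝐍(U)).relIndex 𝐍(U) = 60 := by
  have := Fact.mk Nat.prime_two
  have h1 : 𝐍(U) ≠ ⊤ := fun e => hs (by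
    have h2 := (H.simple.eq_bot_or_eq_top_of_normal U (normalizer_eq_top_iff.1 e)).resolve_left h0
    have := (hU.to_le (le_top.trans h2.ge : 𝐍(U) ≤ U)).isNilpotent
    infer_instance)
  rcases kn (H.o6.subgroup 𝐍(U)) (fun X _ _ a b c d => H.ih X a b c (by
    have := card_lt_of_ne_top h1; omega)) hs with ⟨f, h2, h3⟩ | ⟨h2, -⟩
  · have h4 : f.ker = pCore 2 𝐍(U) := le_antisymm (le_pCore (isPGroup_of_sq h3)) (by
      have := alternatingGroup.isSimpleGroup (α := Fin 5) (by simp)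
      rcases this.eq_bot_or_eq_top_of_normal _ (Normal.map inferInstance f h2 :
        ((pCore 2 𝐍(U)).map f).Normal) with e | e
      · exact (Subgroup.map_eq_bot_iff _).1 e
      · obtain ⟨k, hk⟩ := IsPGroup.iff_card.1 ((pCore_isPGroup 2 (G := 𝐍(U))).map f)
        rw [e, card_top, card_A5] at hk
        have := Nat.prime_three.dvd_of_dvd_pow (hk ▸ (by norm_num : 3 ∣ 60))
        omega)
    refine ⟨f, h2, fun a => ?_, ?_, ?_⟩
    · rw [← MonoidHom.mem_ker, h4]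
      exact (mem_map_iff_mem (subtype_injective _)).symm
    · rintro _ ⟨q, hq, rfl⟩
      exact congrArg Subtype.val (h3 q (h4 ▸ hq))
    · rw [relIndex, pCoreOf, subgroupOf, comap_map_eq_self_of_injective (subtype_injective _), ← h4,
        index_ker, MonoidHom.range_eq_top.2 h2, card_top, card_A5]
  · refine absurd (le_bot_iff.1 ((le_pCoreOf le_normalizer le_rfl hU).trans ?_)) h0
    rw [pCoreOf, h2, Subgroup.map_bot]

theorem ext (H : Ctx G) (hc : Ch2 G) {U : Subgroup G} (hU : IsPGroup 2 U) (h0 : U ≠ ⊥)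
    (hs : ¬ Group.IsSolvable 𝐍(U)) :
    ∃ Q F, 𝐍(Q) = 𝐍(U) ∧ ∀ S, IsSylowIn 2 S 𝐍(U) → NQ Q S F := by
  obtain ⟨-, -, -, -, h1⟩ := ext0 H hU h0 hs
  have h2 := hc U hU h0
  have h3 := le_normalizer_pCoreOf (p := 2) 𝐍(U)
  set Q := pCoreOf 2 𝐍(U)
  have hQ : IsPGroup 2 Q := pCoreOf_isPGroup _
  obtain ⟨f, h4, h5, h6, h7⟩ := ext0 H hQ
    (ne_bot_of_le_ne_bot h0 (le_pCoreOf le_normalizer le_rfl hU))
    fun e => hs (Group.isSolvable_of_isSolvable_injective (inclusion_injective h3))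
  have h8 : Q ≤ pCoreOf 2 𝐍(Q) := le_pCoreOf le_normalizer le_rfl hQ
  have h0 := le_antisymm (((le_cent_of_sq h6).trans (centralizer_le h8)).trans h2) h8
  rw [h0] at h5 h6 h7
  have h9 : 𝐍(U) = 𝐍(Q) := eq_of_le_of_card_ge h3 (by
    rw [← card_mul_relIndex (le_normalizer : Q ≤ 𝐍(Q)), h7, ← h1, card_mul_relIndex (pCoreOf_le _)])
  classical
  refine ⟨Q, fun g => if e : g ∈ 𝐍(Q) then f ⟨g, e⟩ else 1, h9.symm, fun S hS =>
    ⟨H.o6, h6, h2, fun ha hb => ?_, fun y => ?_, fun ha => ?_, h7, h9 ▸ hS⟩⟩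
  · rw [dif_pos ha, dif_pos hb, dif_pos (mul_mem ha hb), ← map_mul]; rfl
  · obtain ⟨a, rfl⟩ := h4 y
    exact ⟨a, a.2, dif_pos a.2⟩
  · rw [dif_pos ha, h5]

theorem mem_of_two_norm {S H : Subgroup G} (hS : IsSylowIn 2 S H) {s : G} (h1 : Two s) (h2 : s ∈ H)
    (h3 : s ∈ 𝐍(S)) : s ∈ S :=
  have := Fact.mk Nat.prime_two
  (hS.eq_of_le (h1.to_sup_of_normal_right' hS.isPGroup (zpowers_le.2 h3)) le_sup_right
    (sup_le (zpowers_le.2 h2) hS.le)).le (mem_sup_left (mem_zpowers s))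

namespace NQ

variable {Q S : Subgroup G} {F : G → A5} (h : NQ Q S F)
include h

theorem sylow : IsSylowIn 2 S ⊤ := by
  have := Fact.mk Nat.prime_two
  refine IsSylowIn.of_maximal le_top h.twoS fun P hP h1 _ => by_contra fun h2 => ?_
  obtain ⟨t, h3, h4⟩ := SetLike.exists_of_lt
    (lt_inf_normalizer_of_isPGroup hP (lt_of_le_not_ge h1 h2))
  obtain ⟨s, h5, h6, h7⟩ : ∃ s ∈ P ⊓ 𝐍(S), s ∉ S ∧ s * s ∈ S := by
    by_cases e : t * t ∈ S
    · exact ⟨t, h3, h4, e⟩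
    · exact ⟨t * t, mul_mem h3 h3, e, h.o6.four hP h3.1 ▸ S.one_mem⟩
  have h8 : s ∉ 𝐍(Q) := fun e => h6 (mem_of_two_norm h.syl (two_of_mem hP h5.1) e h5.2)
  have h9 : s •ᶜ Q ≤ S := (map_mono h.le).trans (cj_eq h5.2).le
  have h10 : s •ᶜ Q ≠ Q := fun e => h8 (mem_norm e)
  exact swap h.o6 h.twoS h5.2 h7 h.sq h.le h.sn
    (fun t ht => h.nat_mul (sq_cj h.sq s) h9 (card_map_conj _ _) h10 ht) h8
    fun a ha b hb e => h.nat_cent (sq_cj h.sq s) h9 (card_map_conj _ _) h10 ha hb e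

theorem norm_le : 𝐍(S) ≤ 𝐍(Q) := fun s hs => by_contra fun h1 => by
  have h2 : s •ᶜ Q ≤ S := (map_mono h.le).trans (cj_eq hs).le
  have h3 : s •ᶜ Q ≠ Q := fun e => h1 (mem_norm e)
  have h4 : s * s ∈ 𝐍(Q) := by
    rcases (SubgroupClass.subset_union (H := s •ᶜ (s •ᶜ Q))).1 (fun t ht =>
      h.nat_inv (sq_cj h.sq s) h2 (card_map_conj _ _) h3 ((map_mono h2).trans (cj_eq hs).le ht)
        (sq_cj (sq_cj h.sq s) s t ht)) with e | e
    · exact mem_normalizer_of_conj_mem fun q hq => e (by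
        simpa only [mul_inv_rev, mul_assoc] using cj_mem (g := s) (cj_mem (g := s) hq))
    · exact absurd (mem_normalizer_of_conj_mem fun q hq => by
        simpa [mul_assoc] using mem_cj.1 (e (cj_mem (g := s) (cj_mem (g := s) hq)))) h1
  have h5 : s ^ 15 ∈ S := mem_of_two_norm h.sylow (two_of_sq_mem (D := zpowers (s ^ 30))
    (two_of_sq (by rw [← pow_add, h.o6.pow_sixty])) (by rw [← pow_add]; exact mem_zpowers _))
    (mem_top _) (pow_mem hs 15)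
  have h6 := mul_mem (h.sn h5) (inv_mem (pow_mem h4 7))
  rw [← pow_two, ← pow_mul, pow_succ', mul_inv_cancel_right] at h6
  exact h1 h6

theorem loc (hc : Ch2 G) {V : Subgroup G} (hV : IsPGroup 2 V) (h0 : V ≠ ⊥) (h1 : S ≤ 𝐍(V))
    (hs : Group.IsSolvable 𝐍(V)) : 𝐍(V) ≤ 𝐍(Q) :=
  par h.o6 hs (hc V hV h0) (h.sylow.mono h1 le_top) (inf_le_right.trans h.norm_le)
    fun _ _ _ _ p _ => h.pb p

section nat

variable {E : Subgroup G} (hE : ∀ a ∈ E, a * a = 1) (hl : E ≤ S) (hc : Nat.card E = Nat.card Q)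
  (hne : E ≠ Q)
include hE hl hc hne

theorem nat_cover {q : G} (hq : q ∈ Q) : ∃ g : G, ∃ z ∈ Q ⊓ E, g * z * g⁻¹ = q := by
  by_cases e : q = 1
  · exact ⟨1, 1, one_mem _, by simp [e]⟩
  obtain ⟨h1, h2⟩ := h.nat_card hE hl hc hne
  obtain ⟨a, ha, ha'⟩ := h.nat_ex hE hl hc hne
  obtain ⟨g, hg, h3⟩ := h.ex5
  obtain ⟨t, -, h4⟩ := (count_conj (T := zpowers g) (D := ⊥) (V := Q) (W := ⊥) (W' := Q ⊓ E)
    (zpowers_le.2 hg) bot_le inf_le_left (fun t _ w _ h4 => by simpa using h4)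
    (fun t ht w hw h4 h5 => by_contra fun h6 => h4 (by
      have h7 := zpowers_le.2 hg ht
      have h8 : t ^ 5 = 1 := by
        rw [← h3]; exact orderOf_dvd_iff_pow_eq_one.1 (orderOf_dvd_of_mem_zpowers ht)
      have h9 : F t ≠ 1 := fun e => h6 (mem_bot.2 (by
        have h9 := h.sq t ((h.ker h7).1 e)
        rwa [show t ^ 5 = t * t * (t * t) * t by simp only [pow_succ, pow_zero, one_mul, mul_assoc],
          h9, one_mul, one_mul] at h8))
      simpa using h.disj (hl ha) ha' h7 (nc_five _ (by rw [← h.pow h7, h8, h.one]) h9 _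
        (h.F_sq (hl ha)) (h.F_ne (hl ha) ha')) h5.1 (fun s hs => h.nat_z hE hl hc hne h5 hs)
        fun s hs => by simpa [mul_assoc] using h.nat_z hE hl hc hne hw hs))).2 (by
      rw [relIndex_bot_left, Nat.card_zpowers, h3, h2, card_bot, h1]) q hq (by simpa using e)
  exact ⟨t, h4⟩

theorem nat_three {y z : G} (hy : orderOf y = 3) (h1 : y ∈ 𝐍(Q)) (h2 : y ∈ 𝐍(E)) (hz : z ∈ Q ⊓ E)
    (h3 : z ≠ 1) (h4 : z * y = y * z) : False := by
  obtain ⟨h5, h6⟩ := h.nat_card hE hl hc hne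
  obtain ⟨a, ha, ha'⟩ := h.nat_ex hE hl hc hne
  have : Fact (Nat.Prime 3) := ⟨Nat.prime_three⟩
  have h7 : Q ⊓ E ≤ 𝐂[y] := by
    have h7 := card_modEq_card_inf_centralizer_elem (p := 3) (U := Q ⊓ E)
      (IsPGroup.of_card (n := 1) (by rw [Nat.card_zpowers, hy, pow_one]))
      (zpowers_le.1 (le_normalizer_inf (zpowers_le.2 h1) (zpowers_le.2 h2)))
    have h8 := card_le_of_le (inf_le_left : Q ⊓ E ⊓ 𝐂[y] ≤ Q ⊓ E)
    have h9 : Nat.card ↥(Q ⊓ E ⊓ 𝐂[y]) ≠ 1 := fun e => h3 (mem_bot.1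
      ((card_eq_one.1 e).le ⟨hz, mem_centralizer_singleton_iff.2 h4⟩))
    rw [h6, Nat.ModEq] at h7
    exact (eq_of_le_of_card_ge inf_le_left (by omega)).ge.trans inf_le_right
  have y3 : y * y * y = 1 := by
    rw [← pow_orderOf_eq_one y, hy]; simp only [pow_succ, pow_zero, one_mul]
  have h8 : y ∉ Q := fun e => by
    rw [h.sq y e, one_mul] at y3
    rw [y3, orderOf_one] at hy
    omega
  obtain ⟨i, h9, h10⟩ := inverter _ (h.F_sq (hl ha)) (h.F_ne (hl ha) ha') (F y)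
    (by rw [← h.mul h1 h1, ← h.mul (mul_mem h1 h1) h1, y3, h.one]) fun e => h8 ((h.ker h1).1 e)
  obtain ⟨i, hi, rfl⟩ := h.surj i
  have h11 := mul_mem (mul_mem hi h1) (inv_mem hi)
  rw [← h.conj hi h1, ← h.mul h11 h1, h.ker (mul_mem h11 h1)] at h9
  have h12 : i •ᶜ (Q ⊓ E) ≤ Q := (map_mono inf_le_left).trans (cj_eq hi).le
  have h13 : i •ᶜ (Q ⊓ E) ≤ 𝐂[y] := fun e he => mem_centralizer_singleton_iff.2 (by
    have h13 : Commute (i * y * i⁻¹) e := by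
      calc i * y * i⁻¹ * e = i * (y * (i⁻¹ * e * i)) * i⁻¹ := by group
        _ = _ := by rw [← mem_centralizer_singleton_iff.1 (h7 (mem_cj.1 he))]; group
    have := h13.inv_left.mul_left (h.comm h9 (h12 he))
    rw [inv_mul_cancel_left] at this
    exact this.symm)
  have h14 := card_mul_le (Q := Q ⊓ 𝐂[y]) (le_inf inf_le_left h7) (le_inf h12 h13)
    fun e he he' => h.disj (hl ha) ha' hi h10 he.1 (fun s hs => h.nat_z hE hl hc hne he hs)
      fun s hs => h.nat_z hE hl hc hne (mem_cj.1 he') hs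
  rw [card_map_conj, h6] at h14
  exact h8 (h.ch (mem_centralizer_iff.2 fun q hq => mem_centralizer_singleton_iff.1
    ((eq_of_le_of_card_ge inf_le_left (by omega)).ge hq).2))

end nat

end NQ

theorem a5_sylow (H : Ctx G) (hc : Ch2 G) {U T : Subgroup G} (hU : IsPGroup 2 U) (h0 : U ≠ ⊥)
    (hs : ¬ Group.IsSolvable 𝐍(U)) (hT : IsSylowIn 2 T 𝐍(U)) : IsSylowIn 2 T ⊤ :=
  have ⟨_, _, _, h⟩ := ext H hc hU h0 hs
  (h T hT).sylow

theorem a5_main (H : Ctx G) (hc : Ch2 G) {U S : Subgroup G} (hU : IsPGroup 2 U) (h0 : U ≠ ⊥)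
    (hs : ¬ Group.IsSolvable 𝐍(U)) (hS : IsSylowIn 2 S 𝐍(U)) :
    CIT G ∨ ∀ V : Subgroup G, IsPGroup 2 V → V ≠ ⊥ → S ≤ 𝐍(V) → 𝐍(V) ≤ 𝐍(U) := by
  have := Fact.mk Nat.prime_two
  obtain ⟨Q, F, e, h⟩ := ext H hc hU h0 hs
  replace h := h S hS
  rw [← e, or_iff_not_imp_right]
  intro h1
  push Not at h1
  obtain ⟨V, hV, h1, h2, h3⟩ := h1
  obtain ⟨E, F', e', h'⟩ := ext H hc hV h1 fun hs => h3 (h.loc hc hV h1 h2 hs)
  replace h' := h' S (h.sylow.mono h2 le_top)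
  have hne : E ≠ Q := fun e => h3 (by rw [← e', e])
  have hcd : Nat.card E = Nat.card Q := by
    have := h.card_S
    have := h'.card_S
    omega
  refine H.o6.cit fun t y h4 h5 h6 h7 => ?_
  obtain ⟨g, z, hz, rfl⟩ : ∃ g : G, ∃ z ∈ Q ⊓ E, g * z * g⁻¹ = t := by
    obtain ⟨g, -, hg⟩ := h.sylow.exists_conj_le (two_of_sq h4) le_top
    have key : (∃ k : G, ∃ z ∈ Q ⊓ E, k * z * k⁻¹ = g * t * g⁻¹) →
        ∃ g : G, ∃ z ∈ Q ⊓ E, g * z * g⁻¹ = t := fun ⟨k, z, hz, e⟩ => ⟨g⁻¹ * k, z, hz, by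
      calc _ = g⁻¹ * (k * z * k⁻¹) * g := by group
        _ = _ := by rw [e]; group⟩
    rcases h.nat_inv h'.sq h'.le hcd hne (hg (cj_mem (mem_zpowers t)))
      (by rw [conj_mul, h4, mul_one, mul_inv_cancel]) with e | e
    · exact key (h.nat_cover h'.sq h'.le hcd hne e)
    · exact key (inf_comm E Q ▸ h'.nat_cover h.sq h.le hcd.symm hne.symm e)
  have h8 : z ≠ 1 := fun e => h5 (by simp [e])
  have h9 := two_of_sq (h.sq z hz.1)
  have h10 : zpowers z ≠ ⊥ := by simpa using h8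
  have h11 : ∀ s, z * s = s * z → s ∈ 𝐍(zpowers z) := fun s hs => centralizer_le_normalizer _
    (mem_centralizer_iff.2 fun c hc => by
      obtain ⟨n, rfl⟩ := hc
      exact Commute.zpow_left hs n)
  have h12 : S ≤ 𝐍(zpowers z) := fun s hs => h11 s (h.nat_z h'.sq h'.le hcd hne hz hs).symm
  have h13 : Group.IsSolvable 𝐍(zpowers z) := by_contra fun hs => by
    obtain ⟨Q', F'', e'', h''⟩ := ext H hc h9 h10 hs
    obtain ⟨c, h13, h14⟩ := (h'' S (h.sylow.mono h12 le_top)).ex5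
    rw [e''] at h13
    refine h8 (H.o6.eq_one_of_comm5 h14 h9 ?_)
    have h15 := mem_bot.1 (mul_mem_of_card_le bot_le (by
      rw [Nat.card_zpowers, orderOf_eq_prime (p := 2) (by rw [pow_two, h.sq z hz.1]) h8, card_bot])
      (cmem h13 (mem_zpowers z)) (by simpa using h8) (mem_zpowers z) (by simpa using h8))
    rwa [← h.sq z hz.1, mul_left_inj, mul_inv_eq_iff_eq_mul] at h15
  have h14 : z * (g⁻¹ * y * g) = g⁻¹ * y * g * z := by
    calc _ = g⁻¹ * (g * z * g⁻¹ * y) * g := by group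
      _ = _ := by rw [h6]; group
  exact h.nat_three h'.sq h'.le hcd hne (by
    simpa using (MulEquiv.orderOf_eq (MulAut.conj g⁻¹) y).trans h7)
    (h.loc hc h9 h10 h12 h13 (h11 _ h14)) (h'.loc hc h9 h10 h12 h13 (h11 _ h14)) hz h8 h14

end CfsgLib.E6
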