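import Cfsg.Agent.Lib.E6.Defs

/-!
# An abelian normal subgroup of T outside Q; the swap lemma
-/

set_option autoImplicit false

namespace CfsgLib.E6

open Subgroup Cfsg CfsgLib.FT.BGN CfsgLib.Cit CfsgLib.H1
open scoped commutatorElement

universe u

variable {G : Type*} [Group G] [Finite G]

theorem Pb.mem_of_mul {T Q M : Subgroup G} {x u : G} {r : ℕ} (h : Pb T Q x u r) (h6 : O6 G)
    (hM : ∀ q ∈ Q, ∀ g ∈ M, q * g * q⁻¹ ∈ M) {q : G} (hq : q ∈ Q) (hg : x * x * q ∈ M) :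
    x ∈ M := by
  have h1 : ∀ n : ℕ, (x * x) ^ n * q ^ n ∈ M := fun n => by
    induction n with
    | zero => simp
    | succ n ih =>
      have : (x * x) ^ (n + 1) * q ^ (n + 1) =
          (x * x) ^ n * q ^ n * ((q ^ n)⁻¹ * (x * x * q) * (q ^ n)⁻¹⁻¹) := by
        rw [pow_succ, pow_succ']; group
      rw [this]
      exact M.mul_mem ih (hM _ (inv_mem (pow_mem hq n)) _ hg)
  have h2 := h1 4
  have h3 : q ^ 4 = 1 := by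
    rw [← h6.four h.twoQ hq]; simp only [pow_succ, pow_zero, one_mul, mul_assoc]
  rw [h3, mul_one, ← pow_two, ← pow_mul] at h2
  refine zpowers_le.2 h2 (mem_zpowers_pow_iff.2 ?_)
  rw [h.ox]
  rcases h.r35 with rfl | rfl <;> norm_num

/-- A `Q`-invariant subgroup containing `a ∈ T - Q` and its conjugate under `x` contains `x`. -/
theorem Pb.mem_of {T Q M : Subgroup G} {x u : G} {r : ℕ} (h : Pb T Q x u r) (h6 : O6 G)
    (hM : ∀ q ∈ Q, ∀ g ∈ M, q * g * q⁻¹ ∈ M) {a : G} (ha : a ∈ T) (ha' : a ∉ Q) (h1 : a ∈ M)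
    (h2 : x * a * x⁻¹ ∈ M) : x ∈ M := by
  refine h.mem_of_mul h6 hM (h.symm.inv_mod ha ha') ?_
  have : x * x * (x⁻¹ * (a * x⁻¹ * a⁻¹)) = x * a * x⁻¹ * a⁻¹ := by group
  rw [this]
  exact M.mul_mem h2 (inv_mem h1)

theorem norm_cj_of {Q B : Subgroup G} {x : G} (hx : x ∈ 𝐍(Q)) (h : Q ≤ 𝐍(B)) : Q ≤ 𝐍(x •ᶜ B) := by
  rw [norm_cj, ← cj_eq hx]; exact map_mono h

theorem cent_cj_of {A B : Subgroup G} (h : A ≤ 𝐂(B)) (x : G) {a b : G} (ha : a ∈ x •ᶜ A)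
    (hb : b ∈ x •ᶜ B) : a * b = b * a := by
  have := mem_centralizer_iff.1 (h (mem_cj.1 ha)) _ (mem_cj.1 hb)
  calc a * b = x * (x⁻¹ * a * x * (x⁻¹ * b * x)) * x⁻¹ := by group
    _ = _ := by rw [← this]; group

/-- `B` is an abelian normal subgroup of `T` not contained in `Q`. -/
structure AB (T Q B : Subgroup G) (x u k : G) : Prop extends Pb T Q x u 3 where
  o6 : O6 G
  bt : B ≤ T
  nb : T ≤ 𝐍(B)
  ab : B ≤ 𝐂(B)
  km : k ∈ B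
  kn : k ∉ Q

namespace AB

variable {T Q B : Subgroup G} {x u k : G} (h : AB T Q B x u k)
include h

theorem bcomm {a b : G} (ha : a ∈ B) (hb : b ∈ B) : a * b = b * a :=
  (mem_centralizer_iff.1 (h.ab ha) b hb).symm

theorem n0 : T ≤ 𝐍(B ⊓ Q) := le_normalizer_inf h.nb h.tn

theorem n1 : Q ≤ 𝐍(x •ᶜ (B ⊓ Q)) := norm_cj_of h.xn (h.le.trans h.n0)

theorem le1 : x •ᶜ (B ⊓ Q) ≤ Q := (map_mono inf_le_right).trans (cj_eq h.xn).le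

theorem comm1 {a b : G} (ha : a ∈ x •ᶜ (B ⊓ Q)) (hb : b ∈ x •ᶜ (B ⊓ Q)) : a * b = b * a :=
  cent_cj_of h.ab x (map_mono inf_le_left ha) (map_mono inf_le_left hb)

theorem x3 : x * x * x = 1 := by
  rw [← h.xpow]; simp only [pow_succ, pow_zero, one_mul]

theorem x_inv : x⁻¹ = x * x := inv_eq_of_mul_eq_one_left h.x3

/-- elements of `T - Q` map `B₁` to `B₂` -/
theorem swap1 {a y : G} (ha : a ∈ T) (ha' : a ∉ Q) (h1 : y ∈ x •ᶜ (B ⊓ Q)) :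
    x * (a * y * a⁻¹) * x⁻¹ ∈ B ⊓ Q := by
  have : x * (a * y * a⁻¹) * x⁻¹ =
      x * (a * x * a⁻¹) * a * (x⁻¹ * y * x) * (x * (a * x * a⁻¹) * a)⁻¹ := by group
  rw [this]
  exact cmem (h.n0 (T.mul_mem (h.le (h.inv_mod ha ha')) ha)) (mem_cj.1 h1)

/-- elements of `T - Q` map `B₂` to `B₁` -/
theorem swap2 {a y : G} (ha : a ∈ T) (ha' : a ∉ Q) (h1 : x * y * x⁻¹ ∈ B ⊓ Q) :
    a * y * a⁻¹ ∈ x •ᶜ (B ⊓ Q) := by
  rw [mem_cj]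
  have : x⁻¹ * (a * y * a⁻¹) * x =
      x⁻¹ * (a * x⁻¹ * a⁻¹) * a * (x * y * x⁻¹) * (x⁻¹ * (a * x⁻¹ * a⁻¹) * a)⁻¹ := by group
  rw [this]
  exact cmem (h.n0 (T.mul_mem (h.le (h.toPb.symm.inv_mod ha ha')) ha)) h1

/-- `Z₀ = B₀ ∩ B₁` is centralized by `x`. -/
theorem z0_fix {y : G} (h0 : y ∈ B) (h1 : y ∈ x •ᶜ (B ⊓ Q)) : x * y = y * x := by
  have h2 : Q ≤ 𝐍(𝐂(B ⊓ x •ᶜ (B ⊓ Q))) :=
    le_normalizer_centralizer (le_normalizer_inf (h.le.trans h.nb) h.n1)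
  have := h.toPb.mem_of h.o6 (M := 𝐂(B ⊓ x •ᶜ (B ⊓ Q))) (fun q hq g hg => cmem (h2 hq) hg)
    (h.bt h.km) h.kn (mem_centralizer_iff.2 fun g hg => h.bcomm hg.1 h.km)
    (mem_centralizer_iff.2 fun g hg =>
      cent_cj_of h.ab x (map_mono inf_le_left hg.2) (cj_mem h.km))
  exact (mem_centralizer_iff.1 this y ⟨h0, h1⟩).symm

theorem z0_sq {y : G} (h0 : y ∈ B) (h1 : y ∈ x •ᶜ (B ⊓ Q)) : y * y = 1 :=
  h.o6.sq_of_comm3 h.ox (two_of_mem h.two (h.bt h0)) (h.z0_fix h0 h1)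

theorem comm_k {y : G} (h1 : y ∈ Q) : ⁅y, k⁆ ∈ B ⊓ Q := by
  refine ⟨B.mul_mem (cmem (h.nb (h.le h1)) h.km) (inv_mem h.km), ?_⟩
  have : ⁅y, k⁆ = y * (k * y⁻¹ * k⁻¹) := by simp only [commutatorElement_def, mul_assoc]
  rw [this]
  exact Q.mul_mem h1 (h.conj_mem (h.bt h.km) (inv_mem h1))

/-- `[B₀, B₁] ≤ Z₀`. -/
theorem comm_mem {a y : G} (h0 : a ∈ B ⊓ Q) (h1 : y ∈ x •ᶜ (B ⊓ Q)) :
    ⁅y, a⁆ ∈ B ∧ ⁅y, a⁆ ∈ x •ᶜ (B ⊓ Q) := by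
  refine ⟨B.mul_mem (cmem (h.nb (h.le (h.le1 h1))) h0.1) (inv_mem h0.1), ?_⟩
  have : ⁅y, a⁆ = y * (a * y⁻¹ * a⁻¹) := by simp only [commutatorElement_def, mul_assoc]
  rw [this]
  exact mul_mem h1 (cmem (h.n1 h0.2) (inv_mem h1))

/-- `θ` is injective. -/
theorem inj {y : G} (h1 : y ∈ x •ᶜ (B ⊓ Q)) (h2 : ⁅y, k⁆ ∈ x •ᶜ (B ⊓ Q)) : y ∈ B := by
  have h3 : k * y * k⁻¹ ∈ x •ᶜ (B ⊓ Q) := by
    have : k * y * k⁻¹ = ⁅y, k⁆⁻¹ * y := by simp only [commutatorElement_def]; group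
    rw [this]
    exact mul_mem (inv_mem h2) h1
  have h4 := h.swap1 (h.bt h.km) h.kn h1
  have h5 : x⁻¹ * (k * y * k⁻¹) * x ∈ x •ᶜ (B ⊓ Q) := by
    rw [mem_cj]
    have : x⁻¹ * (x⁻¹ * (k * y * k⁻¹) * x) * x = (x * x)⁻¹ * (k * y * k⁻¹) * (x * x) := by group
    rwa [this, ← h.x_inv, inv_inv]
  have h6 := h.z0_fix (mem_cj.1 h3).1 h5
  have h7 : k * y * k⁻¹ = x⁻¹ * (k * y * k⁻¹) * x := by
    calc _ = x * (x⁻¹ * (k * y * k⁻¹) * x) * x⁻¹ := by group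
      _ = _ := by rw [h6]; group
  have h8 : k * y * k⁻¹ ∈ B := h7 ▸ (mem_cj.1 h3).1
  simpa [mul_assoc] using cmem (inv_mem (h.nb (h.bt h.km))) h8

/-- `θ` is surjective. -/
theorem surj {a : G} (h0 : a ∈ B ⊓ Q) :
    ∃ y ∈ x •ᶜ (B ⊓ Q), a * ⁅y, k⁆ ∈ x •ᶜ (B ⊓ Q) := by
  have hk := h.bt h.km
  have hk' : k⁻¹ ∉ Q := by simpa using h.kn
  have h1 : k⁻¹ * (x⁻¹ * a * x) * k⁻¹⁻¹ ∈ x •ᶜ (B ⊓ Q) :=
    h.swap2 (inv_mem hk) hk' (by simpa [mul_assoc] using h0)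
  set y0 := k⁻¹ * (x⁻¹ * a * x) * k⁻¹⁻¹ with hy0
  have h2 : k⁻¹ * (x * y0 * x⁻¹) * k⁻¹⁻¹ ∈ x •ᶜ (B ⊓ Q) := by
    refine h.swap2 (inv_mem hk) hk' ?_
    have : x * (x * y0 * x⁻¹) * x⁻¹ = (x * x) * y0 * (x * x)⁻¹ := by group
    rw [this, ← h.x_inv, inv_inv]
    exact mem_cj.1 h1
  refine ⟨_, h2, ?_⟩
  set y := k⁻¹ * (x * y0 * x⁻¹) * k⁻¹⁻¹ with hy
  have h3 : a * ⁅y, k⁆ = x * ⁅y0, k⁆⁻¹ * x⁻¹ * ((k * y * k⁻¹) * y * (k * y * k⁻¹)⁻¹) := by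
    rw [hy, hy0]; simp only [commutatorElement_def]; group
  rw [h3]
  exact mul_mem (cj_mem (inv_mem (h.comm_k (h.le1 h1))))
    (cmem (h.n1 (h.conj_mem hk (h.le1 h2))) h2)

/-- `B₁ ≠ Z₀`. -/
theorem not_le : ¬ x •ᶜ (B ⊓ Q) ≤ B := fun e => by
  have h1 : ∀ b ∈ B ⊓ Q, x * b = b * x := fun b hb => by
    have := h.z0_fix (e (cj_mem hb)) (cj_mem hb)
    rw [inv_mul_cancel_right] at this
    have h2 : x * (x * b) = x * (b * x) := by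
      calc _ = x * (x * b * x⁻¹) * x := by group
        _ = _ := by rw [this]; group
    exact mul_left_cancel h2
  have h2 : ∀ b ∈ B ⊓ Q, x * b * x⁻¹ ∈ B ⊓ Q := fun b hb => by
    rwa [h1 b hb, mul_inv_cancel_right]
  have hx : x ∈ 𝐍(B ⊓ Q) := mem_normalizer_iff.2 fun b => ⟨h2 b, fun hb => by
    have := h1 _ hb
    rw [inv_mul_cancel_right] at this
    rwa [mul_left_cancel this] at hb⟩
  have h3 : ∀ q ∈ Q, ⁅k, q⁆ ∈ B ⊓ Q := fun q hq => by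
    rw [← commutatorElement_inv]; exact inv_mem (h.comm_k hq)
  have h4 : x ∈ CommCalc.relCent (B ⊓ Q) Q := by
    refine h.toPb.mem_of h.o6 (fun q hq g hg => ?_) (h.bt h.km) h.kn ⟨h.n0 (h.bt h.km), h3⟩
      ⟨mul_mem (mul_mem hx (h.n0 (h.bt h.km))) (inv_mem hx), fun q hq => ?_⟩
    · have : q * g * q⁻¹ = ⁅g, q⁆⁻¹ * g := by simp only [commutatorElement_def]; group
      rw [this]
      have h5 := inv_mem (hg.2 q hq)
      refine mul_mem ⟨le_normalizer h5, fun t ht => ?_⟩ hg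
      have : ⁅⁅g, q⁆⁻¹, t⁆ = ⁅g, q⁆⁻¹ * (t * ⁅g, q⁆⁻¹⁻¹ * t⁻¹) := by
        simp only [commutatorElement_def, mul_assoc]
      rw [this]
      exact mul_mem h5 (cmem (h.n0 (h.le ht)) (inv_mem h5))
    · have : ⁅x * k * x⁻¹, q⁆ = x * ⁅k, x⁻¹ * q * x⁆ * x⁻¹ := by
        simp only [commutatorElement_def]; group
      rw [this]
      exact h2 _ (h3 _ (h.xmem' hq))
  have h5 : ⁅Q, zpowers x⁆ = ⊥ := by
    refine Cop.commutator_eq_bot_of_le_of_centralizes (N := B ⊓ Q) ?_ ?_ ?_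
    · rw [commutator_comm]
      exact commutator_le.2 fun g hg q hq => (zpowers_le.2 h4 hg).2 q hq
    · exact Cop.commutator_eq_bot_iff_le_centralizer'.2
        (zpowers_le.2 (mem_centralizer_iff.2 fun b hb => (h1 b hb).symm))
    · have : Fact (Nat.Prime 2) := ⟨Nat.prime_two⟩
      exact Cop.coprime_card_of_isPGroup (by rw [Nat.card_zpowers, h.ox]; norm_num)
        (h.twoQ.to_le inf_le_right)
  exact h.not_cent (Cop.commutator_eq_bot_iff_le_centralizer'.1 h5 (mem_zpowers x))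

/-- `B₁ / Z₀` is elementary. -/
theorem sq0 {a : G} (h0 : a ∈ B ⊓ Q) : a * a ∈ x •ᶜ (B ⊓ Q) := by
  obtain ⟨y, hy, h1⟩ := h.surj h0
  have hk := h.bt h.km
  have h2 := h.comm_k (h.le1 hy)
  have h3 : ⁅y, k⁆⁻¹ * (k * k) ∈ Q := Q.mul_mem (inv_mem h2.2) (h.sq_mem hk)
  have h4 : y * (⁅y, k⁆⁻¹ * y * ⁅y, k⁆⁻¹⁻¹) ∈ x •ᶜ (B ⊓ Q) :=
    mul_mem hy (cmem (h.n1 (inv_mem h2.2)) hy)
  have h5 := h.o6.four h.two (T.mul_mem (h.le (h.le1 hy)) hk)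
  set c := ⁅y, k⁆ with hc
  have h6 : y * k * (y * k) = y * (c⁻¹ * y * c⁻¹⁻¹) * (c⁻¹ * (k * k)) := by
    rw [hc]; simp only [commutatorElement_def]; group
  rw [h6] at h5
  set y1 := y * (c⁻¹ * y * c⁻¹⁻¹)
  set w := c⁻¹ * (k * k) with hw
  have h7 : w * w = (y1 * (w * y1 * w⁻¹))⁻¹ := by
    rw [eq_inv_iff_mul_eq_one, mul_eq_one_comm, ← h5]; group
  have h8 : w * w ∈ x •ᶜ (B ⊓ Q) := h7 ▸ inv_mem (mul_mem h4 (cmem (h.n1 h3) h4))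
  have h9 : w * w = (c * c)⁻¹ := by
    have e1 := h.bcomm (B.mul_mem h.km h.km) (inv_mem h2.1)
    calc w * w = c⁻¹ * (k * k * c⁻¹) * (k * k) := by rw [hw]; group
      _ = c⁻¹ * c⁻¹ * (k * k * (k * k)) := by rw [e1]; group
      _ = _ := by rw [h.o6.four h.two hk]; group
  have h10 : a * a = a * c * (a * c) * (c * c)⁻¹ := by
    have e1 := h.bcomm h2.1 h0.1
    calc a * a = a * (a * c) * c * (c * c)⁻¹ := by group
      _ = a * (c * a) * c * (c * c)⁻¹ := by rw [e1]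
      _ = _ := by simp only [mul_assoc]
  rw [h10, ← h9]
  exact mul_mem (mul_mem h1 h1) h8

theorem sq {y : G} (h1 : y ∈ x •ᶜ (B ⊓ Q)) : y * y ∈ B := by
  have h0 := mem_cj.1 h1
  have h2 := h.z0_fix (B.mul_mem h0.1 h0.1) (h.sq0 h0)
  have : y * y = x⁻¹ * y * x * (x⁻¹ * y * x) := by
    calc _ = x * (x⁻¹ * y * x * (x⁻¹ * y * x)) * x⁻¹ := by group
      _ = _ := by rw [h2]; group
  rw [this]
  exact B.mul_mem h0.1 h0.1

/-- If `|B₁ : Z₀| = 2` and `B` is elementary, then `B₁` centralizes `B₀`. -/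
theorem cent_of_two (hB : ∀ b ∈ B, b * b = 1)
    (h2 : ∀ y ∈ x •ᶜ (B ⊓ Q), ∀ y' ∈ x •ᶜ (B ⊓ Q), y ∉ B → y' ∉ B → y * y' ∈ B)
    {a y : G} (h0 : a ∈ B ⊓ Q) (h1 : y ∈ x •ᶜ (B ⊓ Q)) : y * a = a * y := by
  by_cases e1 : y ∈ B
  · exact h.bcomm e1 h0.1
  by_cases e2 : a ∈ x •ᶜ (B ⊓ Q)
  · exact h.comm1 h1 e2
  obtain ⟨y', hy, h3⟩ := h.surj h0
  have h4 : y' ∉ B := fun e => e2 (by
    rwa [commutatorElement_eq_one_iff_mul_comm.2 (h.bcomm e h.km), mul_one] at h3)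
  have hs := sq_cj (A := B ⊓ Q) (fun b hb => hB b hb.1) x
  have h5 := h.comm_k (h.le1 hy)
  have h6 : a * ⁅y', k⁆ ∈ B := B.mul_mem h0.1 h5.1
  have h7 : k * y' * k⁻¹ = (a * ⁅y', k⁆)⁻¹ * (a * y') := by
    simp only [commutatorElement_def]; group
  have h8 : k * y' * k⁻¹ * (k * y' * k⁻¹) = 1 := by rw [conj_mul, hs _ hy]; group
  set z := a * ⁅y', k⁆
  have c1 : Commute z a := h.bcomm h6 h0.1
  have c2 : Commute z y' := h.comm1 h3 hy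
  have c3 := (c1.mul_right c2).inv_left
  rw [h7, c3.symm.mul_mul_mul_comm, ← mul_inv_rev, hB _ h6, inv_one, one_mul] at h8
  have h9 : a * y' = y' * a := by
    rw [← inv_eq_of_mul_eq_one_right h8, mul_inv_rev, inv_eq_of_mul_eq_one_right (hB _ h0.1),
      inv_eq_of_mul_eq_one_right (hs _ hy)]
  have h10 := h.bcomm (h2 y h1 y' hy e1 h4) h0.1
  calc y * a = y * (a * y') * y'⁻¹ := by group
    _ = y * y' * a * y'⁻¹ := by rw [h9]; group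
    _ = _ := by rw [h10]; group

end AB

/-- An element interchanging two elementary abelian factors has order eight. -/
theorem swap (h6 : O6 G) {T A : Subgroup G} {s : G} (hT : IsPGroup 2 T) (hs : s ∈ 𝐍(T))
    (hss : s * s ∈ T) (hA : ∀ a ∈ A, a * a = 1) (h1 : A ≤ T) (h2 : T ≤ 𝐍(A))
    (h3 : ∀ t ∈ T, ∃ a ∈ A, ∃ b ∈ s •ᶜ A, t = a * b) (hne : s ∉ 𝐍(A))
    (h4 : ∀ a ∈ A, ∀ b ∈ s •ᶜ A, a * b = b * a → a ∈ s •ᶜ A ∨ b ∈ A) : False := by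
  have h5 : T ≤ 𝐍(s •ᶜ A) := norm_cj_of hs h2
  obtain ⟨a0, ha0, b0, hb0, e⟩ := h3 _ hss
  obtain ⟨q, hq, hq'⟩ : ∃ q ∈ A, q * a0 ∉ s •ᶜ A := by
    by_contra h6
    push Not at h6
    refine hne (mem_norm (eq_of_le_of_card_ge (fun a ha => ?_) (card_map_conj s A).le).symm)
    simpa using h6 (a * a0⁻¹) (A.mul_mem ha (inv_mem ha0))
  have h7 : a0⁻¹ * (s * q * s⁻¹) * a0⁻¹⁻¹ * b0 ∈ s •ᶜ A :=
    mul_mem (cmem (h5 (inv_mem (h1 ha0))) (cj_mem hq)) hb0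
  have h8 : q * s * (q * s) = q * a0 * (a0⁻¹ * (s * q * s⁻¹) * a0⁻¹⁻¹ * b0) := by
    calc _ = q * (s * q * s⁻¹) * (s * s) := by group
      _ = _ := by rw [e]; group
  set b' := a0⁻¹ * (s * q * s⁻¹) * a0⁻¹⁻¹ * b0
  have hb : q * a0 ∈ A := A.mul_mem hq ha0
  have h9 : q * s * (q * s) ∈ T :=
    h8 ▸ T.mul_mem (h1 hb) ((map_mono h1).trans (cj_eq hs).le h7)
  have h10 := h6.four_of_two (two_of_sq_mem hT h9)
  rw [h8] at h10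
  have h11 : q * a0 * b' = b' * (q * a0) := by
    rw [← inv_eq_of_mul_eq_one_right h10, mul_inv_rev, inv_eq_of_mul_eq_one_right (hA _ hb),
      inv_eq_of_mul_eq_one_right (sq_cj hA s _ h7)]
  rcases h4 _ hb _ h7 h11 with e1 | e1
  · exact hq' e1
  · have h12 := cmem (h5 (h1 hq)) (cj_mem (g := s) (h8 ▸ A.mul_mem hb e1 : q * s * (q * s) ∈ A))
    have : q * (s * (q * s * (q * s)) * s⁻¹) * q⁻¹ = q * s * (q * s) := by group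
    rw [this, h8] at h12
    exact hq' ((mul_mem_cancel_right h7).1 h12)

end CfsgLib.E6
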