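import Cfsg.Agent.Lib.E6.KnB
import Cfsg.Agent.Lib.E6.A5D
import Cfsg.Agent.Lib.E6.AB
import Cfsg.Agent.Lib.H1Misc
import Cfsg.Agent.Lib.CoprimeGen

/-!
# Basic facts on `2`-local subgroups of type `A₅`
-/

set_option autoImplicit false

namespace CfsgLib.E6

open Subgroup Cfsg CfsgLib.FT.BGN CfsgLib.Cit CfsgLib.H1
open scoped commutatorElement

variable {G : Type*} [Group G] [Finite G]

namespace NS

variable {H Q S : Subgroup G} (h : NS H Q)
include h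

theorem norm : H ≤ 𝐍(Q) := fun g hg => mem_normalizer_of_conj_mem fun q hq => by
  obtain ⟨f, -, hf⟩ := h.ex
  refine (hf (⟨g, hg⟩ * ⟨q, h.le hq⟩ * (⟨g, hg⟩ : H)⁻¹)).1 ?_
  rw [map_mul, map_mul, (hf ⟨q, h.le hq⟩).2 hq, mul_one, map_inv, mul_inv_cancel]

omit [Finite G] in
theorem two : IsPGroup 2 Q := isPGroup_of_sq h.sq

omit [Finite G] in
theorem comm {a b : G} (ha : a ∈ Q) (hb : b ∈ Q) : a * b = b * a := comm_of_sq h.sq ha hb

theorem le_syl (hS : IsSylowIn 2 S H) : Q ≤ S :=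
  have := Fact.mk Nat.prime_two
  le_sup_right.trans (hS.eq_of_le (hS.isPGroup.to_sup_of_normal_right' h.two (hS.le.trans h.norm))
    le_sup_left (sup_le hS.le h.le)).le

theorem idx4 (hS : IsSylowIn 2 S H) : Q.relIndex S = 4 := by
  have := Fact.mk Nat.prime_two
  obtain ⟨f, hs, hf⟩ := h.ex
  have hk : f.ker = Q.subgroupOf H := Subgroup.ext hf
  have h1 := ((hS.subgroupOf le_rfl).map f).card_eq_ordProj
  rw [subgroupOf_self, ← MonoidHom.range_eq_map, MonoidHom.range_eq_top.2 hs, card_top,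
    nat_card_alternatingGroup, ← relIndex_ker, hk, relIndex_subgroupOf hS.le] at h1
  rw [h1, Nat.card_fin, show Nat.factorial 5 / 2 = 2 ^ 2 * 15 from rfl,
    Nat.factorization_mul (by norm_num) (by norm_num), Nat.prime_two.factorization_pow,
    Finsupp.add_apply, Finsupp.single_eq_same,
    Nat.factorization_eq_zero_of_not_dvd (by norm_num)]
  rfl

theorem sq_mem (h6 : O6 G) {s : G} (hs : s ∈ H) (h2 : Two s) : s * s ∈ Q := by
  obtain ⟨f, -, hf⟩ := h.ex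
  refine (hf (⟨s, hs⟩ * ⟨s, hs⟩)).1 (Subtype.ext ?_)
  have e : (⟨s, hs⟩ : H) * ⟨s, hs⟩ * (⟨s, hs⟩ * ⟨s, hs⟩) = 1 := Subtype.ext (h6.four_of_two h2)
  have e1 := congrArg (fun a => ((f a : alternatingGroup (Fin 5)) : Equiv.Perm (Fin 5))) e
  simp only [map_mul, map_one] at e1 ⊢
  exact a5_four _ e1 (f _).2

theorem exists_five (h6 : O6 G) {a : G} (ha : a ∈ H) (h2 : a * a ∈ Q) (h1 : a ∉ Q) :
    ∃ y ∈ H, orderOf y = 5 ∧ orderOf (y * a * y⁻¹ * a⁻¹) = 5 := by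
  have := Fact.mk Nat.prime_five
  obtain ⟨f, hs, hf⟩ := h.ex
  have e := (hf (⟨a, ha⟩ * ⟨a, ha⟩)).2 h2
  rw [map_mul] at e
  obtain ⟨y, y1, y2, y3, y4, y5⟩ := a5_five (f ⟨a, ha⟩ : alternatingGroup (Fin 5))
    (congrArg Subtype.val e) (fun e => h1 ((hf _).1 (Subtype.ext e))) (f _).2
  obtain ⟨g, hg⟩ := hs ⟨y, y5⟩
  refine ⟨g, g.2, (orderOf_coe g).trans ((h6.subgroup H).ord_of f (hg ▸ orderOf_eq_prime
    (Subtype.ext y3) fun e => y4 (congrArg Subtype.val e)) (by norm_num)),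
    (orderOf_coe (g * ⟨a, ha⟩ * g⁻¹ * (⟨a, ha⟩ : H)⁻¹)).trans ((h6.subgroup H).ord_of f ?_
      (by norm_num))⟩
  rw [map_mul, map_mul, map_mul, map_inv, map_inv, hg]
  exact orderOf_eq_prime (Subtype.ext y1) fun e => y2 (congrArg Subtype.val e)

theorem card_le (h6 : O6 G) {a : G} (ha : a ∈ H) (h2 : a * a ∈ Q) (h1 : a ∉ Q) {B : Subgroup G}
    (hB : ∀ b ∈ B, b ∈ Q → b * a = a * b) : Nat.card Q ≤ B.relIndex Q ^ 2 := by
  obtain ⟨y, hy, -, h5⟩ := h.exists_five h6 ha h2 h1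
  have e : (B ⊓ y •ᶜ B).relIndex Q = Nat.card Q := by
    rw [← inf_relIndex_right, ← relIndex_bot_left]
    congr 1
    refine eq_bot_iff.2 fun c hc => mem_bot.2 (h6.eq_one_of_comm5 h5 (two_of_mem h.two hc.2) ?_)
    have c1 : Commute c a := hB c hc.1.1 hc.2
    have c2 : Commute c (y * a * y⁻¹) := by
      have := hB _ (mem_cj.1 hc.1.2) (by simpa using cmem (inv_mem (h.norm hy)) hc.2)
      calc c * (y * a * y⁻¹) = y * (y⁻¹ * c * y * a) * y⁻¹ := by group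
        _ = _ := by rw [this]; group
    exact (c2.mul_right c1.inv_right).symm.eq
  have e1 : (y •ᶜ B).relIndex Q = B.relIndex Q := by
    conv_lhs => rw [← cj_eq (h.norm hy)]
    exact relIndex_map_map_of_injective _ _ (MulAut.conj y).injective
  rw [← e, pow_two]
  exact relIndex_inf_le.trans (by rw [e1])

theorem mod5 (h6 : O6 G) {a : G} (ha : a ∈ H) (h2 : a * a ∈ Q) (h1 : a ∉ Q) :
    Nat.card Q % 5 = 1 ∧ Nat.card Q ≠ 1 := by
  have := Fact.mk Nat.prime_five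
  obtain ⟨y, hy, h5, -⟩ := h.exists_five h6 ha h2 h1
  have e := card_modEq_card_inf_centralizer_elem (p := 5) (U := Q) (a := y)
    (IsPGroup.of_card (n := 1) (by rw [Nat.card_zpowers, h5, pow_one])) (h.norm hy)
  have e1 : Q ⊓ centralizer {y} = ⊥ := eq_bot_iff.2 fun c hc => mem_bot.2
    (h6.eq_one_of_comm5 h5 (two_of_mem h.two hc.1) (mem_centralizer_singleton_iff.1 hc.2).symm)
  rw [e1, card_bot] at e
  refine ⟨e, fun e2 => h1 (h.ch (mem_centralizer_iff.2 fun q hq => ?_))⟩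
  rw [mem_bot.1 (card_eq_one.1 e2 ▸ hq : q ∈ (⊥ : Subgroup G)), one_mul, mul_one]

/-- No element outside `Q` centralizes a subgroup of index two in `Q`. -/
theorem no2 (h6 : O6 G) {a : G} (ha : a ∈ H) (h2 : a * a ∈ Q) (h1 : a ∉ Q) {B : Subgroup G}
    (hB : ∀ b ∈ B, b ∈ Q → b * a = a * b) (hi : B.relIndex Q ≤ 2) : False := by
  have e1 := h.card_le h6 ha h2 h1 hB
  have e2 := h.mod5 h6 ha h2 h1
  have e3 := Nat.pow_le_pow_left hi 2
  omega

theorem exists_w (h6 : O6 G) (hS : IsSylowIn 2 S H) : ∃ w ∈ H, w ∈ 𝐍(S) ∧ w ∉ S := by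
  have := Fact.mk Nat.prime_two
  obtain ⟨a, ha, h1⟩ : ∃ a ∈ S, a ∉ Q := by
    by_contra hc
    push Not at hc
    have := h.idx4 hS
    rw [relIndex_eq_one.2 hc] at this
    omega
  have sq : ∀ s ∈ S, s * s ∈ Q := fun s hs => h.sq_mem h6 (hS.le hs) (two_of_mem hS.isPGroup hs)
  obtain ⟨f, hs, hf⟩ := h.ex
  have sq' : ∀ s (hs : s ∈ S), f ⟨s, hS.le hs⟩ * f ⟨s, hS.le hs⟩ = 1 := fun s hs => by
    rw [← map_mul]; exact (hf _).2 (sq s hs)
  obtain ⟨t, t1, t2, t3⟩ := a5_three (f ⟨a, hS.le ha⟩ : alternatingGroup (Fin 5))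
    (congrArg Subtype.val (sq' a ha)) (fun e => h1 ((hf _).1 (Subtype.ext e))) (f _).2
  have hC : S ≤ ((centralizer {f ⟨a, hS.le ha⟩}).comap f).map H.subtype := fun s hs =>
    ⟨⟨s, hS.le hs⟩, mem_centralizer_singleton_iff.2 (by
      have := sq' _ (mul_mem hs ha)
      rw [show (⟨s * a, _⟩ : H) = ⟨s, hS.le hs⟩ * ⟨a, hS.le ha⟩ from rfl, map_mul] at this
      rw [← inv_eq_of_mul_eq_one_right this, mul_inv_rev, inv_eq_of_mul_eq_one_right (sq' s hs),
        inv_eq_of_mul_eq_one_right (sq' a ha)]), rfl⟩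
  have hE := hS.eq_of_le (by
    rintro ⟨_, s, hs, rfl⟩
    refine ⟨2, Subtype.ext ?_⟩
    have e1 := (t3 (f s : alternatingGroup (Fin 5))
      (congrArg Subtype.val (mem_centralizer_singleton_iff.1 hs)) (f s).2).1
    have e2 := h.sq _ ((hf (s * s)).1 (by rw [map_mul]; exact Subtype.ext e1))
    change (s : G) ^ 4 = 1
    rw [← e2]; simp only [pow_succ, pow_zero, one_mul, mul_assoc, coe_mul]) hC (map_subtype_le _)
  obtain ⟨w, hw⟩ := hs ⟨t, t2⟩
  refine ⟨w, w.2, mem_normalizer_of_conj_mem fun s hs => ?_, fun e => ?_⟩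
  · obtain ⟨s, hs', rfl⟩ := hC hs
    refine hE.le ⟨w * s * w⁻¹, mem_centralizer_singleton_iff.2 ?_, rfl⟩
    rw [map_mul, map_mul, map_inv, hw]
    exact Subtype.ext (t3 (f s : alternatingGroup (Fin 5))
      (congrArg Subtype.val (mem_centralizer_singleton_iff.1 hs')) (f s).2).2
  · obtain ⟨s, hs', e1⟩ := hC e
    obtain rfl : s = w := Subtype.ext e1
    have := mem_centralizer_singleton_iff.1 hs'
    rw [hw] at this
    exact t1 (congrArg Subtype.val this)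

end NS

end CfsgLib.E6
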