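import Mathlib

/-!
# Computations in the alternating group of degree five
-/

set_option autoImplicit false
set_option synthInstance.maxSize 1000

namespace CfsgLib.E6.A5f

abbrev A5 : Type := alternatingGroup (Fin 5)

theorem sq_of_four : ∀ a : A5, a * a * (a * a) = 1 → a * a = 1 := by decide +kernel

theorem ex_five : ∃ g : A5, g ≠ 1 ∧ g ^ 5 = 1 := by decide +kernel

theorem five_conj : ∀ a : A5, a * a = 1 → a ≠ 1 →
    ∃ y : A5, a * (y * a * y⁻¹) ≠ 1 ∧ (a * (y * a * y⁻¹)) ^ 5 = 1 := by decide +kernel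

theorem cover : ∀ a : A5, a * a = 1 → a ≠ 1 → ∀ b : A5, b * a = a * b → b ≠ 1 → a * b ≠ 1 →
    ∀ c : A5, c * a = a * c → c = 1 ∨ c = a ∨ c = b ∨ c = a * b := by decide +kernel

theorem inverter : ∀ a : A5, a * a = 1 → a ≠ 1 → ∀ y : A5, y * y * y = 1 → y ≠ 1 →
    ∃ i : A5, i * y * i⁻¹ * y = 1 ∧ i * a * i⁻¹ * a ≠ a * (i * a * i⁻¹) := by decide +kernel

theorem five_of_nc : ∀ a : A5, a * a = 1 → a ≠ 1 → ∀ b : A5, b * b = 1 → b * a ≠ a * b →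
    ∃ c : A5, c * a = a * c ∧ c * b ≠ 1 ∧ (c * b) ^ 5 = 1 := by decide +kernel

theorem nc_five : ∀ g : A5, g ^ 5 = 1 → g ≠ 1 → ∀ a : A5, a * a = 1 → a ≠ 1 →
    g * a * g⁻¹ * a ≠ a * (g * a * g⁻¹) := by decide +kernel

theorem ex_three : ∀ a : A5, a * a = 1 → a ≠ 1 → ∃ w : A5, w * w * w = 1 ∧
    w * w * a ≠ a * (w * w) ∧ ∀ c : A5, c * a = a * c → w * c * w⁻¹ * a = a * (w * c * w⁻¹) := by
  decide +kernel

end CfsgLib.E6.A5f
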