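import Mathlib

/-! The Frobenius norm lemma. -/

set_option autoImplicit false

namespace CfsgLib.E6

open Subgroup

/-- If `u` and its powers act fixed point freely on `Y` and the norms of all `Y`-conjugates of `u`
vanish on `V`, then `Y` acts trivially on `V`. -/
theorem fr {Γ V : Type*} [Group Γ] [CommGroup V] (ρ : Γ →* MulAut V) (Y : Subgroup Γ) [Finite Y]
    {u : Γ} {n : ℕ} (hn : 0 < n) (hu : u ∈ normalizer (Y : Set Γ))
    (hf : ∀ i, 0 < i → i < n → ∀ y ∈ Y, u ^ i * y * (u ^ i)⁻¹ = y → y = 1)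
    (h : ∀ y ∈ Y, ∀ v, ∏ i ∈ Finset.range n, ρ ((y * u * y⁻¹) ^ i) v = 1)
    (hc : ∀ v : V, v ^ Nat.card Y = 1 → v = 1) {y : Γ} (hy : y ∈ Y) (w : V) : ρ y w = w := by
  classical
  have := Fintype.ofFinite Y
  have hm : ∀ i, ∀ y ∈ Y, u ^ i * y * (u ^ i)⁻¹ ∈ Y := fun i y hy =>
    (mem_normalizer_iff.1 (pow_mem hu i) y).1 hy
  have key : ∀ v : V, ∏ y : Y, ρ y v = 1 → v = 1 := by
    intro v hv
    have h1 : ∀ i, ∏ y : Y, ρ y (ρ (u ^ i) v) = 1 := by
      intro i
      have hb : Function.Bijective fun y : Y => (⟨_, hm i y y.2⟩ : Y) :=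
        Finite.injective_iff_bijective.1 fun a b e => Subtype.ext (by
          simpa using congrArg Subtype.val e)
      rw [← hb.prod_comp fun y : Y => ρ y (ρ (u ^ i) v), ← map_one (ρ (u ^ i)), ← hv, map_prod]
      refine Finset.prod_congr rfl fun y _ => ?_
      rw [← MulAut.mul_apply, ← MulAut.mul_apply, ← map_mul, ← map_mul]
      simp
    have h2 : ∀ i, 0 < i → i < n → ∏ y : Y, ρ (((y : Γ) * u * (y : Γ)⁻¹) ^ i) v = 1 := by
      intro i h0 hi
      have hb : Function.Bijective fun y : Y =>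
          (⟨y * (u ^ i * (y : Γ)⁻¹ * (u ^ i)⁻¹), mul_mem y.2 (hm i _ (inv_mem y.2))⟩ : Y) :=
        Finite.injective_iff_bijective.1 fun a b e => Subtype.ext (by
          have e1 : (a : Γ) * (u ^ i * (a : Γ)⁻¹ * (u ^ i)⁻¹) =
            b * (u ^ i * (b : Γ)⁻¹ * (u ^ i)⁻¹) := congrArg Subtype.val e
          have := hf i h0 hi _ (mul_mem (inv_mem b.2) a.2) (by
            calc _ = (u ^ i * (b : Γ)⁻¹ * (u ^ i)⁻¹) * (u ^ i * (a : Γ)⁻¹ * (u ^ i)⁻¹)⁻¹ := by group
              _ = (b : Γ)⁻¹ * (b * (u ^ i * (b : Γ)⁻¹ * (u ^ i)⁻¹)) *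
                  (u ^ i * (a : Γ)⁻¹ * (u ^ i)⁻¹)⁻¹ := by group
              _ = _ := by rw [← e1]; group)
          exact (inv_mul_eq_one.1 this).symm)
      rw [← h1 i, ← hb.prod_comp fun y : Y => ρ y (ρ (u ^ i) v)]
      refine Finset.prod_congr rfl fun y _ => ?_
      rw [← MulAut.mul_apply, ← map_mul, conj_pow]
      simp [mul_assoc]
    have h3 : ∏ y : Y, ∏ i ∈ Finset.range n, ρ (((y : Γ) * u * (y : Γ)⁻¹) ^ i) v = 1 :=
      Finset.prod_eq_one fun y _ => h y y.2 v
    obtain ⟨m, rfl⟩ : ∃ m, n = m + 1 := ⟨n - 1, by omega⟩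
    rw [Finset.prod_comm, Finset.prod_range_succ', Finset.prod_eq_one fun i hi =>
      h2 _ i.succ_pos (by simpa using hi), one_mul] at h3
    refine hc v ?_
    simpa [Nat.card_eq_fintype_card] using h3
  have hb : Function.Bijective fun a : Y => a * ⟨y, hy⟩ := (Group.mulRight_bijective _)
  have := key (w⁻¹ * ρ y w) (by
    simp only [map_mul, map_inv, Finset.prod_mul_distrib, Finset.prod_inv_distrib]
    rw [← hb.prod_comp fun a : Y => ρ a w]
    simp)
  exact (inv_mul_eq_one.1 this).symm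

open scoped IsMulCommutative in
/-- `(v s) ^ n` for `v` in an abelian normal subgroup. -/
theorem mul_pow_conj {G : Type*} [Group G] {V : Subgroup G} [V.Normal] [IsMulCommutative V]
    (v : V) (s : G) (n : ℕ) :
    ((v : G) * s) ^ n = (∏ i ∈ Finset.range n, MulAut.conjNormal (s ^ i) v : V) * s ^ n := by
  induction n with
  | zero => simp
  | succ n ih =>
    rw [pow_succ, ih, Finset.prod_range_succ, coe_mul, MulAut.conjNormal_apply]
    group

theorem exists_rho {G X : Type*} [Group G] [Group X] {V : Subgroup G} [V.Normal] {f : G →* X}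
    (hf : Function.Surjective f) (hk : f.ker ≤ centralizer (V : Set G)) :
    ∃ ρ : X →* MulAut V, ∀ g, ρ (f g) = MulAut.conjNormal g :=
  ⟨f.liftOfSurjective hf ⟨MulAut.conjNormal, fun g hg => by
    ext v
    have := mem_centralizer_iff.1 (hk hg) v v.2
    simp [← this]⟩, fun g => f.liftOfRightInverse_comp_apply _ _ _ g⟩

open scoped IsMulCommutative in
/-- Ambient form: `V` is an abelian normal subgroup centralized by the kernel of `f`; all lifts
`s` of conjugates of `u` can be chosen with `(v s) ^ n = s ^ n`. -/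
theorem fr_amb {G X : Type*} [Group G] [Group X] {V : Subgroup G} [V.Normal] [IsMulCommutative V]
    {f : G →* X} (hf : Function.Surjective f) (hk : f.ker ≤ centralizer (V : Set G))
    (Y : Subgroup X) [Finite Y] {u : G} {n : ℕ} (hn : 0 < n) (hu : f u ∈ normalizer (Y : Set X))
    (hp : ∀ i, 0 < i → i < n → ∀ y ∈ Y, f u ^ i * y * (f u ^ i)⁻¹ = y → y = 1)
    (h : ∀ v ∈ V, (v * u) ^ n = u ^ n) (hc : ∀ v ∈ V, v ^ Nat.card Y = 1 → v = 1) {y : G}
    (hy : f y ∈ Y) : y ∈ centralizer (V : Set G) := by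
  obtain ⟨ρ, hρ⟩ := exists_rho hf hk
  have h1 : ∀ v : V, ∏ i ∈ Finset.range n, MulAut.conjNormal (u ^ i) v = 1 := fun v => by
    have := mul_pow_conj v u n
    rw [h v v.2] at this
    exact Subtype.ext (by simpa using this.symm)
  have key := fr ρ Y hn hu hp (fun a _ v => by
    obtain ⟨g, rfl⟩ := hf a
    have : ∀ i, ρ ((f g * f u * (f g)⁻¹) ^ i) v = ρ (f g) (MulAut.conjNormal (u ^ i) (ρ (f g)⁻¹ v)) :=
      fun i => by rw [conj_pow, map_mul, map_mul, ← map_pow, hρ (u ^ i)]; rfl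
    simp only [this]
    rw [← map_prod, h1, map_one]) (fun v hv => Subtype.ext (hc v v.2 (congrArg Subtype.val hv))) hy
  refine mem_centralizer_iff.2 fun v hv => ?_
  have := congrArg Subtype.val (key ⟨v, hv⟩)
  rw [hρ, MulAut.conjNormal_apply] at this
  exact (mul_inv_eq_iff_eq_mul.1 this).symm

end CfsgLib.E6
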