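import Cfsg.Agent.Lib.E6.Defs
import Cfsg.Agent.Lib.E6.Fr
import Cfsg.Agent.Lib.CoprimeGen
import Cfsg.Agent.Lib.H1Misc

/-!
# Solvable groups of characteristic two: the structure modulo `O₂`
-/

set_option autoImplicit false

namespace CfsgLib.E6

open Subgroup Cfsg CfsgLib.FT.BGN CfsgLib.Cit CfsgLib.H1
open scoped commutatorElement

variable {X Y : Type*} [Group X] [Group Y]

theorem O6.pow_sixty [Finite X] (h : O6 X) (g : X) : g ^ 60 = 1 := by
  refine orderOf_dvd_iff_pow_eq_one.1 ?_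
  rcases h.cases g with e | e | e | e | e | e <;> rw [e] <;> norm_num

theorem O6.pow_fifteen [Finite X] (h : O6 X) {y : X} (hy : Odd (orderOf y)) : y ^ 15 = 1 := by
  refine orderOf_dvd_iff_pow_eq_one.1 ?_
  rcases h.odd_cases hy with e | e | e
  · rw [e, orderOf_one]; norm_num
  all_goals rw [e]; norm_num

theorem O6.odd_pow [Finite X] (h : O6 X) (g : X) : Odd (orderOf (g ^ 16)) := by
  have : orderOf (g ^ 16) ∣ 15 := orderOf_dvd_of_pow_eq_one (by
    rw [← pow_mul, show 16 * 15 = 60 * 4 by norm_num, pow_mul, h.pow_sixty, one_pow])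
  exact Odd.of_dvd_nat (by decide) this

theorem odd_of_mem [Finite X] {F : Subgroup X} (hF : Odd (Nat.card F)) {y : X} (hy : y ∈ F) :
    Odd (orderOf y) := Odd.of_dvd_nat hF (F.orderOf_dvd_natCard hy)

theorem eq_one_of_sq_odd [Finite X] {y : X} (hy : Odd (orderOf y)) (h : y * y = 1) : y = 1 :=
  eq_one_of_two_of_odd (two_of_sq h) hy

theorem pCore_eq_bot_of_not_dvd [Finite X] {p : ℕ} [Fact p.Prime] (h : ¬ p ∣ Nat.card X) :
    pCore p X = ⊥ := by
  obtain ⟨k, hk⟩ := IsPGroup.iff_card.1 (pCore_isPGroup (G := X) p)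
  rcases k with _ | k
  · exact card_eq_one.1 (by simpa using hk)
  · exact absurd ((dvd_pow_self p k.succ_ne_zero).trans (hk ▸ card_subgroup_dvd_card _)) h

theorem cent_le_of_cores [Finite X] (hs : Group.IsSolvable X) {K : Subgroup X}
    (h : ∀ (l : ℕ) [Fact l.Prime], l ∣ Nat.card X → pCore l X ≤ K) : 𝐂(K) ≤ K := by
  have h1 : fittingOf (⊤ : Subgroup X) ≤ K := fittingOf_le_of_forall fun l _ => by
    rw [pCoreOf_top]
    by_cases e : l ∣ Nat.card X
    · exact h l e
    · rw [pCore_eq_bot_of_not_dvd e]; exact bot_le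
  have h2 := inf_centralizer_fittingOf_le (M := (⊤ : Subgroup X))
    (layerIn_eq_bot_of_isSolvable inferInstance)
  exact (le_inf le_top (centralizer_le h1)).trans (h2.trans h1)

/-- Exact inversion. -/
theorem exists_exact [Finite X] {Q : Subgroup X} (hQ : IsPGroup 2 Q) {x u : X} {r : ℕ}
    (hr : r = 3 ∨ r = 5) (ox : orderOf x = r) (hx : x ∈ 𝐍(Q)) (hu : u ∈ 𝐍(Q))
    (h : u * x * u⁻¹ * x ∈ Q) : ∃ q ∈ Q, q * u * x * (q * u)⁻¹ = x⁻¹ := by
  have : Fact r.Prime := ⟨by rcases hr with rfl | rfl <;> norm_num⟩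
  have hz := zpowers_le.2 hx
  have hc : Nat.card (zpowers x) = r := by rw [Nat.card_zpowers, ox]
  have hS : IsSylowIn r (zpowers x) (zpowers x ⊔ Q) := by
    refine ⟨le_sup_left, IsPGroup.of_card (n := 1) (by rw [hc, pow_one]), fun e => ?_⟩
    have h1 := card_sup_dvd_mul hz
    rw [← card_mul_relIndex (le_sup_left : zpowers x ≤ zpowers x ⊔ Q)] at h1
    have h2 := e.trans (Nat.dvd_of_mul_dvd_mul_left Nat.card_pos h1)
    obtain ⟨k, hk⟩ := IsPGroup.iff_card.1 hQ
    have h3 := Nat.le_of_dvd two_pos ((Fact.out : r.Prime).dvd_of_dvd_pow (hk ▸ h2))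
    omega
  have hn : u ∈ 𝐍(zpowers x ⊔ Q) := by
    refine mem_norm (eq_of_le_of_card_ge ?_ (card_map_of_injective (MulAut.conj u).injective).ge)
    rw [Subgroup.map_sup, cj_eq hu, MonoidHom.map_zpowers]
    refine sup_le (zpowers_le.2 ?_) le_sup_right
    have : u * x * u⁻¹ ∈ zpowers x ⊔ Q := by
      simpa using mul_mem (mem_sup_right h) (mem_sup_left (inv_mem (mem_zpowers x)) :
        x⁻¹ ∈ zpowers x ⊔ Q)
    exact this
  obtain ⟨k, hk, h1⟩ := hS.frattini_elem hn
  obtain ⟨a, ha, q, hq, rfl⟩ := (mem_sup_iff_of_le_normalizer hz).1 hk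
  have h2 : q * u ∈ 𝐍(zpowers x) := by
    simpa [mul_assoc] using mul_mem (inv_mem (le_normalizer ha)) h1
  refine ⟨q, hq, eq_inv_of_mul_eq_one_left (eq_one_of_two_of_odd (two_of_mem hQ ?_)
    (odd_of_mem (F := zpowers x) (by rw [hc]; rcases hr with rfl | rfl <;> decide)
      (mul_mem (cmem h2 (mem_zpowers x)) (mem_zpowers x))))⟩
  have : q * u * x * (q * u)⁻¹ * x = q * (u * x * u⁻¹ * x) * (x⁻¹ * q⁻¹ * x⁻¹⁻¹) := by group
  rw [this]
  exact mul_mem (mul_mem hq h) (cmem (inv_mem hx) (inv_mem hq))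

/-- `f` is the quotient map by the self-centralizing `O₂` of a solvable group. -/
structure SC (f : X →* Y) : Prop where
  o6 : O6 X
  solv : Group.IsSolvable X
  surj : Function.Surjective f
  two : IsPGroup 2 f.ker
  ch : 𝐂(f.ker) ≤ f.ker
  o2 : pCore 2 Y = ⊥

namespace SC

variable [Finite X] [Finite Y] {f : X →* Y} (H : SC f)
include H

omit [Finite Y] in
theorem o6Y : O6 Y := H.o6.of_surjective f H.surj

omit [Finite X] [Finite Y] in
theorem solvY : Group.IsSolvable Y := haveI := H.solv; Group.isSolvable_of_surjective H.surj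

theorem lift {y : Y} (hy : Odd (orderOf y)) : ∃ x, f x = y ∧ Odd (orderOf x) := by
  obtain ⟨x, rfl⟩ := H.surj y
  exact ⟨x ^ 16, by rw [map_pow, pow_succ, H.o6Y.pow_fifteen hy, one_mul], H.o6.odd_pow x⟩

theorem fr (W : Subgroup Y) (hW : Odd (Nat.card W)) {u : X} {n : ℕ} (hn : 0 < n)
    (hu : f u ∈ 𝐍(W)) (hp : ∀ i, 0 < i → i < n → ∀ y ∈ W, f u ^ i * y * (f u ^ i)⁻¹ = y → y = 1)
    (h : ∀ v ∈ f.ker, (v * u) ^ n = 1) : W = ⊥ := by
  have := Fact.mk Nat.prime_two
  set N := ⁅f.ker, f.ker⁆ with hN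
  have hle : N ≤ f.ker := commutator_le_left _ _
  set π := QuotientGroup.mk' N with hπ
  have hs : Function.Surjective π := QuotientGroup.mk'_surjective N
  have : (f.ker.map π).Normal := Normal.map inferInstance π hs
  have hcm : f.ker.map π ≤ 𝐂(f.ker.map π) := by
    rw [← Subgroup.commutator_eq_bot_iff_le_centralizer, ← map_commutator, Subgroup.map_eq_bot_iff,
      QuotientGroup.ker_mk']
  have : IsMulCommutative (f.ker.map π) := le_centralizer_iff_isMulCommutative.1 hcm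
  let g : X ⧸ N →* Y := QuotientGroup.lift N f hle
  have hg : ∀ x, g (π x) = f x := fun _ => rfl
  have hgs : Function.Surjective g := fun y => by
    obtain ⟨x, rfl⟩ := H.surj y
    exact ⟨π x, rfl⟩
  have hk : g.ker ≤ 𝐂(f.ker.map π) := fun a ha => by
    obtain ⟨x, rfl⟩ := hs a
    exact hcm (mem_map_of_mem π ha)
  refine eq_bot_iff.2 fun y hy => ?_
  obtain ⟨x, rfl, ox⟩ := H.lift (odd_of_mem hW hy)
  have key := fr_amb hgs hk W (u := π u) hn hu hp (by
    rintro _ ⟨v, hv, rfl⟩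
    have h1 := h 1 (one_mem _)
    rw [one_mul] at h1
    rw [← map_mul, ← map_pow, ← map_pow, h v hv, h1]) (fun v hv e =>
      eq_one_of_two_of_odd (two_of_mem (H.two.map π) hv)
        (Odd.of_dvd_nat hW (orderOf_dvd_of_pow_eq_one e))) (y := π x) hy
  obtain ⟨k, hk⟩ := IsPGroup.iff_card.1 H.two
  have h1 : ⁅f.ker, zpowers x⁆ ≤ N := by
    rw [← QuotientGroup.ker_mk' N, ← Subgroup.map_eq_bot_iff, map_commutator, MonoidHom.map_zpowers,
      Cop.commutator_eq_bot_iff_le_centralizer']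
    exact zpowers_le.2 key
  have h2 := Cop.commutator_eq_bot_iff_le_centralizer'.1 (Cop.commutator_eq_bot_of_le_frattini
    (by rw [Nat.card_zpowers, hk]; exact (Nat.coprime_two_right.2 ox).pow_right k)
    (h1.trans (Cop.commutator_le_frattini_map H.two)))
  exact H.ch (h2 (mem_zpowers x))

omit [Finite Y] in
theorem not_dvd : ¬ 5 ^ 2 ∣ Nat.card X := fun e => by
  have := Fact.mk Nat.prime_five
  obtain ⟨A, hA⟩ := Sylow.exists_subgroup_card_pow_prime 5 e
  have hc : ¬ IsCyclic A := fun ⟨g, hg⟩ => by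
    have h1 := orderOf_eq_card_of_forall_mem_zpowers hg
    have h2 := H.o6.subgroup A g
    omega
  obtain ⟨k, hk⟩ := IsPGroup.iff_card.1 H.two
  have h0 : f.ker ≠ ⊥ := fun h0 => by
    have h1 := H.ch
    rw [h0, coe_bot, show 𝐂[(1 : X)] = ⊤ by ext; simp [mem_centralizer_singleton_iff],
      top_le_iff] at h1
    have := card_top (G := X)
    rw [← h1, card_bot] at this
    rw [← this] at e
    norm_num at e
  obtain ⟨a, ha, h1, h2⟩ := Cop.exists_centralizer_ne_bot_of_not_isCyclic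
    (IsPGroup.isMulCommutative_of_card_eq_prime_sq hA) hc (G := f.ker) le_normalizer_of_normal
    (by rw [hA, hk]; exact Nat.Coprime.pow _ _ (by norm_num)) h0
  obtain ⟨⟨v, h3, h4⟩, h5⟩ := ne_bot_iff_exists_ne_one.1 h2
  exact h5 (Subtype.ext (H.o6.eq_one_of_comm5 (orderOf_eq_prime (H.o6.pow_of_pgroup (Or.inr rfl)
    (IsPGroup.of_card hA) ha) h1) (two_of_mem H.two h3)
    (mem_centralizer_singleton_iff.1 h4).symm))

theorem primes : ∃ r, (r = 3 ∨ r = 5) ∧ ∀ l : ℕ, l.Prime → l ∣ Nat.card Y → l = 2 ∨ l = r := by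
  have := Fact.mk Nat.prime_five
  have := Fact.mk Nat.prime_three
  by_cases h3 : 3 ∣ Nat.card Y
  swap
  · refine ⟨5, Or.inr rfl, fun l hl hd => ?_⟩
    rcases H.o6Y.prime_cases hl hd with e | e | e
    exacts [Or.inl e, absurd (e ▸ hd) h3, Or.inr e]
  refine ⟨3, Or.inl rfl, fun l hl hd => ?_⟩
  rcases H.o6Y.prime_cases hl hd with e | e | rfl
  · exact Or.inl e
  · exact Or.inr e
  exfalso
  obtain ⟨w, hw⟩ := exists_prime_orderOf_dvd_card' 3 h3
  obtain ⟨y, hy⟩ := exists_prime_orderOf_dvd_card' 5 hd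
  have key : ∀ a b : Y, a ^ 3 = 1 → orderOf b = 5 → b * a = a * b → a = 1 := fun a b h1 h2 h => by
    have h4 := H.o6Y.pow_five_of_comm5 h2 h
    calc a = (a ^ 3) ^ 2 * (a ^ 5)⁻¹ := by group
      _ = 1 := by rw [h1, h4]; simp
  have c3 : pCore 3 Y = ⊥ := by
    obtain ⟨u, rfl⟩ := H.surj y
    obtain ⟨k, hk⟩ := IsPGroup.iff_card.1 (pCore_isPGroup (G := Y) 3)
    refine H.fr _ (by rw [hk]; exact Odd.pow (by decide)) (u := u) (n := 5) (by norm_num)
      (le_normalizer_of_normal (mem_top _)) (fun i h0 h5 a ha e => key a (f u ^ i)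
        (H.o6Y.pow_of_pgroup (Or.inl rfl) (pCore_isPGroup 3) ha) ?_ (mul_inv_eq_iff_eq_mul.1 e))
      fun v hv => ?_
    · rw [orderOf_pow, hy]
      interval_cases i <;> norm_num
    · have h1 := orderOf_map_dvd f (v * u)
      rw [map_mul, hv, one_mul, hy] at h1
      rcases H.o6.cases (v * u) with e | e | e | e | e | e
      all_goals first | (rw [← e, pow_orderOf_eq_one]) | (rw [e] at h1; norm_num at h1)
  have c5 : pCore 5 Y = ⊥ := by
    obtain ⟨k, hk⟩ := IsPGroup.iff_card.1 (pCore_isPGroup (G := Y) 5)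
    have h1 : ¬ 2 ≤ k := fun e => H.not_dvd ((pow_dvd_pow 5 e).trans ((hk ▸
      card_subgroup_dvd_card _).trans (card_dvd_of_surjective f H.surj)))
    have h2 := card_modEq_card_inf_centralizer_elem (p := 3) (U := pCore 5 Y) (a := w)
      (IsPGroup.of_card (n := 1) (by rw [Nat.card_zpowers, hw, pow_one]))
      (le_normalizer_of_normal (mem_top _))
    have h4 : pCore 5 Y ⊓ 𝐂[w] = ⊥ := eq_bot_iff.2 fun a ha => by
      by_contra e
      have := key w a (hw ▸ pow_orderOf_eq_one w) (orderOf_eq_prime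
        (H.o6Y.pow_of_pgroup (Or.inr rfl) (pCore_isPGroup 5) ha.1) e)
        (mem_centralizer_singleton_iff.1 ha.2)
      rw [this, orderOf_one] at hw
      omega
    rw [h4, card_bot, hk] at h2
    refine card_eq_one.1 ?_
    rw [hk]
    have : k < 2 := by omega
    interval_cases k
    · rfl
    · exact absurd h2 (by decide)
  have h1 := cent_le_of_cores H.solvY (K := ⊥) fun l hl hd => by
    rcases H.o6Y.prime_cases hl.out hd with rfl | rfl | rfl
    exacts [H.o2.le, c3.le, c5.le]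
  have h2 : w = 1 := h1 (mem_centralizer_iff.2 fun g hg => by rw [mem_bot.1 hg]; simp)
  rw [h2, orderOf_one] at hw
  omega

/-- The squares of `2`-elements lie in the kernel. -/
theorem sq {F : Subgroup Y} [F.Normal] (hF : Odd (Nat.card F)) (hc : 𝐂(F) ≤ F) {t : X}
    (ht : Two t) : t * t ∈ f.ker := by
  by_contra h0
  set u := f t with hu
  set i := u * u with hi
  have hi1 : i ≠ 1 := fun e => h0 (by rw [MonoidHom.mem_ker, map_mul]; exact e)
  have hii : i * i = 1 := by rw [hi, hu, ← map_mul, ← map_mul, H.o6.four_of_two ht, map_one]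
  have hiF : i ∉ F := fun e => hi1 (eq_one_of_sq_odd (odd_of_mem hF e) hii)
  have hii' : i⁻¹ = i := inv_eq_of_mul_eq_one_right hii
  obtain ⟨c, hcF, hci⟩ : ∃ c ∈ F, c * i ≠ i * c := by
    by_contra! e
    exact hiF (hc (mem_centralizer_iff.2 e))
  set y := c * (i * c⁻¹ * i⁻¹) with hy
  have nF := (inferInstance : F.Normal).conj_mem
  have hyF : y ∈ F := mul_mem hcF (nF _ (inv_mem hcF) _)
  have hy1 : y ≠ 1 := fun e => hci (by
    calc c * i = c * (i * c⁻¹ * i⁻¹) * (i * c) := by group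
      _ = _ := by rw [← hy, e, one_mul])
  have hiy : i * y * i⁻¹ = y⁻¹ := by
    calc _ = i * c * i⁻¹ * (i * i) * c⁻¹ * (i * i)⁻¹ := by rw [hy]; group
      _ = _ := by rw [hii, hy]; group
  clear_value y
  set y' := u * y * u⁻¹ with hy'
  have hy'F : y' ∈ F := nF _ hyF _
  have huy' : u * y' * u⁻¹ = y⁻¹ := by rw [← hiy, hy', hi]; group
  have hiy' : i * y' * i⁻¹ = y'⁻¹ := by
    calc _ = u * (i * y * i⁻¹) * u⁻¹ := by rw [hy', hi]; group
      _ = _ := by rw [hiy, hy']; group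
  have h4 : (y * u) ^ 4 = 1 := by
    by_contra e
    have h30 : (y * u) ^ 30 = 1 := orderOf_dvd_iff_pow_eq_one.1 (by
      rcases H.o6Y.cases (y * u) with e' | e' | e' | e' | e' | e'
      all_goals first
        | (rw [e']; norm_num; done)
        | exact absurd (by rw [← e', pow_orderOf_eq_one]) e)
    have h1 := congrArg (QuotientGroup.mk' F) h30
    rw [map_pow, map_mul, (QuotientGroup.eq_one_iff y).2 hyF |> (show QuotientGroup.mk' F y = 1 from ·),
      one_mul, ← map_pow, map_one, show u ^ 30 = (i * i) ^ 7 * i by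
        rw [hi, ← pow_two, ← pow_two, ← pow_mul, ← pow_mul, ← pow_add], hii,
      one_pow, one_mul] at h1
    exact hiF ((QuotientGroup.eq_one_iff i).1 h1)
  have hcm : Commute y y' := by
    have : (y * u) ^ 4 = y * y' * (i * y * i⁻¹) * (i * y' * i⁻¹) * (i * i) := by
      rw [hy', hi]; simp only [pow_succ]; group
    rw [h4, hiy, hiy', hii, mul_one] at this
    exact commutatorElement_eq_one_iff_commute.1 this.symm
  let W : Subgroup Y :=
    { carrier := {a | ∃ m n : ℤ, a = y ^ m * y' ^ n}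
      one_mem' := ⟨0, 0, by simp⟩
      mul_mem' := by
        rintro _ _ ⟨m, n, rfl⟩ ⟨m', n', rfl⟩
        refine ⟨m + m', n + n', ?_⟩
        rw [zpow_add, zpow_add, (hcm.zpow_zpow m' n).mul_mul_mul_comm]
      inv_mem' := by
        rintro _ ⟨m, n, rfl⟩
        exact ⟨-m, -n, by rw [(hcm.zpow_zpow _ _).eq, mul_inv_rev, zpow_neg, zpow_neg]⟩ }
  have hWF : W ≤ F := by
    rintro _ ⟨m, n, rfl⟩
    exact mul_mem (zpow_mem hyF _) (zpow_mem hy'F _)
  have cj : ∀ (g : Y) (m n : ℤ), g * (y ^ m * y' ^ n) * g⁻¹ =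
      (g * y * g⁻¹) ^ m * (g * y' * g⁻¹) ^ n := fun g m n => by
    rw [conj_zpow (a := g) (b := y), conj_zpow (a := g) (b := y')]
    simp only [mul_assoc, inv_mul_cancel_left]
  have hW := H.fr W (Odd.of_dvd_nat hF (card_dvd_of_le hWF)) (u := t) (n := 4) (by norm_num)
    (mem_normalizer_fintype (by
      rintro _ ⟨m, n, rfl⟩
      exact ⟨-n, m, by rw [cj, ← hu, ← hy', huy', inv_zpow', (hcm.zpow_zpow _ _).eq]⟩))
    (fun j h0 h4 a ha e => by
      have h1 : Commute (u ^ j) a := mul_inv_eq_iff_eq_mul.1 e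
      have h2 : Commute i a := by
        interval_cases j
        · simpa using h1.mul_left h1
        · simpa [pow_two] using h1
        · have := h1.mul_left h1
          rwa [show u ^ 3 * u ^ 3 = i * i * i by
            simp only [hi, pow_succ, pow_zero, one_mul, mul_assoc], hii,
            one_mul] at this
      refine eq_one_of_sq_odd (odd_of_mem hF (hWF ha)) ?_
      obtain ⟨m, n, rfl⟩ := ha
      have h3 := cj i m n
      rw [h2.eq, mul_inv_cancel_right, hiy, hiy', inv_zpow, inv_zpow, ← mul_inv_rev,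
        ← (hcm.zpow_zpow _ _).eq] at h3
      exact mul_eq_one_iff_eq_inv.2 h3)
    (fun v hv => by
      have := H.o6.four (isPGroup_sup_of_le_normalizer ht H.two le_normalizer_of_normal)
        (mul_mem (mem_sup_right hv) (mem_sup_left (mem_zpowers t)))
      rw [← this]; simp only [pow_succ]; group)
  exact hy1 (mem_bot.1 (hW ▸ (⟨1, 0, by simp⟩ : y ∈ W)))

/-- The structure of `Y`: an odd normal self-centralizing subgroup `F` such that `T F` is
normal. -/
theorem struct {T : Subgroup X} (hT : IsSylowIn 2 T ⊤) : ∃ (F : Subgroup Y) (M : Subgroup X),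
    F.Normal ∧ M.Normal ∧ Odd (Nat.card F) ∧ (∀ t ∈ T, t * t ∈ f.ker) ∧ T ≤ M ∧
    (∀ m ∈ M, ∃ t ∈ T, f (t⁻¹ * m) ∈ F) ∧ ∀ x ∈ M, Odd (orderOf x) → f x ∈ F := by
  have := Fact.mk Nat.prime_two
  obtain ⟨r, hr, h⟩ := H.primes
  have : Fact r.Prime := ⟨by rcases hr with rfl | rfl <;> norm_num⟩
  obtain ⟨k, hk⟩ := IsPGroup.iff_card.1 (pCore_isPGroup (G := Y) r)
  have hF : Odd (Nat.card (pCore r Y)) := by
    rw [hk]; exact Odd.pow (by rcases hr with rfl | rfl <;> decide)
  have hs := H.solvY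
  have hc := cent_le_of_cores hs (K := pCore r Y) fun l hl hd => by
    rcases h l hl.out hd with rfl | rfl
    exacts [H.o2.le.trans bot_le, le_rfl]
  set π := QuotientGroup.mk' (pCore r Y) with hπ
  have hc2 := cent_le_of_cores (X := Y ⧸ pCore r Y) inferInstance (K := pCore 2 _) fun l hl hd => by
    rcases h l hl.out (hd.trans (card_quotient_dvd_card _)) with rfl | rfl
    exacts [le_rfl, (pCore_quotient_pCore l).le.trans bot_le]
  have hsq : ∀ t ∈ T, t * t ∈ f.ker := fun t ht => H.sq hF hc (two_of_mem hT.isPGroup ht)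
  set g := π.comp f with hg
  have h1 : pCore 2 _ ≤ T.map g := by
    have := hT.map g
    rw [map_top_of_surjective g ((QuotientGroup.mk'_surjective _).comp H.surj)] at this
    exact pCoreOf_top.ge.trans (pCoreOf_le_sylow this)
  have h2 : T.map g ≤ pCore 2 _ := ((le_cent_of_sq (by
    rintro _ ⟨t, ht, rfl⟩
    rw [← map_mul, hg, MonoidHom.comp_apply, hsq t ht, map_one])).trans
      (centralizer_le h1)).trans hc2
  refine ⟨pCore r Y, (pCore 2 _).comap g, inferInstance, inferInstance, hF, hsq,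
    map_le_iff_le_comap.1 h2, fun m hm => ?_, fun x hx ox => ?_⟩
  · obtain ⟨t, ht, e⟩ := h1 hm
    exact ⟨t, ht, (QuotientGroup.eq_one_iff _).1 (show g (t⁻¹ * m) = 1 by
      rw [map_mul, map_inv, e, inv_mul_cancel])⟩
  · exact (QuotientGroup.eq_one_iff _).1 (show g x = 1 from eq_one_of_two_of_odd
      (two_of_mem (pCore_isPGroup 2) hx) (Odd.of_dvd_nat ox (orderOf_map_dvd g x)))

theorem comm {T : Subgroup X} (hT : IsSylowIn 2 T ⊤) {x u q : X} (hu : u ∈ T)
    (ox : Odd (orderOf x)) (hi : u * x * u⁻¹ = x⁻¹) (hq : x * q * x⁻¹ * q⁻¹ ∈ T) :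
    x * q * x⁻¹ * q⁻¹ ∈ f.ker := by
  obtain ⟨F, M, hF, hM, oF, -, h1, -, h2⟩ := H.struct hT
  have h3 : x ^ 2 ∈ M := by
    have : x ^ 2 = x * u * x⁻¹ * u⁻¹ := by
      calc x ^ 2 = x * (u * x * u⁻¹)⁻¹ := by rw [hi, inv_inv, pow_two]
        _ = _ := by group
    rw [this]
    exact mul_mem (hM.conj_mem _ (h1 hu) _) (inv_mem (h1 hu))
  have h4 : x ∈ M := by
    have := pow_mem h3 8
    rwa [← pow_mul, show 2 * 8 = 15 + 1 by norm_num, pow_succ, H.o6.pow_fifteen ox, one_mul] at this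
  have h5 := h2 x h4 ox
  refine eq_one_of_two_of_odd (two_of_mem (hT.isPGroup.map f) (mem_map_of_mem f hq))
    (odd_of_mem oF ?_)
  rw [show x * q * x⁻¹ * q⁻¹ = x * (q * x⁻¹ * q⁻¹) by group]
  simp only [map_mul, map_inv]
  exact mul_mem h5 (hF.conj_mem _ (inv_mem h5) _)

theorem par {T K : Subgroup X} (hT : IsSylowIn 2 T ⊤) (h1 : 𝐍(T) ≤ K)
    (h2 : ∀ Q x u r, Pb T Q x u r → f.ker ≤ Q → x ∈ K) (g : X) : g ∈ K := by
  have := Fact.mk Nat.prime_two
  obtain ⟨F, M, hF, hM, oF, hsq, h3, h4, -⟩ := H.struct hT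
  have hk : f.ker ≤ T := (le_pCore H.two).trans (pCoreOf_top.ge.trans (pCoreOf_le_sylow hT))
  have hTK : T ≤ K := le_normalizer.trans h1
  have hTT : (T.map f).comap f = T := by rw [comap_map_eq, sup_eq_left.2 hk]
  have hKK : (K.map f).comap f = K := by rw [comap_map_eq, sup_eq_left.2 (hk.trans hTK)]
  have hsq' : ∀ a ∈ T.map f, a * a = 1 := by
    rintro _ ⟨t, ht, rfl⟩
    rw [← map_mul, hsq t ht]
  have hcT : 𝐂(T.map f) ≤ K.map f := fun c hc => by
    obtain ⟨c, rfl⟩ := H.surj c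
    refine mem_map_of_mem f (h1 (mem_normalizer_fintype fun t ht => ?_))
    rw [SetLike.mem_coe, ← hTT, mem_comap, map_mul, map_mul, map_inv,
      ← mem_centralizer_iff.1 hc _ (mem_map_of_mem f ht), mul_inv_cancel_right]
    exact mem_map_of_mem f ht
  obtain ⟨k, hk2⟩ := IsPGroup.iff_card.1 (hT.isPGroup.map f)
  have hFK : F ≤ K.map f := Cop.le_of_cocyclic_centralizer_le (A := T.map f)
    (le_centralizer_iff_isMulCommutative.1 (le_cent_of_sq hsq')) le_normalizer_of_normal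
    (by rw [hk2]; exact (Nat.coprime_two_left.2 oF).pow_left k) (by
      rintro B hB ⟨i, hi, e⟩ c hc
      obtain ⟨hcF, hcB⟩ := mem_inf.1 hc
      have hii := hsq' i hi
      have hiB : i ∈ 𝐂(B) := centralizer_le hB (le_cent_of_sq hsq' hi)
      obtain ⟨y, hy, hyy⟩ : ∃ y ∈ zpowers (c * (i * c⁻¹ * i⁻¹)), y * y = c * (i * c⁻¹ * i⁻¹) :=
        ⟨_ ^ 8, pow_mem (mem_zpowers _) 8, by
          rw [← pow_add, show 8 + 8 = 15 + 1 by norm_num, pow_succ, H.o6Y.pow_fifteen
            (odd_of_mem oF (mul_mem hcF (hF.conj_mem _ (inv_mem hcF) _))), one_mul]⟩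
      have hyF : y ∈ F := zpowers_le.2 (mul_mem hcF (hF.conj_mem _ (inv_mem hcF) _)) hy
      have hyB : y ∈ 𝐂(B) := zpowers_le.2
        (mul_mem hcB (mul_mem (mul_mem hiB (inv_mem hcB)) (inv_mem hiB))) hy
      have hiy : i * y * i⁻¹ = y⁻¹ := by
        obtain ⟨n, rfl⟩ := hy
        rw [← conj_zpow, ← inv_zpow]
        congr 1
        calc _ = i * c * i⁻¹ * (i * i) * c⁻¹ * (i * i)⁻¹ := by group
          _ = _ := by rw [hii]; group
      have h5 : y⁻¹ * c ∈ 𝐂(T.map f) := by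
        rw [← e, centralizer_sup', centralizer_zpowers_eq]
        refine mem_inf.2 ⟨mul_mem (inv_mem hyB) hcB, mem_centralizer_singleton_iff.2 ?_⟩
        calc y⁻¹ * c * i = y * (y * y)⁻¹ * c * i := by group
          _ = (i * y * i⁻¹)⁻¹ * (c * (i * c⁻¹ * i⁻¹))⁻¹ * c * i := by rw [hiy, inv_inv, hyy]
          _ = _ := by group
      suffices y ∈ K.map f by simpa using mul_mem this (hcT h5)
      by_cases hy1 : y = 1
      · rw [hy1]; exact one_mem _
      have hiB' : i ∉ B := fun h => hy1 (eq_one_of_sq_odd (odd_of_mem oF hyF) (by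
        rw [mem_centralizer_iff.1 hyB i h, mul_inv_cancel_right] at hiy
        exact mul_eq_one_iff_eq_inv.2 hiy))
      obtain ⟨x, rfl, ox⟩ := H.lift (odd_of_mem oF hyF)
      obtain ⟨u, hu, rfl⟩ := hi
      have hQT : B.comap f ≤ T := hTT ▸ comap_mono hB
      have hkQ : f.ker ≤ B.comap f := ker_le_comap f B
      have hn : ∀ a, f a ∈ 𝐂(B) → a ∈ 𝐍(B.comap f) := fun a ha =>
        mem_normalizer_fintype fun t ht => by
          rw [SetLike.mem_coe, mem_comap, map_mul, map_mul, map_inv,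
            ← mem_centralizer_iff.1 ha _ ht, mul_inv_cancel_right]
          exact ht
      have hr : orderOf x = 3 ∨ orderOf x = 5 :=
        (H.o6.odd_cases ox).resolve_left fun h => hy1 (by rw [h, map_one])
      obtain ⟨q, hq, h6⟩ := exists_exact (hT.isPGroup.to_le hQT) hr rfl (hn x hyB) (hn u hiB)
        (hkQ (by rw [MonoidHom.mem_ker]; simp only [map_mul, map_inv]; rw [hiy, inv_mul_cancel]))
      refine mem_map_of_mem f (h2 (B.comap f) x (q * u) _ ⟨hT.isPGroup, hQT, ?_,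
        mul_mem (hQT hq) hu, fun h => hiB' (((B.comap f).mul_mem_cancel_left hq).1 h), rfl, hr,
        hn x hyB, h6, ((centralizer_le hkQ).trans H.ch).trans hkQ⟩ hkQ)
      rw [relIndex_comap, ← e, sup_comm, relIndex_sup_of_le_normalizer
        (zpowers_le.2 (centralizer_le_normalizer _ hiB))]
      refine relIndex_eq_two_iff.2 ⟨f u, mem_zpowers _, ?_⟩
      rintro _ ⟨n, rfl⟩
      have h7 : f u ^ (2 : ℤ) = 1 := by rw [zpow_two, hii]
      rcases Int.even_or_odd' n with ⟨m, rfl | rfl⟩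
      · simp [zpow_mul, h7, hiB']
      · simp [zpow_add, zpow_mul, h7, hiB', hii])
  obtain ⟨m, hm, h5⟩ := (hT.mono h3 le_top).frattini_elem (g := g)
    (le_normalizer_of_normal (mem_top g))
  obtain ⟨t, ht, h6⟩ := h4 m hm
  have h7 : t⁻¹ * m ∈ K := hKK ▸ hFK h6
  exact (K.mul_mem_cancel_left ((K.mul_mem_cancel_left (inv_mem (hTK ht))).1 h7)).1 (h1 h5)

end SC

end CfsgLib.E6
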