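import Cfsg.Agent.Lib.E6.AB
import Cfsg.Agent.Lib.E6.S1a
import Cfsg.Agent.Lib.E6.A5f

/-!
# Elementary abelian `2`-groups extended by `A₅`
-/

set_option autoImplicit false
set_option linter.unusedSectionVars false

namespace CfsgLib.E6

open Subgroup Cfsg CfsgLib.FT.BGN CfsgLib.Cit CfsgLib.H1 A5f
open scoped commutatorElement

variable {G : Type*} [Group G] [Finite G]

theorem mul_mem_of_card_le {Z D : Subgroup G} (h : Z ≤ D) (hc : Nat.card D ≤ 2 * Nat.card Z)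
    {a b : G} (ha : a ∈ D) (ha' : a ∉ Z) (hb : b ∈ D) (hb' : b ∉ Z) : a * b ∈ Z := by
  have h1 := card_mul_relIndex h
  have h2 : Z.relIndex D ≠ 1 := fun e => ha' (relIndex_eq_one.1 e ha)
  have h3 : 0 < Nat.card Z := Nat.card_pos
  have h4 : 0 < Nat.card D := Nat.card_pos
  have h5 : Z.relIndex D = 2 := by
    have : Z.relIndex D ≤ 2 := by nlinarith
    have : Z.relIndex D ≠ 0 := fun e => by rw [e] at h1; omega
    omega
  exact (mul_mem_iff_of_index_two (H := Z.subgroupOf D) h5 (a := ⟨a, ha⟩) (b := ⟨b, hb⟩)).2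
    (iff_of_false ha' hb')

theorem card_mul_le {A B Q : Subgroup G} (hA : A ≤ Q) (hB : B ≤ Q)
    (h : ∀ a ∈ A, a ∈ B → a = 1) : Nat.card A * Nat.card B ≤ Nat.card Q := by
  have h1 := card_inf_mul_relIndex B A
  rw [(eq_bot_iff_forall _).2 fun a (ha : a ∈ B ⊓ A) => h a ha.2 ha.1, card_bot, one_mul] at h1
  rw [← card_mul_relIndex hB, ← h1, mul_comm]
  exact Nat.mul_le_mul_left _ (relIndex_le_of_le_right hA index_ne_zero_of_finite)

theorem mod_five (h6 : O6 G) {Q : Subgroup G} (hQ : IsPGroup 2 Q) {g : G} (hg : orderOf g = 5)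
    (hn : g ∈ 𝐍(Q)) : Nat.card Q % 5 = 1 := by
  have : Fact (Nat.Prime 5) := ⟨by norm_num⟩
  have h1 := card_modEq_card_inf_centralizer_elem (p := 5) (U := Q)
    (IsPGroup.of_card (n := 1) (by rw [Nat.card_zpowers, hg, pow_one])) hn
  rwa [(eq_bot_iff_forall _).2 fun a (ha : a ∈ Q ⊓ 𝐂[g]) => h6.eq_one_of_comm5 hg
    (two_of_mem hQ ha.1) (mem_centralizer_singleton_iff.1 ha.2).symm, card_bot] at h1

/-- `N(Q) / Q ≅ A₅` with `Q` elementary and self-centralizing, `S` is a Sylow subgroup. -/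
structure NQ (Q S : Subgroup G) (F : G → A5) : Prop where
  o6 : O6 G
  sq : ∀ q ∈ Q, q * q = 1
  ch : 𝐂(Q) ≤ Q
  mul : ∀ {a b : G}, a ∈ 𝐍(Q) → b ∈ 𝐍(Q) → F (a * b) = F a * F b
  surj : ∀ y, ∃ a ∈ 𝐍(Q), F a = y
  ker : ∀ {a : G}, a ∈ 𝐍(Q) → (F a = 1 ↔ a ∈ Q)
  idx : Q.relIndex 𝐍(Q) = 60
  syl : IsSylowIn 2 S 𝐍(Q)

namespace NQ

variable {Q S : Subgroup G} {F : G → A5} (h : NQ Q S F)
include h

theorem two : IsPGroup 2 Q := isPGroup_of_sq h.sq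

theorem sn : S ≤ 𝐍(Q) := h.syl.le

theorem twoS : IsPGroup 2 S := h.syl.isPGroup

theorem le : Q ≤ S :=
  have := Fact.mk Nat.prime_two
  (le_pCoreOf le_normalizer le_rfl h.two).trans
    (pCoreOf_le_sylow h.syl)

theorem comm {a b : G} (ha : a ∈ Q) (hb : b ∈ Q) : a * b = b * a := comm_of_sq h.sq ha hb

theorem one : F 1 = 1 := (h.ker (one_mem _)).2 (one_mem _)

theorem inv {a : G} (ha : a ∈ 𝐍(Q)) : F a⁻¹ = (F a)⁻¹ :=
  eq_inv_of_mul_eq_one_left (by rw [← h.mul (inv_mem ha) ha, inv_mul_cancel, h.one])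

theorem conj {a b : G} (ha : a ∈ 𝐍(Q)) (hb : b ∈ 𝐍(Q)) :
    F (a * b * a⁻¹) = F a * F b * (F a)⁻¹ := by
  rw [h.mul (mul_mem ha hb) (inv_mem ha), h.mul ha hb, h.inv ha]

theorem pow {a : G} (ha : a ∈ 𝐍(Q)) (n : ℕ) : F (a ^ n) = F a ^ n := by
  induction n with
  | zero => rw [pow_zero, pow_zero, h.one]
  | succ n ih => rw [pow_succ, pow_succ, h.mul (pow_mem ha n) ha, ih]

theorem eq_iff {a b : G} (ha : a ∈ 𝐍(Q)) (hb : b ∈ 𝐍(Q)) : F a = F b ↔ a * b⁻¹ ∈ Q := by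
  rw [← h.ker (mul_mem ha (inv_mem hb)), h.mul ha (inv_mem hb), h.inv hb, mul_inv_eq_one]

theorem idx4 : Q.relIndex S = 4 := by
  have := Fact.mk Nat.prime_two
  have h1 := relIndex_mul_relIndex _ _ _ h.le h.sn
  obtain ⟨k, hk⟩ := h.twoS.index (Q.subgroupOf S)
  have h2 := h.syl.not_dvd
  change Q.relIndex S = _ at hk
  rw [h.idx, hk] at h1
  rw [hk]
  have h3 : k ≤ 5 := by
    by_contra h3
    have : 2 ^ 6 ≤ 2 ^ k := Nat.pow_le_pow_right (by norm_num) (by omega)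
    have : S.relIndex 𝐍(Q) ≠ 0 := index_ne_zero_of_finite
    nlinarith [Nat.pos_of_ne_zero this]
  interval_cases k <;> omega

theorem card_S : Nat.card S = 4 * Nat.card Q := by
  rw [← card_mul_relIndex h.le, h.idx4, mul_comm]

theorem F_sq {a : G} (ha : a ∈ S) : F a * F a = 1 := sq_of_four _ (by
  have h1 := h.sn ha
  rw [← h.mul h1 h1, ← h.mul (mul_mem h1 h1) (mul_mem h1 h1), h.o6.four h.twoS ha, h.one])

theorem F_ne {a : G} (ha : a ∈ S) (ha' : a ∉ Q) : F a ≠ 1 := fun e => ha' ((h.ker (h.sn ha)).1 e)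

theorem F_comm {a b : G} (ha : a ∈ S) (hb : b ∈ S) : F a * F b = F b * F a := by
  have h1 := h.F_sq (S.mul_mem ha hb)
  rw [h.mul (h.sn ha) (h.sn hb)] at h1
  rw [← inv_eq_of_mul_eq_one_right h1, mul_inv_rev, inv_eq_of_mul_eq_one_right (h.F_sq ha),
    inv_eq_of_mul_eq_one_right (h.F_sq hb)]

theorem order5 {g : G} (hg : g ∈ 𝐍(Q)) (h1 : F g ≠ 1) (h2 : F g ^ 5 = 1) : orderOf g = 5 := by
  have : Fact (Nat.Prime 5) := ⟨by norm_num⟩
  have h3 : 5 ∣ orderOf g := by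
    rw [← orderOf_eq_prime h2 h1, orderOf_dvd_iff_pow_eq_one, ← h.pow hg, pow_orderOf_eq_one, h.one]
  have := h.o6 g
  have := orderOf_pos g
  omega

theorem ex5 : ∃ g ∈ 𝐍(Q), orderOf g = 5 := by
  obtain ⟨y, h1, h2⟩ := ex_five
  obtain ⟨g, hg, rfl⟩ := h.surj y
  exact ⟨g, hg, h.order5 hg h1 h2⟩

theorem mod5 : Nat.card Q % 5 = 1 :=
  have ⟨_, h1, h2⟩ := h.ex5
  mod_five h.o6 h.two h2 h1

theorem eq_one {a b e : G} (ha : a ∈ 𝐍(Q)) (hb : b ∈ 𝐍(Q)) (h1 : F a * F b ≠ 1)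
    (h2 : (F a * F b) ^ 5 = 1) (he : e ∈ Q) (h3 : a * e = e * a) (h4 : b * e = e * b) : e = 1 := by
  rw [← h.mul ha hb] at h1 h2
  exact h.o6.eq_one_of_comm5 (h.order5 (mul_mem ha hb) h1 h2) (two_of_mem h.two he)
    (Commute.mul_left h3 h4)

theorem sq_le {a : G} (ha : a ∈ S) (ha' : a ∉ Q) {D : Subgroup G} (hD : D ≤ Q)
    (hc : ∀ d ∈ D, a * d = d * a) : Nat.card D * Nat.card D ≤ Nat.card Q := by
  obtain ⟨y, h1, h2⟩ := five_conj _ (h.F_sq ha) (h.F_ne ha ha')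
  obtain ⟨y, hy, rfl⟩ := h.surj y
  rw [← h.conj hy (h.sn ha)] at h1 h2
  have h3 := card_mul_le hD ((map_mono hD).trans (cj_eq hy).le) fun e he he' =>
    h.eq_one (h.sn ha) (mul_mem (mul_mem hy (h.sn ha)) (inv_mem hy)) h1 h2 (hD he) (hc e he) (by
      calc y * a * y⁻¹ * e = y * (a * (y⁻¹ * e * y)) * y⁻¹ := by group
        _ = _ := by rw [hc _ (mem_cj.1 he')]; group)
  rwa [card_map_conj] at h3

theorem card_eq (hc : Nat.card Q ≤ 64) : Nat.card Q = 16 := by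
  have := Fact.mk Nat.prime_two
  obtain ⟨k, hk⟩ := IsPGroup.iff_card.1 h.two
  have h1 := h.mod5
  have h2 : Nat.card Q ≠ 1 := fun e => by
    obtain ⟨g, -, hg⟩ := h.ex5
    have h3 := card_eq_one.1 e
    have h4 : g ∈ Q := h.ch (mem_centralizer_iff.2 fun q hq => by
      rw [h3] at hq; rw [mem_bot.1 hq, one_mul, mul_one])
    rw [h3] at h4
    rw [mem_bot.1 h4, orderOf_one] at hg
    omega
  rw [hk] at h1 h2 hc ⊢
  have h3 : k ≤ 6 := (Nat.pow_le_pow_iff_right (by norm_num)).1 (hc.trans_eq (by norm_num))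
  interval_cases k <;> omega

theorem ex_other {a : G} (ha : a ∈ S) (ha' : a ∉ Q) : ∃ b ∈ S, b ∉ Q ∧ a * b ∉ Q := by
  by_contra h1
  push Not at h1
  have h2 : (Q.subgroupOf S).index = 2 := index_eq_two_iff'.2 ⟨⟨a, ha⟩, fun b => by
    change Xor (a * b ∈ Q) ((b : G) ∈ Q)
    by_cases e : (b : G) ∈ Q
    · exact Or.inr ⟨e, fun e' => ha' ((Q.mul_mem_cancel_right e).1 e')⟩
    · exact Or.inl ⟨h1 b b.2 e, e⟩⟩
  have := h.idx4
  rw [relIndex, h2] at this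
  omega

theorem cover' {a b c : G} (ha : a ∈ S) (ha' : a ∉ Q) (hb : b ∈ S) (hb' : b ∉ Q) (hab : a * b ∉ Q)
    (hc : c ∈ 𝐍(Q)) (h1 : F c * F a = F a * F c) :
    c ∈ Q ∨ c * a⁻¹ ∈ Q ∨ c * b⁻¹ ∈ Q ∨ c * (a * b)⁻¹ ∈ Q := by
  have := cover _ (h.F_sq ha) (h.F_ne ha ha') _ (h.F_comm hb ha) (h.F_ne hb hb')
    (h.mul (h.sn ha) (h.sn hb) ▸ h.F_ne (S.mul_mem ha hb) hab) _ h1
  rwa [← h.mul (h.sn ha) (h.sn hb), h.ker hc, h.eq_iff hc (h.sn ha), h.eq_iff hc (h.sn hb),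
    h.eq_iff hc (h.sn (S.mul_mem ha hb))] at this

theorem mem_S {a c : G} (ha : a ∈ S) (ha' : a ∉ Q) (hc : c ∈ 𝐍(Q)) (h1 : F c * F a = F a * F c) :
    c ∈ S := by
  obtain ⟨b, hb, hb', hab⟩ := h.ex_other ha ha'
  rcases h.cover' ha ha' hb hb' hab hc h1 with e | e | e | e
  · exact h.le e
  · exact (S.mul_mem_cancel_right (inv_mem ha)).1 (h.le e)
  · exact (S.mul_mem_cancel_right (inv_mem hb)).1 (h.le e)
  · exact (S.mul_mem_cancel_right (inv_mem (S.mul_mem ha hb))).1 (h.le e)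

/-- The centres of two different Sylow subgroups meet trivially. -/
theorem disj {a g e : G} (ha : a ∈ S) (ha' : a ∉ Q) (hg : g ∈ 𝐍(Q))
    (h1 : F g * F a * (F g)⁻¹ * F a ≠ F a * (F g * F a * (F g)⁻¹)) (he : e ∈ Q)
    (h2 : ∀ s ∈ S, s * e = e * s) (h3 : ∀ s ∈ S, s * (g⁻¹ * e * g) = g⁻¹ * e * g * s) : e = 1 := by
  obtain ⟨c, h4, h5, h6⟩ := five_of_nc _ (h.F_sq ha) (h.F_ne ha ha') _
    (by rw [conj_mul, h.F_sq ha, mul_one, mul_inv_cancel]) h1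
  obtain ⟨c, hc, rfl⟩ := h.surj c
  rw [← h.conj hg (h.sn ha)] at h5 h6
  refine h.eq_one hc (mul_mem (mul_mem hg (h.sn ha)) (inv_mem hg)) h5 h6 he
    (h2 _ (h.mem_S ha ha' hc h4)) ?_
  calc g * a * g⁻¹ * e = g * (a * (g⁻¹ * e * g)) * g⁻¹ := by group
    _ = _ := by rw [h3 _ ha]; group

theorem ex_w {a : G} (ha : a ∈ S) (ha' : a ∉ Q) : ∃ w ∈ 𝐍(Q), w ∈ 𝐍(S) ∧
    w * w * (w * w) * (w * w) = 1 ∧ ⁅w * w, a⁆ ∉ Q := by
  obtain ⟨w, h1, h2, h3⟩ := ex_three _ (h.F_sq ha) (h.F_ne ha ha')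
  obtain ⟨w, hw, rfl⟩ := h.surj w
  have h4 := mul_mem hw hw
  refine ⟨w, hw, mem_normalizer_of_conj_mem fun s hs => h.mem_S ha ha'
    (mul_mem (mul_mem hw (h.sn hs)) (inv_mem hw)) ?_, ?_, fun e => h2 ?_⟩
  · rw [h.conj hw (h.sn hs)]
    exact h3 _ (h.F_comm hs ha)
  · rw [← h.mul hw hw, ← h.mul h4 hw, h.ker (mul_mem h4 hw)] at h1
    rw [← h.sq _ h1]
    simp only [mul_assoc]
  · rw [← h.mul hw hw, ← h.mul h4 (h.sn ha), ← h.mul (h.sn ha) h4,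
      h.eq_iff (mul_mem h4 (h.sn ha)) (mul_mem (h.sn ha) h4)]
    simpa only [commutatorElement_def, mul_inv_rev, mul_assoc] using e

section nat

variable {E : Subgroup G} (hE : ∀ a ∈ E, a * a = 1) (hl : E ≤ S) (hc : Nat.card E = Nat.card Q)
  (hne : E ≠ Q)
include hE hl hc hne

theorem nat_ex : ∃ a ∈ E, a ∉ Q := by
  by_contra h1
  push Not at h1
  exact hne (eq_of_le_of_card_ge h1 hc.ge)

theorem nat_card : Nat.card Q = 16 ∧ Nat.card ↥(Q ⊓ E) = 4 := by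
  obtain ⟨a, ha, ha'⟩ := h.nat_ex hE hl hc hne
  have h1 := h.sq_le (hl ha) ha' (inf_le_left : Q ⊓ E ≤ Q) fun d hd => comm_of_sq hE ha hd.2
  have h2 := card_inf_mul_relIndex Q E
  have h3 : Q.relIndex E ≤ 4 := h.idx4 ▸ relIndex_le_of_le_right hl index_ne_zero_of_finite
  have h4 : 0 < Nat.card ↥(Q ⊓ E) := Nat.card_pos
  have h5 : Nat.card ↥(Q ⊓ E) ≤ 4 := by nlinarith
  have h6 := h.card_eq (by nlinarith)
  exact ⟨h6, by nlinarith⟩

theorem nat_mul {t : G} (ht : t ∈ S) : ∃ a ∈ Q, ∃ b ∈ E, t = a * b := by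
  obtain ⟨h1, h2⟩ := h.nat_card hE hl hc hne
  have h3 := card_sup_mul_card_inf (hl.trans h.sn)
  rw [inf_comm, h2, hc, h1, sup_comm] at h3
  have h4 : Q ⊔ E = S := eq_of_le_of_card_ge (sup_le h.le hl) (by rw [h.card_S, h1]; omega)
  obtain ⟨a, ha, b, hb, e⟩ := (mem_sup_iff_of_le_normalizer' (hl.trans h.sn)).1 (h4 ▸ ht)
  exact ⟨a, ha, b, hb, e.symm⟩

theorem nat_cent {a b : G} (ha : a ∈ Q) (hb : b ∈ E) (e : a * b = b * a) : a ∈ E ∨ b ∈ Q := by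
  obtain ⟨h1, h2⟩ := h.nat_card hE hl hc hne
  refine or_iff_not_imp_right.2 fun hb' => ?_
  have h3 := h.sq_le (hl hb) hb' (inf_le_left : Q ⊓ 𝐂[b] ≤ Q)
    fun d hd => (mem_centralizer_singleton_iff.1 hd.2).symm
  have h4 : Q ⊓ E = Q ⊓ 𝐂[b] := eq_of_le_of_card_ge (fun d hd =>
    ⟨hd.1, mem_centralizer_singleton_iff.2 (comm_of_sq hE hd.2 hb)⟩) (by nlinarith)
  exact (h4.ge ⟨ha, mem_centralizer_singleton_iff.2 e⟩).2

theorem nat_inv {t : G} (ht : t ∈ S) (h1 : t * t = 1) : t ∈ Q ∨ t ∈ E := by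
  obtain ⟨a, ha, b, hb, rfl⟩ := h.nat_mul hE hl hc hne ht
  have h2 : a * b = b * a := by
    rw [← inv_eq_of_mul_eq_one_right h1, mul_inv_rev, inv_eq_of_mul_eq_one_right (h.sq _ ha),
      inv_eq_of_mul_eq_one_right (hE _ hb)]
  rcases h.nat_cent hE hl hc hne ha hb h2 with e | e
  · exact Or.inr (E.mul_mem e hb)
  · exact Or.inl (Q.mul_mem ha e)

theorem nat_z {z s : G} (hz : z ∈ Q ⊓ E) (hs : s ∈ S) : s * z = z * s := by
  obtain ⟨a, ha, b, hb, rfl⟩ := h.nat_mul hE hl hc hne hs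
  exact Commute.mul_left (h.comm ha hz.1) (comm_of_sq hE hb hz.2)

end nat

end NQ

end CfsgLib.E6
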