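import Cfsg.Agent.Lib.E6.A5a

/-!
# Three elementary subgroups permuted by an element of order three
-/

set_option autoImplicit false
set_option linter.unusedSectionVars false

namespace CfsgLib.E6

open Subgroup Cfsg CfsgLib.FT.BGN CfsgLib.Cit CfsgLib.H1 A5f
open scoped commutatorElement

variable {G : Type*} [Group G] [Finite G]

/-- conjugation by `g` maps `A` into `B` -/
def Mv (g : G) (A B : Subgroup G) : Prop := ∀ a ∈ A, g * a * g⁻¹ ∈ B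

theorem Mv.mul {g g' : G} {A B C : Subgroup G} (h : Mv g B C) (h' : Mv g' A B) : Mv (g * g') A C :=
  fun a ha => by simpa only [mul_inv_rev, mul_assoc] using h _ (h' a ha)

theorem comm_mul_mem {Z : Subgroup G} {k a b : G} (hn : ∀ z ∈ Z, a * z * a⁻¹ ∈ Z)
    (h1 : ⁅k, a⁆ ∈ Z) (h2 : ⁅k, b⁆ ∈ Z) : ⁅k, a * b⁆ ∈ Z := by
  have : ⁅k, a * b⁆ = ⁅k, a⁆ * (a * ⁅k, b⁆ * a⁻¹) := by
    simp only [commutatorElement_def]; group
  rw [this]
  exact Z.mul_mem h1 (hn _ h2)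

theorem comm_of_three {a b : G} (ha : a * a = 1) (hb : b * b = 1) (h : a * b * (a * b) = 1) :
    a * b = b * a := by
  rw [← inv_eq_of_mul_eq_one_right h, mul_inv_rev, inv_eq_of_mul_eq_one_right ha,
    inv_eq_of_mul_eq_one_right hb]

structure ES (R A B C Z : Subgroup G) : Prop where
  o6 : O6 G
  two : IsPGroup 2 R
  lA : A ≤ R
  lB : B ≤ R
  zA : Z ≤ A
  zB : Z ≤ B
  zC : Z ≤ C
  iAB : ∀ y ∈ A, y ∈ B → y ∈ Z
  iBC : ∀ y ∈ B, y ∈ C → y ∈ Z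
  iCA : ∀ y ∈ C, y ∈ A → y ∈ Z
  gen : ∀ r ∈ R, ∃ a ∈ A, ∃ b ∈ B, r = a * b
  comm : ∀ r ∈ R, ∀ s ∈ R, ⁅r, s⁆ ∈ Z
  inv : ∀ r ∈ R, r * r = 1 → r ∈ A ∨ r ∈ B ∨ r ∈ C
  sq : ∀ z ∈ Z, z * z = 1

structure Gd3 (R Z A B C A' B' C' : Subgroup G) (g : G) : Prop where
  n : g ∈ 𝐍(R)
  c : g ∈ 𝐂(Z)
  mA : Mv g A A'
  mB : Mv g B B'
  mC : Mv g C C'

theorem Gd3.mul {R Z A B C A' B' C' A'' B'' C'' : Subgroup G} {g g' : G}
    (h : Gd3 R Z A' B' C' A'' B'' C'' g) (h' : Gd3 R Z A B C A' B' C' g') :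
    Gd3 R Z A B C A'' B'' C'' (g * g') :=
  ⟨mul_mem h.n h'.n, mul_mem h.c h'.c, h.mA.mul h'.mA, h.mB.mul h'.mB, h.mC.mul h'.mC⟩

theorem Gd3.rot {R Z A B C A' B' C' : Subgroup G} {g : G} (h : Gd3 R Z A B C A' B' C' g) :
    Gd3 R Z B C A B' C' A' g := ⟨h.n, h.c, h.mB, h.mC, h.mA⟩

theorem cent_fix {Z : Subgroup G} {g z : G} (h : g ∈ 𝐂(Z)) (hz : z ∈ Z) : g * z * g⁻¹ = z := by
  rw [← mem_centralizer_iff.1 h z hz, mul_inv_cancel_right]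

/-- elements acting trivially on `R / Z` and `Z` -/
def trv (R Z : Subgroup G) : Subgroup G := 𝐂(Z) ⊓ CommCalc.relCent Z R

theorem mem_trv {R Z : Subgroup G} {g : G} (h1 : g ∈ 𝐂(Z)) (h2 : ∀ r ∈ R, ⁅g, r⁆ ∈ Z) :
    g ∈ trv R Z := ⟨h1, centralizer_le_normalizer _ h1, h2⟩

theorem trv_conj {R Z : Subgroup G} {g k : G} (h1 : g ∈ 𝐍(R)) (h2 : g ∈ 𝐂(Z)) (hk : k ∈ trv R Z) :
    g * k * g⁻¹ ∈ trv R Z := by
  refine mem_trv (mul_mem (mul_mem h2 hk.1) (inv_mem h2)) fun r hr => ?_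
  have h3 := hk.2.2 _ (cmem (inv_mem h1) hr)
  have : ⁅g * k * g⁻¹, r⁆ = g * ⁅k, g⁻¹ * r * g⁻¹⁻¹⁆ * g⁻¹ := by
    simp only [commutatorElement_def]; group
  rwa [this, cent_fix h2 h3]

namespace ES

variable {R A B C Z : Subgroup G} (h : ES R A B C Z)
include h

theorem nz {r : G} (hr : r ∈ R) : ∀ z ∈ Z, r * z * r⁻¹ ∈ Z := fun z hz =>
  (Z.mul_mem_cancel_right (inv_mem hz)).1 (h.comm r hr z (h.lA (h.zA hz)))

theorem mv_trv {k : G} (hk : k ∈ trv R Z) {X : Subgroup G} (h1 : Z ≤ X) (h2 : X ≤ R) : Mv k X X :=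
  fun a ha => (X.mul_mem_cancel_right (inv_mem ha)).1 (h1 (hk.2.2 a (h2 ha)))

theorem prod_mem {g : G} (hg : Gd3 R Z A B C B C A g) (h3 : g * g * g = 1) {r : G} (hr : r ∈ R) :
    r * (g * r * g⁻¹) * (g * (g * r * g⁻¹) * g⁻¹) ∈ Z := by
  have h1 := R.mul_mem (R.mul_mem hr (cmem hg.n hr)) (cmem hg.n (cmem hg.n hr))
  by_cases e : g = 1
  · obtain ⟨a, ha, b, hb, e'⟩ := h.gen _ h1
    rw [e']
    exact Z.mul_mem (h.iAB a ha (by simpa [e] using hg.mA a ha))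
      (h.iBC b hb (by simpa [e] using hg.mB b hb))
  have : Fact (Nat.Prime 3) := ⟨Nat.prime_three⟩
  have ho : orderOf g = 3 := orderOf_eq_prime (by rw [← h3]; simp only [pow_succ, pow_zero, one_mul]) e
  set c := r * (g * r * g⁻¹) * (g * (g * r * g⁻¹) * g⁻¹) with hc
  have h2 := h.comm _ (inv_mem hr) _ h1
  have h4 : g * c * g⁻¹ = ⁅r⁻¹, c⁆ * c := by
    calc _ = g * r * g⁻¹ * (g * (g * r * g⁻¹) * g⁻¹) * (g * g * g * r * (g * g * g)⁻¹) := by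
          rw [hc]; group
      _ = _ := by rw [h3, commutatorElement_def, hc]; group
  have h5 : Commute (g * g) c := by
    have : g * g * c * (g * g)⁻¹ = c := by
      calc _ = g * (g * c * g⁻¹) * g⁻¹ := by group
        _ = g * (⁅r⁻¹, c⁆ * c) * g⁻¹ := by rw [h4]
        _ = g * ⁅r⁻¹, c⁆ * g⁻¹ * (g * c * g⁻¹) := by group
        _ = _ := by rw [cent_fix hg.c h2, h4, ← mul_assoc, h.sq _ h2, one_mul]
    exact mul_inv_eq_iff_eq_mul.1 this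
  have h6 : g * c = c * g := by
    have := h5.mul_left h5
    rwa [← mul_assoc, h3, one_mul] at this
  have h7 : g * c * g⁻¹ = c := by rw [h6, mul_inv_cancel_right]
  rcases h.inv c h1 (h.o6.sq_of_comm3 ho (two_of_mem h.two h1) h6) with e | e | e
  · exact h.iAB c e (h7 ▸ hg.mA c e)
  · exact h.iBC c e (h7 ▸ hg.mB c e)
  · exact h.iCA c e (h7 ▸ hg.mC c e)

theorem agree {g g' : G} (hg : Gd3 R Z A B C B C A g) (h3 : g * g * g = 1)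
    (hg' : Gd3 R Z A B C B C A g') (h3' : g' * g' * g' = 1) : g⁻¹ * g' ∈ trv R Z := by
  have key : ∀ {X Y W : Subgroup G}, X ≤ R → Z ≤ W → Mv g X Y → Mv g Y W → Mv g' X Y → Mv g' Y W →
      (∀ y ∈ Y, y ∈ W → y ∈ Z) → ∀ a ∈ X, ⁅g⁻¹ * g', a⁆ ∈ Z := by
    intro X Y W h1 h2 m1 m2 m3 m4 h4 a ha
    have h5 := (W.mul_mem_cancel_right (m2 _ (m1 a ha))).1 (h2 (h.prod_mem hg h3 (h1 ha)))
    have h6 := (W.mul_mem_cancel_right (m4 _ (m3 a ha))).1 (h2 (h.prod_mem hg' h3' (h1 ha)))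
    have h7 := h4 _ (Y.mul_mem (inv_mem (m1 a ha)) (m3 a ha)) (by
      have := W.mul_mem (inv_mem h5) h6
      rwa [mul_inv_rev, mul_assoc, inv_mul_cancel_left] at this)
    have h8 := h.nz (cmem hg.n (h1 ha)) _ h7
    have : ⁅g⁻¹ * g', a⁆ = g⁻¹ * (g * a * g⁻¹ * ((g * a * g⁻¹)⁻¹ * (g' * a * g'⁻¹)) *
        (g * a * g⁻¹)⁻¹) * g⁻¹⁻¹ := by simp only [commutatorElement_def]; group
    rwa [this, cent_fix (inv_mem hg.c) h8]
  refine mem_trv (mul_mem (inv_mem hg.c) hg'.c) fun r hr => ?_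
  obtain ⟨a, ha, b, hb, rfl⟩ := h.gen r hr
  exact comm_mul_mem (h.nz (h.lA ha)) (key h.lA h.zC hg.mA hg.mB hg'.mA hg'.mB h.iBC a ha)
    (key h.lB h.zA hg.mB hg.mC hg'.mB hg'.mC h.iCA b hb)

theorem main (lC : C ≤ R) {x w : G} (hx : Gd3 R Z A B C B C A x) (h3 : x * x * x = 1)
    (hw : Gd3 R Z A B C A B C w) (h3' : w * w * w = 1) : w ∈ trv R Z := by
  have e1 : w⁻¹ = w * w := inv_eq_of_mul_eq_one_left h3'
  have h1 := h.agree hx h3 (g' := w * x * w⁻¹) (e1 ▸ (hw.rot.mul hx).mul (hw.mul hw)) (by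
    rw [conj_mul, conj_mul, h3, mul_one, mul_inv_cancel])
  set k := x⁻¹ * (w * x * w⁻¹) with hk
  have h2 : (x * w) ^ 3 ∈ trv R Z := by
    have : (x * w) ^ 3 = x * x * k * (x * x)⁻¹ * (x * x * x) * k * (w * k * w⁻¹) * (w * w * w) := by
      rw [hk]; simp only [pow_succ, pow_zero, one_mul]; group
    rw [this, h3, h3', mul_one, mul_one]
    exact mul_mem (mul_mem (trv_conj (mul_mem hx.n hx.n) (mul_mem hx.c hx.c) h1) h1)
      (trv_conj hw.n hw.c h1)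
  have h4 := pow_mem h2 13
  have h5 := h.agree hx h3 (g' := x * w * ((x * w) ^ 3) ^ 13) ((hx.mul hw).mul
    ⟨mem_normalizer_of_conj_mem (h.mv_trv h4 (h.zA.trans h.lA) le_rfl), h4.1,
      h.mv_trv h4 h.zA h.lA, h.mv_trv h4 h.zB h.lB, h.mv_trv h4 h.zC lC⟩) (by
    rw [← pow_mul, ← pow_succ', ← pow_add, ← pow_add,
      show 3 * 13 + 1 + (3 * 13 + 1) + (3 * 13 + 1) = 60 * 2 from rfl, pow_mul, h.o6.pow_sixty,
      one_pow])
  rwa [mul_assoc, inv_mul_cancel_left, mul_mem_cancel_right h4] at h5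

end ES

end CfsgLib.E6
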