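import Cfsg.Agent.Lib.Sig.ZNCub

/-!
# Pairs of `S₃`-parabolics over a common `2`-subgroup
-/

set_option autoImplicit false

namespace CfsgLib.E6

open Subgroup MulAction Cfsg CfsgLib.Cop CfsgLib.H1
open CfsgLib.Sig (Cub)

variable {G : Type*} [Group G]

/-- `P = ⟨B, d⟩` acts as `S₃` on the four-group `⟨z, v⟩` with kernel `C_B(v)`. -/
structure Par (B : Subgroup G) (d z v : G) : Prop where
  d3 : d * d * d = 1
  z_ne : z ≠ 1
  z_sq : z * z = 1
  z_mem : z ∈ B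
  z_cent : ∀ b ∈ B, b * z * b⁻¹ = z
  dz : d * z * d⁻¹ = v
  dv : d * v * d⁻¹ = z * v
  v_mem : v ∈ B
  v_conj : ∀ b ∈ B, b * v * b⁻¹ = v ∨ b * v * b⁻¹ = z * v
  norm : d ∈ normalizer ((B ⊓ centralizer {v} : Subgroup G) : Set G)
  ex : ∃ a, a ∈ B ∧ a * d * a⁻¹ = d⁻¹

namespace Par

variable {B : Subgroup G} {d z v : G} (h : Par B d z v)
include h

theorem v_sq : v * v = 1 := by
  rw [← h.dz, conj_mul, h.z_sq, mul_one, mul_inv_cancel]

theorem z_comm {b : G} (hb : b ∈ B) : b * z = z * b := mul_inv_eq_iff_eq_mul.1 (h.z_cent b hb)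

theorem vz : v * z = z * v := h.z_comm h.v_mem

theorem dzv : d * (z * v) * d⁻¹ = z := by
  rw [← conj_mul, h.dz, h.dv, ← mul_assoc, h.vz, mul_assoc, h.v_sq, mul_one]

theorem v_ne_one : v ≠ 1 := fun e => h.z_ne (by simpa [e] using h.dv.symm)

theorem v_ne : v ≠ z := fun e => h.v_ne_one (by rw [← h.dz, ← e, h.dv, e, h.z_sq])

theorem zv_ne : z * v ≠ v := fun e => h.z_ne (mul_eq_right.1 e)

theorem d_notMem : d ∉ B := fun e => h.v_ne (h.dz.symm.trans (h.z_cent d e))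

theorem d_inv : d⁻¹ = d * d := inv_eq_of_mul_eq_one_left h.d3

theorem inv_conj {a : G} (ha : a ∈ B) (h1 : a * d * a⁻¹ = d⁻¹) : a * v * a⁻¹ = z * v := by
  have : a * v * a⁻¹ = (a * d * a⁻¹) * (a * z * a⁻¹) * (a * d * a⁻¹)⁻¹ := by rw [← h.dz]; group
  rw [this, h1, h.z_cent a ha]
  conv_lhs => rw [← h.dzv]
  group

theorem mul_mem_Q {a b : G} (ha : a ∈ B) (hb : b ∈ B) (h1 : a * v * a⁻¹ = z * v)
    (h2 : b * v * b⁻¹ = z * v) : a * b ∈ B ⊓ centralizer {v} := by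
  refine ⟨mul_mem ha hb, mem_centralizer_singleton_iff.2 (mul_inv_eq_iff_eq_mul.1 ?_)⟩
  have : a * b * v * (a * b)⁻¹ = a * (b * v * b⁻¹) * a⁻¹ := by group
  rw [this, h2, ← conj_mul, h.z_cent a ha, h1, ← mul_assoc, h.z_sq, one_mul]

set_option linter.unusedSectionVars false in
theorem mem_Q {b : G} (hb : b ∈ B) (h1 : b * v * b⁻¹ = v) : b ∈ B ⊓ centralizer {v} :=
  ⟨hb, mem_centralizer_singleton_iff.2 (mul_inv_eq_iff_eq_mul.1 h1)⟩

theorem conj_d {b : G} (hb : b ∈ B) (h1 : b * v * b⁻¹ = z * v) :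
    d * (b * d * b⁻¹) ∈ B ⊓ centralizer {v} := by
  obtain ⟨a, ha', h2⟩ := h.ex
  have h3 := h.mul_mem_Q hb ha' h1 (h.inv_conj ha' h2)
  have := mul_mem ((mem_normalizer_iff.1 h.norm _).1 h3) (inv_mem h3)
  convert this using 1
  have h5 : b * d * b⁻¹ = b * a * d⁻¹ * (b * a)⁻¹ := by
    have h6 : a * d⁻¹ * a⁻¹ = d := by simpa [mul_assoc] using congrArg Inv.inv h2
    conv_lhs => rw [← h6]
    group
  rw [h5]; group

theorem exists_mul_d {b : G} (hb : b ∈ B) : d⁻¹ * b * d ∈ B ∨ d * b * d ∈ B := by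
  rcases h.v_conj b hb with e | e
  · exact Or.inl ((mem_normalizer_iff''.1 h.norm _).1 (h.mem_Q hb e)).1
  · exact Or.inr (by simpa [mul_assoc] using mul_mem (h.conj_d hb e).1 hb)

theorem exists_mul_d' {b : G} (hb : b ∈ B) : d * b * d⁻¹ ∈ B ∨ d⁻¹ * b * d⁻¹ ∈ B := by
  rcases h.v_conj b⁻¹ (inv_mem hb) with e | e
  · exact Or.inl ((mem_normalizer_iff.1 h.norm _).1 (inv_mem_iff.1 (h.mem_Q (inv_mem hb) e))).1
  · exact Or.inr (by
      simpa [mul_assoc] using B.inv_mem (B.mul_mem (h.conj_d (inv_mem hb) e).1 (inv_mem hb)))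

theorem mem_sup {x : G} (hx : x ∈ B ⊔ zpowers d) : x ∈ B ∨ d⁻¹ * x ∈ B ∨ d * x ∈ B := by
  have key : ∀ b ∈ B, ∀ y, (y ∈ B ∨ d⁻¹ * y ∈ B ∨ d * y ∈ B) →
      (b * y ∈ B ∨ d⁻¹ * (b * y) ∈ B ∨ d * (b * y) ∈ B) := by
    rintro b hb y (e | e | e)
    · exact Or.inl (mul_mem hb e)
    · rcases h.exists_mul_d hb with e' | e'
      · exact Or.inr (Or.inl (by simpa [mul_assoc] using mul_mem e' e))
      · exact Or.inr (Or.inr (by simpa [mul_assoc] using mul_mem e' e))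
    · rcases h.exists_mul_d' hb with e' | e'
      · exact Or.inr (Or.inr (by simpa [mul_assoc] using mul_mem e' e))
      · exact Or.inr (Or.inl (by simpa [mul_assoc] using mul_mem e' e))
  have key2 : ∀ y, (y ∈ B ∨ d⁻¹ * y ∈ B ∨ d * y ∈ B) →
      (d * y ∈ B ∨ d⁻¹ * (d * y) ∈ B ∨ d * (d * y) ∈ B) := by
    rintro y (e | e | e)
    · exact Or.inr (Or.inl (by simpa using e))
    · exact Or.inr (Or.inr (by rwa [← mul_assoc, ← h.d_inv]))
    · exact Or.inl e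
  let K : Subgroup G :=
    { carrier := {g | (∀ y, (y ∈ B ∨ d⁻¹ * y ∈ B ∨ d * y ∈ B) →
          (g * y ∈ B ∨ d⁻¹ * (g * y) ∈ B ∨ d * (g * y) ∈ B)) ∧
        ∀ y, (y ∈ B ∨ d⁻¹ * y ∈ B ∨ d * y ∈ B) →
          (g⁻¹ * y ∈ B ∨ d⁻¹ * (g⁻¹ * y) ∈ B ∨ d * (g⁻¹ * y) ∈ B)}
      one_mem' := by simp
      mul_mem' := fun {a b} ha hb => ⟨fun y hy => by rw [mul_assoc]; exact ha.1 _ (hb.1 y hy),
        fun y hy => by rw [mul_inv_rev, mul_assoc]; exact hb.2 _ (ha.2 y hy)⟩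
      inv_mem' := fun {a} ha => ⟨ha.2, by rw [inv_inv]; exact ha.1⟩ }
  have : B ⊔ zpowers d ≤ K := sup_le (fun b hb => ⟨key b hb, key _ (inv_mem hb)⟩)
    (zpowers_le_of_mem ⟨key2, fun y hy => by
      rw [h.d_inv, mul_assoc d d y, ← h.d_inv]; exact key2 _ (key2 y hy)⟩)
  simpa using (this hx).1 1 (Or.inl (one_mem _))

theorem le_normalizer_Q :
    B ⊔ zpowers d ≤ normalizer ((B ⊓ centralizer {v} : Subgroup G) : Set G) := by
  refine sup_le (le_normalizer_iff.2 fun b hb q hq => ?_) (zpowers_le_of_mem h.norm)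
  refine h.mem_Q (mul_mem (mul_mem hb hq.1) (inv_mem hb)) ?_
  have h1 : q * v * q⁻¹ = v := mul_inv_eq_iff_eq_mul.2 (mem_centralizer_singleton_iff.1 hq.2)
  have : b * q * b⁻¹ * v * (b * q * b⁻¹)⁻¹ = b * (q * (b⁻¹ * v * b⁻¹⁻¹) * q⁻¹) * b⁻¹ := by group
  rcases h.v_conj _ (inv_mem hb) with e | e
  · rw [this, e, h1]
    conv_lhs => rw [← e]
    group
  · rw [this, e, ← conj_mul (b := q), h1, h.z_cent q hq.1, ← e]
    group

theorem four_le : zpowers z ⊔ zpowers v ≤ B :=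
  sup_le (zpowers_le_of_mem h.z_mem) (zpowers_le_of_mem h.v_mem)

theorem mem_four {x : G} (hx : x ∈ zpowers z ⊔ zpowers v) : x = 1 ∨ x = z ∨ x = v ∨ x = z * v :=
  Sig.mem_four h.z_sq h.v_sq h.vz.symm hx

theorem le_normalizer_four :
    B ⊔ zpowers d ≤ normalizer ((zpowers z ⊔ zpowers v : Subgroup G) : Set G) := by
  have h1 : z ∈ zpowers z ⊔ zpowers v := mem_sup_left (mem_zpowers z)
  have h2 : v ∈ zpowers z ⊔ zpowers v := mem_sup_right (mem_zpowers v)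
  have key : ∀ g, g * z * g⁻¹ ∈ zpowers z ⊔ zpowers v → g * v * g⁻¹ ∈ zpowers z ⊔ zpowers v →
      ∀ x ∈ zpowers z ⊔ zpowers v, g * x * g⁻¹ ∈ zpowers z ⊔ zpowers v := fun g e1 e2 x hx => by
    rcases h.mem_four hx with rfl | rfl | rfl | rfl
    · simp
    · exact e1
    · exact e2
    · rw [← conj_mul]; exact mul_mem e1 e2
  have hd := key d (h.dz ▸ h2) (h.dv ▸ mul_mem h1 h2)
  refine sup_le (le_normalizer_iff.2 fun b hb => key b ((h.z_cent b hb).symm ▸ h1) ?_)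
    (zpowers_le_of_mem (mem_normalizer_iff.2 fun x => ⟨hd x, fun hx => ?_⟩))
  · rcases h.v_conj b hb with e | e <;> rw [e]
    exacts [h2, mul_mem h1 h2]
  · have := hd _ (hd _ hx)
    rwa [show d * (d * (d * x * d⁻¹) * d⁻¹) * d⁻¹ = (d * d * d) * x * (d * d * d)⁻¹ by group,
      h.d3, one_mul, inv_one, mul_one] at this

end Par

section Inst

variable {B : Subgroup G} {d z v : Bool → G}

theorem Par.mem_of_both (h : ∀ i, Par B (d i) (z i) (v i))
    (hN : ∀ N ≤ B, (∀ i, B ⊔ zpowers (d i) ≤ normalizer (N : Set G)) → N = ⊥) {x : G} (i : Bool)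
    (h1 : x ∈ B ⊔ zpowers (d i)) (h2 : x ∈ B ⊔ zpowers (d (!i))) : x ∈ B := by
  by_contra hx
  have h3 : d (!i) ∈ B ⊔ zpowers (d i) := by
    rcases (h (!i)).mem_sup h2 with e | e | e
    · exact absurd e hx
    · simpa using mul_mem h1 (inv_mem (mem_sup_left e))
    · simpa using mul_mem (mem_sup_left e) (inv_mem h1)
  have h4 := hN _ (h i).four_le fun j => by
    by_cases e : j = i
    · exact e ▸ (h j).le_normalizer_four
    · obtain rfl : j = !i := Bool.eq_not_of_ne e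
      exact (sup_le le_sup_left (zpowers_le_of_mem h3)).trans (h i).le_normalizer_four
  exact (h i).z_ne (mem_bot.1 (h4 ▸ mem_sup_left (mem_zpowers _)))

/-- vertices of the coset graph -/
def vtx (B : Subgroup G) (d : Bool → G) (i : Bool) (k : G) : Σ i, G ⧸ (B ⊔ zpowers (d i)) :=
  ⟨i, QuotientGroup.mk k⟩

theorem vtx_eq {i j : Bool} {k l : G} :
    vtx B d i k = vtx B d j l ↔ i = j ∧ k⁻¹ * l ∈ B ⊔ zpowers (d i) := by
  constructor
  · intro e
    obtain rfl : i = j := congrArg Sigma.fst e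
    exact ⟨rfl, QuotientGroup.eq.1 (eq_of_heq (Sigma.mk.inj e).2)⟩
  · rintro ⟨rfl, e⟩
    exact congrArg (Sigma.mk i) (QuotientGroup.eq.2 e)

theorem smul_vtx (g : G) (i : Bool) (k : G) : g • vtx B d i k = vtx B d i (g * k) := rfl

theorem vtx_mul (i : Bool) (k : G) {p : G} (hp : p ∈ B ⊔ zpowers (d i)) :
    vtx B d i k = vtx B d i (k * p) := vtx_eq.2 ⟨rfl, by simpa using hp⟩

theorem stabilizer_vtx (i : Bool) (k : G) : stabilizer G (vtx B d i k) =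
    (B ⊔ zpowers (d i)).map (MulAut.conj k).toMonoidHom := by
  ext g
  rw [mem_stabilizer_iff, smul_vtx, eq_comm, vtx_eq, mem_map_conj_iff]
  simp [mul_assoc]

open Classical in
/-- the involution attached to an oriented edge -/
noncomputable def zf (B : Subgroup G) (d z : Bool → G) (α β : Σ i, G ⧸ (B ⊔ zpowers (d i))) : G :=
  if h : ∃ p : Bool × G, α = vtx B d p.1 p.2 ∧ β = vtx B d (!p.1) p.2 then
    h.choose.2 * z h.choose.1 * h.choose.2⁻¹ else 1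

theorem Par.zf_eq (h : ∀ i, Par B (d i) (z i) (v i))
    (hN : ∀ N ≤ B, (∀ i, B ⊔ zpowers (d i) ≤ normalizer (N : Set G)) → N = ⊥) (i : Bool) (k : G) :
    zf B d z (vtx B d i k) (vtx B d (!i) k) = k * z i * k⁻¹ := by
  have e : ∃ p : Bool × G, vtx B d i k = vtx B d p.1 p.2 ∧ vtx B d (!i) k = vtx B d (!p.1) p.2 :=
    ⟨(i, k), rfl, rfl⟩
  rw [zf, dif_pos e]
  obtain ⟨h1, h2⟩ := e.choose_spec
  generalize e.choose = p at h1 h2
  obtain ⟨j, l⟩ := p
  obtain ⟨rfl, h3⟩ := vtx_eq.1 h1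
  have h4 := (h i).z_cent _ (Par.mem_of_both h hN i h3 (vtx_eq.1 h2).2)
  conv_rhs => rw [← h4]
  simp [mul_assoc]

theorem Par.adj_iff (h : ∀ i, Par B (d i) (z i) (v i)) (i : Bool) (k : G)
    (ε : Σ i, G ⧸ (B ⊔ zpowers (d i))) :
    (∃ j l, vtx B d i k = vtx B d j l ∧ ε = vtx B d (!j) l) ↔
      ε = vtx B d (!i) k ∨ ε = vtx B d (!i) (k * d i) ∨ ε = vtx B d (!i) (k * (d i)⁻¹) := by
  have hd : d i ∈ B ⊔ zpowers (d i) := mem_sup_right (mem_zpowers _)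
  constructor
  · rintro ⟨j, l, h1, rfl⟩
    obtain ⟨rfl, h2⟩ := vtx_eq.1 h1
    rcases (h i).mem_sup h2 with e | e | e
    · exact Or.inl (vtx_eq.2 ⟨rfl, mem_sup_left e⟩).symm
    · exact Or.inr (Or.inl (vtx_eq.2 ⟨rfl, mem_sup_left (by simpa [mul_assoc] using e)⟩).symm)
    · exact Or.inr (Or.inr (vtx_eq.2 ⟨rfl, mem_sup_left (by simpa [mul_assoc] using e)⟩).symm)
  · rintro (rfl | rfl | rfl)
    · exact ⟨i, k, rfl, rfl⟩
    · exact ⟨i, _, vtx_mul i k hd, rfl⟩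
    · exact ⟨i, _, vtx_mul i k (inv_mem hd), rfl⟩

theorem Par.zf_cases (h : ∀ i, Par B (d i) (z i) (v i))
    (hN : ∀ N ≤ B, (∀ i, B ⊔ zpowers (d i) ≤ normalizer (N : Set G)) → N = ⊥) (i : Bool) (k : G) :
    zf B d z (vtx B d i k) (vtx B d (!i) (k * d i)) = k * v i * k⁻¹ ∧
    zf B d z (vtx B d i k) (vtx B d (!i) (k * (d i)⁻¹)) = k * (z i * v i) * k⁻¹ := by
  have hd : d i ∈ B ⊔ zpowers (d i) := mem_sup_right (mem_zpowers _)
  constructor
  · rw [vtx_mul i k hd, Par.zf_eq h hN, ← (h i).dz]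
    group
  · rw [vtx_mul i k (inv_mem hd), Par.zf_eq h hN]
    conv_lhs => rw [← (h i).dzv]
    group

/-- The coset graph of a pair of parabolics. -/
noncomputable def Par.cub (h : ∀ i, Par B (d i) (z i) (v i))
    (hN : ∀ N ≤ B, (∀ i, B ⊔ zpowers (d i) ≤ normalizer (N : Set G)) → N = ⊥) :
    Cub G (Σ i, G ⧸ (B ⊔ zpowers (d i))) where
  adj α β := ∃ j l, α = vtx B d j l ∧ β = vtx B d (!j) l
  z := zf B d z
  symm := by rintro _ _ ⟨j, l, rfl, rfl⟩; exact ⟨!j, l, rfl, by rw [Bool.not_not]⟩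
  smul := by rintro g _ _ ⟨j, l, rfl, rfl⟩; exact ⟨j, g * l, rfl, rfl⟩
  z_smul := by
    rintro g _ _ ⟨j, l, rfl, rfl⟩
    rw [smul_vtx, smul_vtx, Par.zf_eq h hN, Par.zf_eq h hN]
    group
  z_sq := by
    rintro _ _ ⟨j, l, rfl, rfl⟩
    rw [Par.zf_eq h hN, conj_mul, (h j).z_sq, mul_one, mul_inv_cancel]
  z_ne := by
    rintro _ _ ⟨j, l, rfl, rfl⟩
    rw [Par.zf_eq h hN]
    simpa using (h j).z_ne
  z_fix := by
    rintro _ _ ⟨j, l, rfl, rfl⟩
    rw [Par.zf_eq h hN, smul_vtx]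
    exact (vtx_eq.2 ⟨rfl, mem_sup_left (by simpa [mul_assoc] using (h j).z_mem)⟩).symm
  z_fix' := by
    rintro _ _ γ ⟨j, l, rfl, rfl⟩ hγ
    rw [Par.zf_eq h hN]
    have e1 : (d j)⁻¹ * z j * d j = z j * v j := by
      conv_lhs => rw [← (h j).dzv]
      group
    rcases (Par.adj_iff h j l γ).1 hγ with rfl | rfl | rfl <;> rw [smul_vtx] <;>
      refine (vtx_eq.2 ⟨rfl, mem_sup_left ?_⟩).symm
    · simpa [mul_assoc] using (h j).z_mem
    · simpa [mul_assoc, ← e1] using mul_mem (h j).z_mem (h j).v_mem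
    · simpa [mul_assoc, ← (h j).dz] using (h j).v_mem
  nb := by
    rintro ⟨i, x⟩
    obtain ⟨k, rfl⟩ := QuotientGroup.mk_surjective x
    have hd : d i ∈ B ⊔ zpowers (d i) := mem_sup_right (mem_zpowers _)
    have hd' : d i ∉ B ⊔ zpowers (d (!i)) := fun e =>
      (h i).d_notMem (Par.mem_of_both h hN i hd e)
    obtain ⟨a, ha', h2⟩ := (h i).ex
    refine ⟨_, _, _, Par.adj_iff h i k, fun e => hd' ?_, fun e => hd' ?_, fun e => hd' ?_, ?_,
      ⟨k * d i * k⁻¹, ?_, ?_, ?_⟩, k * a * k⁻¹, ?_, ?_, ?_⟩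
    · simpa using (vtx_eq.1 e).2
    · simpa using (vtx_eq.1 e).2
    · have := inv_mem (vtx_eq.1 e).2
      rw [show ((k * d i)⁻¹ * (k * (d i)⁻¹))⁻¹ = d i * d i by simp [mul_assoc],
        ← (h i).d_inv] at this
      exact inv_mem_iff.1 this
    · change zf B d z (vtx B d i k) _ * zf B d z (vtx B d i k) _ = zf B d z (vtx B d i k) _
      rw [Par.zf_eq h hN, (Par.zf_cases h hN i k).1, (Par.zf_cases h hN i k).2, conj_mul]
    · exact (vtx_eq.2 ⟨rfl, by simpa [mul_assoc] using hd⟩ : vtx B d i k = vtx B d i _).symm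
    · rw [smul_vtx, inv_mul_cancel_right]
    · rw [smul_vtx, (h i).d_inv]
      simp [mul_assoc]
    · exact (vtx_eq.2 ⟨rfl, mem_sup_left (by simpa [mul_assoc] using ha')⟩ :
        vtx B d i k = vtx B d i _).symm
    · exact (vtx_eq.2 ⟨rfl, mem_sup_left (by simpa [mul_assoc] using ha')⟩).symm
    · refine (vtx_eq.2 ⟨rfl, mem_sup_left ?_⟩).symm
      rw [← h2]
      simpa [mul_assoc] using ha'
  noN := by
    rintro _ _ ⟨j, l, rfl, rfl⟩ N h1 h2 h3 h4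
    rw [stabilizer_vtx] at h1 h2 h3 h4
    have e : ∀ {K L : Subgroup G}, K ≤ L.map (MulAut.conj l).toMonoidHom →
        K.map (MulAut.conj l⁻¹).toMonoidHom ≤ L := fun {K L} e =>
      (map_mono e).trans (map_conj_inv_map_conj l L).le
    have e' : ∀ {L : Subgroup G}, L.map (MulAut.conj l).toMonoidHom ≤ normalizer (N : Set G) →
        L ≤ normalizer ((N.map (MulAut.conj l⁻¹).toMonoidHom : Subgroup G) : Set G) :=
      fun {L} e => by
        rw [normalizer_map_conj]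
        exact (map_conj_inv_map_conj l L).ge.trans (map_mono e)
    have := hN (N.map (MulAut.conj l⁻¹).toMonoidHom)
      (fun x hx => Par.mem_of_both h hN j (e h1 hx) (e h2 hx)) fun i => by
        by_cases e1 : i = j
        · exact e1 ▸ e' h3
        · obtain rfl : i = !j := Bool.eq_not_of_ne e1
          exact e' h4
    exact (Subgroup.map_eq_bot_iff_of_injective _ (MulAut.conj l⁻¹).injective).1 this

theorem Par.amalgam_aux [Finite G] (h : ∀ i, Par B (d i) (z i) (v i))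
    (hN : ∀ N ≤ B, (∀ i, B ⊔ zpowers (d i) ≤ normalizer (N : Set G)) → N = ⊥) :
    ∃ i, z i = z (!i) ∧ v i * v (!i) ≠ v (!i) * v i := by
  obtain ⟨_, _, ⟨i, k, rfl, rfl⟩, h1, -, h2⟩ := Cub.exists_edge (C := Par.cub h hN)
    (α := vtx B d true 1) (β := vtx B d false 1) ⟨true, 1, rfl, rfl⟩
  have h3 := Par.zf_eq h hN (!i) k
  have h4 := Par.zf_cases h hN (!i) k
  rw [Bool.not_not] at h3 h4
  have h5 : z i = z (!i) := by
    change zf B d z _ _ = zf B d z _ _ at h2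
    rw [Par.zf_eq h hN, h3] at h2
    simpa using h2
  refine ⟨i, h5, fun e => h1 (Cub.V_le.2 fun γ hγ => Cub.mem_Q_of_comm
    ((Par.cub h hN).z_fix' hγ ⟨i, k, rfl, rfl⟩) ?_)⟩
  have h6 : ∀ x ∈ zpowers (z i) ⊔ zpowers (v i), ∀ y ∈ zpowers (z (!i)) ⊔ zpowers (v (!i)),
      Commute (k * y * k⁻¹) (k * x * k⁻¹) := fun x hx y hy => by
    have c1 : Commute (z i) (v (!i)) := ((h i).z_comm (h (!i)).v_mem).symm
    have c2 : Commute (z i) (v i) := (h i).vz.symm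
    have c3 : Commute (v i) (v (!i)) := e
    rw [Commute, SemiconjBy, conj_mul, conj_mul]
    congr 2
    rcases (h i).mem_four hx with rfl | rfl | rfl | rfl <;>
      rcases (h (!i)).mem_four hy with rfl | rfl | rfl | rfl <;> try rw [← h5]
    all_goals first
      | rfl | simp | exact c1.symm.eq | exact c2.eq | exact c3.symm.eq
      | exact ((Commute.refl _).mul_left c1.symm).eq
      | exact (c2.mul_left c3.symm).eq
      | exact ((Commute.refl _).mul_right c2).eq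
      | exact (c1.symm.mul_right c3.symm).eq
      | exact (((Commute.refl _).mul_right c2).mul_left (c1.symm.mul_right c3.symm)).eq
  have h7 : ∀ (j : Bool) (ε), (Par.cub h hN).adj (vtx B d j k) ε →
      ∃ x ∈ zpowers (z j) ⊔ zpowers (v j), (Par.cub h hN).z (vtx B d j k) ε = k * x * k⁻¹ := by
    intro j ε hε
    have e1 : z j ∈ zpowers (z j) ⊔ zpowers (v j) := mem_sup_left (mem_zpowers _)
    have e2 : v j ∈ zpowers (z j) ⊔ zpowers (v j) := mem_sup_right (mem_zpowers _)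
    rcases (Par.adj_iff h j k ε).1 hε with rfl | rfl | rfl
    exacts [⟨_, e1, Par.zf_eq h hN j k⟩, ⟨_, e2, (Par.zf_cases h hN j k).1⟩,
      ⟨_, mul_mem e1 e2, (Par.zf_cases h hN j k).2⟩]
  obtain ⟨x, hx, e1⟩ := h7 i γ hγ
  rw [e1, ← zpowers_le, le_centralizer_iff, centralizer_zpowers', Cub.V_le]
  intro ε hε
  obtain ⟨y, hy, e2⟩ := h7 (!i) ε hε
  rw [e2, mem_centralizer_singleton_iff]
  exact h6 x hx y hy

end Inst

theorem Par.amalgam [Finite G] {B : Subgroup G} {d z v d' z' v' : G} (h : Par B d z v)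
    (h' : Par B d' z' v') (hN : ∀ N ≤ B, B ⊔ zpowers d ≤ normalizer (N : Set G) →
      B ⊔ zpowers d' ≤ normalizer (N : Set G) → N = ⊥) : z = z' ∧ v * v' ≠ v' * v := by
  obtain ⟨i, h1, h2⟩ := Par.amalgam_aux (B := B) (d := fun i => cond i d d')
    (z := fun i => cond i z z') (v := fun i => cond i v v') (by rintro (_ | _); exacts [h', h])
    fun N h1 h2 => hN N h1 (h2 true) (h2 false)
  cases i
  · exact ⟨h1.symm, h2.symm⟩
  · exact ⟨h1, h2⟩



structure Am (B : Subgroup G) (d d' z v v' : G) : Prop where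
  l : Par B d z v
  r : Par B d' z v'
  nc : v * v' ≠ v' * v
  noN : ∀ N ≤ B, B ⊔ zpowers d ≤ normalizer (N : Set G) →
    B ⊔ zpowers d' ≤ normalizer (N : Set G) → N = ⊥

namespace Am

variable {B : Subgroup G} {d d' z v v' : G} (h : Am B d d' z v v')
include h

theorem symm : Am B d' d z v' v := ⟨h.r, h.l, h.nc.symm, fun N h1 h2 h3 => h.noN N h1 h3 h2⟩

theorem conj_v : v' * v * v'⁻¹ = z * v :=
  (h.l.v_conj _ h.r.v_mem).resolve_left fun e => h.nc (mul_inv_eq_iff_eq_mul.1 e).symm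

theorem swap : v' * v = z * (v * v') := by rw [← mul_assoc, ← h.conj_v, inv_mul_cancel_right]

theorem mem_Q_cases {q : G} (hq : q ∈ B ⊓ centralizer {v}) :
    q ∈ B ⊓ centralizer {v'} ∨ q * v ∈ B ⊓ centralizer {v'} :=
  (h.r.v_conj q hq.1).imp (h.r.mem_Q hq.1) (h.r.mul_mem_Q hq.1 h.l.v_mem · h.symm.conj_v)

theorem sq_mem {q : G} (hq : q ∈ B ⊓ centralizer {v}) :
    ∃ e ∈ B ⊓ centralizer {v'}, e * e = q * q := by
  rcases h.mem_Q_cases hq with e | e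
  · exact ⟨q, e, rfl⟩
  · refine ⟨_, e, ?_⟩
    rw [mul_assoc, ← mul_assoc v, ← mem_centralizer_singleton_iff.1 hq.2, mul_assoc q, h.l.v_sq,
      mul_one]

theorem Q_sq {q : G} (hq : q ∈ B ⊓ centralizer {v}) : q * q = 1 := by
  have key : ∀ {Q P : Subgroup G}, P ≤ normalizer (Q : Set G) →
      P ≤ normalizer ((closure {x | ∃ q ∈ Q, q * q = x} : Subgroup G) : Set G) := by
    intro Q P hP
    refine le_normalizer_iff.2 fun g hg x hx => ?_
    have : closure {x | ∃ q ∈ Q, q * q = x} ≤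
        (closure {x | ∃ q ∈ Q, q * q = x}).comap (MulAut.conj g).toMonoidHom := by
      rw [closure_le]
      rintro _ ⟨q, hq, rfl⟩
      exact subset_closure ⟨_, conj_mem_of_le_normalizer hP hg hq, conj_mul⟩
    exact this hx
  have h1 : {x | ∃ q ∈ B ⊓ centralizer {v}, q * q = x} =
      {x | ∃ q ∈ B ⊓ centralizer {v'}, q * q = x} := by
    ext x
    constructor
    · rintro ⟨q, hq, rfl⟩; exact h.sq_mem hq
    · rintro ⟨q, hq, rfl⟩; exact h.symm.sq_mem hq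
  have := h.noN _ ((closure_le _).2 (by rintro _ ⟨q, hq, rfl⟩; exact B.mul_mem hq.1 hq.1))
    (key h.l.le_normalizer_Q) (h1 ▸ key h.r.le_normalizer_Q)
  exact mem_bot.1 (this ▸ subset_closure ⟨q, hq, rfl⟩)

theorem Q_comm {p q : G} (hp : p ∈ B ⊓ centralizer {v}) (hq : q ∈ B ⊓ centralizer {v}) :
    p * q = q * p := by
  rw [← inv_eq_of_mul_eq_one_right (h.Q_sq (mul_mem hp hq)), mul_inv_rev,
    inv_eq_of_mul_eq_one_right (h.Q_sq hp), inv_eq_of_mul_eq_one_right (h.Q_sq hq)]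

theorem v_mem_Q : v ∈ B ⊓ centralizer {v} := ⟨h.l.v_mem, mem_centralizer_singleton_iff.2 rfl⟩

theorem z_mem_Q : z ∈ B ⊓ centralizer {v} :=
  ⟨h.l.z_mem, mem_centralizer_singleton_iff.2 h.l.vz.symm⟩

theorem central {e : G} (h1 : e ∈ B ⊓ centralizer {v}) (h2 : e ∈ B ⊓ centralizer {v'}) {b : G}
    (hb : b ∈ B) : b * e = e * b := by
  rcases h.l.v_conj b hb with e1 | e1
  · exact h.Q_comm (h.l.mem_Q hb e1) h1
  · have h3 := h.Q_comm (h.l.mul_mem_Q hb h.r.v_mem e1 h.conj_v) h1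
    rwa [mul_assoc, ← mem_centralizer_singleton_iff.1 h2.2, ← mul_assoc, ← mul_assoc,
      mul_left_inj] at h3

theorem fix_or {e : G} (h1 : e ∈ B ⊓ centralizer {v}) (h2 : e ∈ B ⊓ centralizer {v'}) :
    d * e * d⁻¹ = e ∨ d * (z * e) * d⁻¹ = z * e := by
  have hd := mem_normalizer_iff.1 h.l.norm
  have hd' := mem_normalizer_iff''.1 h.l.norm
  have e1 := (hd e).1 h1
  have e2 := (hd' e).1 h1
  have hv' : v' * e * v'⁻¹ = e := mul_inv_eq_iff_eq_mul.2 (h.central h1 h2 h.r.v_mem)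
  have q0 := h.l.conj_d h.r.v_mem h.conj_v
  have s1 : v' * (d * e * d⁻¹) * v'⁻¹ = d⁻¹ * e * d := by
    have : v' * (d * e * d⁻¹) * v'⁻¹ = d⁻¹ * ((d * (v' * d * v'⁻¹)) * (v' * e * v'⁻¹) *
      (d * (v' * d * v'⁻¹))⁻¹) * d := by group
    rw [this, hv', h.Q_comm q0 h1, mul_inv_cancel_right]
  have s2 : ∀ q ∈ B ⊓ centralizer {v}, v' * q * v'⁻¹ = q ∨ v' * q * v'⁻¹ = z * q := fun q hq => by
    rcases h.r.v_conj q hq.1 with e | e
    · left
      rw [mul_inv_eq_iff_eq_mul] at e ⊢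
      exact e.symm
    · right
      rw [mul_inv_eq_iff_eq_mul] at e ⊢
      rw [mul_assoc, e, ← mul_assoc, ← mul_assoc, h.l.z_sq, one_mul]
  have s3 : d⁻¹ * e * d = d * e * d⁻¹ ∨ d⁻¹ * e * d = z * (d * e * d⁻¹) := s1 ▸ s2 _ e1
  have c3 : d * (d * e * d⁻¹) * d⁻¹ = d⁻¹ * e * d := by
    rw [show d * (d * e * d⁻¹) * d⁻¹ = d * d * e * (d * d)⁻¹ by group, ← h.l.d_inv, inv_inv]
  rcases s3 with s3 | s3
  · left
    rw [← c3] at s3
    exact mul_left_cancel (mul_right_cancel s3)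
  · right
    have s4 : e = v * (z * (d * e * d⁻¹)) :=
      calc e = d * (d⁻¹ * e * d) * d⁻¹ := by group
        _ = d * z * d⁻¹ * (d * (d * e * d⁻¹) * d⁻¹) := by rw [s3, conj_mul]
        _ = _ := by rw [h.l.dz, c3, s3]
    rw [← conj_mul, h.l.dz]
    conv_rhs => rw [s4, ← mul_assoc v, h.l.vz, ← mul_assoc z, ← mul_assoc z, h.l.z_sq, one_mul]

theorem eq_one {e : G} (h1 : e ∈ B ⊓ centralizer {v}) (h2 : e ∈ B ⊓ centralizer {v'})
    (h3 : d * e * d⁻¹ = e) (h4 : d' * e * d'⁻¹ = e) : e = 1 := by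
  have key : ∀ x, x * e * x⁻¹ = e → B ⊔ zpowers x ≤ normalizer (zpowers e : Set G) := fun x hx => by
    refine le_trans ?_ (centralizer_le_normalizer _)
    rw [centralizer_zpowers']
    exact sup_le (fun b hb => mem_centralizer_singleton_iff.2 (h.central h1 h2 hb))
      (zpowers_le_of_mem (mem_centralizer_singleton_iff.2 (mul_inv_eq_iff_eq_mul.1 hx)))
  exact zpowers_eq_bot.1 (h.noN _ (zpowers_le_of_mem h1.1) (key d h3) (key d' h4))

theorem exists_c : ∃ c, c ∈ B ⊓ centralizer {v} ∧ c ∈ B ⊓ centralizer {v'} ∧ d * c * d⁻¹ = c ∧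
    (c = 1 ∨ d' * (z * c) * d'⁻¹ = z * c) ∧ ∀ e ∈ B ⊓ centralizer {v}, e ∈ B ⊓ centralizer {v'} →
      e = 1 ∨ e = z ∨ e = c ∨ e = z * c := by
  have zz : ∀ x, z * (z * x) = x := fun x => by rw [← mul_assoc, h.l.z_sq, one_mul]
  have key : ∀ e ∈ B ⊓ centralizer {v}, e ∈ B ⊓ centralizer {v'} → e = 1 ∨ e = z ∨
      (d * e * d⁻¹ = e ∧ d' * (z * e) * d'⁻¹ = z * e) ∨
      (d * (z * e) * d⁻¹ = z * e ∧ d' * (z * (z * e)) * d'⁻¹ = z * (z * e)) := fun e h1 h2 => by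
    rcases h.fix_or h1 h2 with e1 | e1 <;> rcases h.symm.fix_or h2 h1 with e2 | e2
    · exact Or.inl (h.eq_one h1 h2 e1 e2)
    · exact Or.inr (Or.inr (Or.inl ⟨e1, e2⟩))
    · exact Or.inr (Or.inr (Or.inr ⟨e1, by rwa [zz]⟩))
    · have := h.eq_one (mul_mem h.z_mem_Q h1) (mul_mem h.symm.z_mem_Q h2) e1 e2
      exact Or.inr (Or.inl (by rw [← zz e, this, mul_one]))
  by_cases hc : ∃ c, c ∈ B ⊓ centralizer {v} ∧ c ∈ B ⊓ centralizer {v'} ∧ d * c * d⁻¹ = c ∧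
    d' * (z * c) * d'⁻¹ = z * c
  · obtain ⟨c, c1, c2, c3, c4⟩ := hc
    have key2 : ∀ e ∈ B ⊓ centralizer {v}, e ∈ B ⊓ centralizer {v'} → d * e * d⁻¹ = e →
        d' * (z * e) * d'⁻¹ = z * e → e = c := fun e h1 h2 h3 h4 => by
      have e1 : e * c = z * e * (z * c) := by
        rw [mul_assoc, ← mul_assoc e, h.l.z_comm h1.1, mul_assoc, zz]
      have := h.eq_one (mul_mem h1 c1) (mul_mem h2 c2) (by rw [← conj_mul, h3, c3])
        (by rw [e1, ← conj_mul, h4, c4])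
      rw [eq_inv_of_mul_eq_one_left this, inv_eq_of_mul_eq_one_right (h.Q_sq c1)]
    refine ⟨c, c1, c2, c3, Or.inr c4, fun e h1 h2 => ?_⟩
    rcases key e h1 h2 with e1 | e1 | e1 | e1
    · exact Or.inl e1
    · exact Or.inr (Or.inl e1)
    · exact Or.inr (Or.inr (Or.inl (key2 e h1 h2 e1.1 e1.2)))
    · have := key2 _ (mul_mem h.z_mem_Q h1) (mul_mem h.symm.z_mem_Q h2) e1.1 e1.2
      exact Or.inr (Or.inr (Or.inr (by rw [← this, zz])))
  · refine ⟨1, one_mem _, one_mem _, by simp, Or.inl rfl, fun e h1 h2 => ?_⟩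
    rcases key e h1 h2 with e1 | e1 | e1 | e1
    · exact Or.inl e1
    · exact Or.inr (Or.inl e1)
    · exact absurd ⟨e, h1, h2, e1⟩ hc
    · exact absurd ⟨_, mul_mem h.z_mem_Q h1, mul_mem h.symm.z_mem_Q h2, e1⟩ hc

theorem cases {b : G} (hb : b ∈ B) : ∃ e ∈ B ⊓ centralizer {v}, e ∈ B ⊓ centralizer {v'} ∧
    (b = e ∨ b = e * v ∨ b = e * v' ∨ b = e * (v * v')) := by
  have key : ∀ q ∈ B ⊓ centralizer {v}, ∃ e ∈ B ⊓ centralizer {v}, e ∈ B ⊓ centralizer {v'} ∧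
      (q = e ∨ q = e * v) := fun q hq => by
    rcases h.mem_Q_cases hq with e | e
    · exact ⟨q, hq, e, Or.inl rfl⟩
    · exact ⟨_, mul_mem hq h.v_mem_Q, e, Or.inr (by rw [mul_assoc, h.l.v_sq, mul_one])⟩
  rcases h.l.v_conj b hb with e | e
  · obtain ⟨x, h1, h2, h3⟩ := key b (h.l.mem_Q hb e)
    exact ⟨x, h1, h2, h3.imp_right Or.inl⟩
  · obtain ⟨x, h1, h2, h3⟩ := key _ (h.l.mul_mem_Q hb h.r.v_mem e h.conj_v)
    refine ⟨x, h1, h2, Or.inr (Or.inr (h3.imp (fun e => ?_) fun e => ?_))⟩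
    · rw [← e, mul_assoc, h.r.v_sq, mul_one]
    · rw [← mul_assoc, ← e, mul_assoc, h.r.v_sq, mul_one]

theorem vv_sq : v * v' * (v * v') = z := by
  rw [mul_assoc, ← mul_assoc v', h.swap, mul_assoc, mul_assoc, h.r.v_sq, mul_one, ← mul_assoc,
    h.l.vz, mul_assoc, h.l.v_sq, mul_one]

theorem sq_cases {b : G} (hb : b ∈ B) :
    (b * b = 1 ∧ (b ∈ B ⊓ centralizer {v} ∨ b ∈ B ⊓ centralizer {v'})) ∨ b * b = z := by
  obtain ⟨e, h1, h2, rfl | rfl | rfl | rfl⟩ := h.cases hb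
  · exact Or.inl ⟨h.Q_sq h1, Or.inl h1⟩
  · exact Or.inl ⟨h.Q_sq (mul_mem h1 h.v_mem_Q), Or.inl (mul_mem h1 h.v_mem_Q)⟩
  · exact Or.inl ⟨h.symm.Q_sq (mul_mem h2 h.symm.v_mem_Q), Or.inr (mul_mem h2 h.symm.v_mem_Q)⟩
  · right
    rw [mul_assoc, ← mul_assoc (v * v'), h.central h1 h2 (mul_mem h.l.v_mem h.r.v_mem), mul_assoc,
      h.vv_sq, ← mul_assoc, h.Q_sq h1, one_mul]

theorem conj_z {x : G} (hx : x ∈ normalizer (B : Set G)) : x * z * x⁻¹ = z := by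
  have h1 := conj_mem_of_le_normalizer le_rfl hx (mul_mem h.l.v_mem h.r.v_mem)
  have h2 : x * (v * v') * x⁻¹ * (x * (v * v') * x⁻¹) = x * z * x⁻¹ := by rw [conj_mul, h.vv_sq]
  rcases h.sq_cases h1 with e | e
  · exact absurd (by simpa using h2.symm.trans e.1) h.l.z_ne
  · exact h2.symm.trans e

end Am

end CfsgLib.E6
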