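import Cfsg.Agent.Lib.E6.Cen
import Cfsg.Agent.Lib.E6.S2
import Cfsg.Agent.Lib.E6.Par

/-!
# Amalgams of two minimal parabolics
-/

set_option autoImplicit false

namespace CfsgLib.E6

open Subgroup Cfsg CfsgLib.FT.BGN CfsgLib.Cit CfsgLib.H1
open scoped commutatorElement

variable {G : Type*} [Group G] [Finite G] {T Q R : Subgroup G} {x u y w : G} {r s : ℕ}

theorem Pb.eq_one5 (h : Pb T Q x u 5) (h6 : O6 G) {a c : G} (ha : a ∈ T) (ha' : a ∉ Q)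
    (hc : c ∈ Q) (h1 : c * a = a * c) (h2 : x⁻¹ * c * x * a = a * (x⁻¹ * c * x)) : c = 1 := by
  have h3 : Q ≤ 𝐂[c] := fun q hq =>
    mem_centralizer_singleton_iff.2 (comm_of_sq (h.sq5 h6) hq hc)
  have := h.mem_of h6 (M := 𝐂[c])
    (fun q hq g hg => Subgroup.mul_mem _ (Subgroup.mul_mem _ (h3 hq) hg) (inv_mem (h3 hq))) ha ha'
    (mem_centralizer_singleton_iff.2 h1.symm) (mem_centralizer_singleton_iff.2 (by
      calc _ = x * (a * (x⁻¹ * c * x)) * x⁻¹ := by group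
        _ = _ := by rw [← h2]; group))
  exact h6.eq_one_of_comm5 h.ox (two_of_mem h.twoQ hc) (mem_centralizer_singleton_iff.1 this)

omit [Finite G] in
theorem Pb.sq_x (h : Pb T Q x u 5) : Pb T Q (x * x) u 5 :=
  { h with
    ox := by rw [← pow_two, orderOf_pow' _ two_ne_zero, h.ox]; rfl
    xn := Subgroup.mul_mem _ h.xn h.xn
    inv := by rw [← conj_mul, h.inv, mul_inv_rev] }

/-- No element of `T - Q` centralizes a subgroup of index two in `Q`. -/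
theorem Pb.five_false (h : Pb T Q x u 5) (h6 : O6 G) {D : Subgroup G} {a : G} (ha : a ∈ T)
    (ha' : a ∉ Q) (hD : ∀ c ∈ Q, ∀ d ∈ Q, c ∉ D → d ∉ D → c * d ∈ D)
    (h1 : ∀ d ∈ Q, d ∈ D → d * a = a * d) : False := by
  have h2 : ∀ {x}, Pb T Q x u 5 → ∀ c ∈ Q, c ∈ D → x * c * x⁻¹ ∈ D → c = 1 :=
    fun {x} h c hc e1 e2 => h.symm.eq_one5 h6 ha ha' hc (h1 c hc e1) (by
      rw [inv_inv]; exact h1 _ (h.xmem hc) e2)
  have h5 : x * x * x = (x * x)⁻¹ := eq_inv_of_mul_eq_one_left (by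
    rw [← h.xpow]; simp only [pow_succ, pow_zero, one_mul, mul_assoc])
  obtain ⟨q, hq, h0, e1, e2, e3⟩ : ∃ q ∈ Q, q ≠ 1 ∧ x * q * x⁻¹ ∉ D ∧
      x * x * q * (x * x)⁻¹ ∉ D ∧ x * x * x * q * (x * x * x)⁻¹ ∉ D := by
    by_cases e : ∃ q ∈ Q, q ∈ D ∧ q ≠ 1
    · obtain ⟨q, hq, e1, e2⟩ := e
      exact ⟨q, hq, e2, fun e => e2 (h2 h q hq e1 e), fun e => e2 (h2 h.sq_x q hq e1 e),
        fun e => e2 (h2 h.sq_x.symm q hq e1 (h5 ▸ e))⟩
    · push Not at e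
      obtain ⟨q, hq, h0⟩ := (Q.bot_or_exists_ne_one).resolve_left h.ne_bot
      refine ⟨q, hq, h0, fun e1 => h0 ?_, fun e1 => h0 ?_, fun e1 => h0 ?_⟩
      · simpa using e _ (h.xmem hq) e1
      · exact conj_eq_one_iff.1 (e _ (h.sq_x.xmem hq) e1)
      · rw [h5] at e1
        exact conj_eq_one_iff.1 (e _ (h.sq_x.symm.xmem hq) e1)
  have h3 := h2 h _ (Q.mul_mem (h.xmem hq) (h.sq_x.xmem hq))
    (hD _ (h.xmem hq) _ (h.sq_x.xmem hq) e1 e2) (by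
      have := hD _ (h.sq_x.xmem hq) _ (h5 ▸ h.sq_x.symm.xmem hq) e2 e3
      rwa [show x * x * q * (x * x)⁻¹ * (x * x * x * q * (x * x * x)⁻¹) =
        x * (x * q * x⁻¹ * (x * x * q * (x * x)⁻¹)) * x⁻¹ by group] at this)
  refine h0 (h6.eq_one_of_comm5 h.ox (two_of_mem h.twoQ hq) ?_)
  have h4 : q * (x * q * x⁻¹) = 1 := by
    calc _ = x⁻¹ * (x * q * x⁻¹ * (x * x * q * (x * x)⁻¹)) * x := by group
      _ = _ := by rw [h3]; group
  rw [← mul_inv_eq_iff_eq_mul, eq_inv_of_mul_eq_one_right h4,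
    inv_eq_of_mul_eq_one_right (h.sq5 h6 q hq)]

omit [Finite G] in
theorem Pb.le_of_le (h1 : Pb T Q x u r) (h2 : Pb T R y w s) (h : Q ≤ R) : R ≤ Q := fun a ha => by
  by_contra e
  exact h2.un ((R.mul_mem_cancel_left ha).1 (h (h1.mul_mem (h2.le ha) e h2.um fun e => h2.un (h e))))

theorem Pb.not_le (h1 : Pb T Q x u r) (h2 : Pb T R y w s) (hN : NoN T x y) : ¬ Q ≤ R := fun e =>
  h1.ne_bot (hN Q h1.le h1.tn h1.xn (le_antisymm e (h1.le_of_le h2 e) ▸ h2.xn))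

theorem Pb.false_of_five (h1 : Pb T Q x u 5) (h2 : Pb T R y w s) (h6 : O6 G) (hN : NoN T x y) :
    False := by
  have hD : ∀ c ∈ Q, ∀ d ∈ Q, c ∉ R → d ∉ R → c * d ∈ R := fun c hc d hd e1 e2 =>
    h2.mul_mem (h1.le hc) e1 (h1.le hd) e2
  rcases h2.r35 with rfl | rfl
  · obtain ⟨k, hk, hk'⟩ := SetLike.not_le_iff_exists.1 (h1.not_le h2 hN)
    have A : AB T R Q y w k := { h2 with
      o6 := h6, bt := h1.le, nb := h1.tn, ab := le_cent_of_sq (h1.sq5 h6), km := hk, kn := hk' }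
    obtain ⟨a, ha, ha'⟩ := SetLike.not_le_iff_exists.1 A.not_le
    exact h1.five_false h6 (h2.le (A.le1 ha)) ha' hD fun d hd hd' =>
      (A.cent_of_two (h1.sq5 h6) (fun c hc c' hc' e1 e2 =>
        h1.mul_mem (h2.le (A.le1 hc)) e1 (h2.le (A.le1 hc')) e2) ⟨hd, hd'⟩ ha).symm
  · obtain ⟨a, ha, ha'⟩ := SetLike.not_le_iff_exists.1 (h2.not_le h1 hN.symm)
    exact h1.five_false h6 (h2.le ha) ha' hD fun d _ hd' => comm_of_sq (h2.sq5 h6) hd' ha

omit [Finite G] in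
theorem Pb.par (h : Pb T Q x u 3) {z : G} (hz : z ∈ OmZ T) (hx : x * z ≠ z * x) :
    ∃ z v, Par T x z v ∧ Q = T ⊓ 𝐂[v] := by
  have x3 : x * x * x = 1 := by
    rw [← h.xpow]; simp only [pow_succ, pow_zero, one_mul]
  have xi : x⁻¹ = x * x := inv_eq_of_mul_eq_one_left x3
  have h0 : z ∈ 𝐂(Q) := centralizer_le h.le hz.2.1
  have hc : ∀ q ∈ Q, q * z = z * q := mem_centralizer_iff.1 h0
  have hq0 := h.ch h0
  set z1 := x * z * x⁻¹ with hz1
  set z2 := x⁻¹ * z * x with hz2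
  have hq1 : z1 ∈ Q := h.xmem hq0
  have hq2 : z2 ∈ Q := h.xmem' hq0
  have c1 : ∀ q ∈ Q, q * z1 = z1 * q := fun q hq => by
    calc _ = x * (x⁻¹ * q * x * z) * x⁻¹ := by rw [hz1]; group
      _ = _ := by rw [hc _ (h.xmem' hq), hz1]; group
  have c2 : ∀ q ∈ Q, q * z2 = z2 * q := fun q hq => by
    calc _ = x⁻¹ * (x * q * x⁻¹ * z) * x := by rw [hz2]; group
      _ = _ := by rw [hc _ (h.xmem hq), hz2]; group
  have s0 : z * z = 1 := hz.2.2
  have s1 : z1 * z1 = 1 := by rw [hz1, conj_mul, s0]; group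
  have s2 : z2 * z2 = 1 := by
    calc _ = x⁻¹ * (z * z) * x := by rw [hz2]; group
      _ = _ := by rw [s0]; group
  have x1 : x * z1 * x⁻¹ = z2 := by
    calc _ = x * x * z * (x * x)⁻¹ := by rw [hz1]; group
      _ = _ := by rw [← xi, inv_inv]
  have x2 : x * z2 * x⁻¹ = z := by rw [hz2]; group
  have u0 : u * z * u⁻¹ = z := by
    rw [mem_centralizer_iff.1 hz.2.1 u h.um, mul_inv_cancel_right]
  have u1 : u * z1 * u⁻¹ = z2 := by
    calc _ = u * x * u⁻¹ * (u * z * u⁻¹) * (u * x * u⁻¹)⁻¹ := by rw [hz1]; group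
      _ = _ := by rw [u0, h.inv, inv_inv]
  have u2 : u * z2 * u⁻¹ = z1 := by
    calc _ = (u * x * u⁻¹)⁻¹ * (u * z * u⁻¹) * (u * x * u⁻¹) := by rw [hz2]; group
      _ = _ := by rw [u0, h.inv, inv_inv]
  have n1 : z1 * z2 ≠ 1 := fun e => hx (by
    have e1 : z1 = z2 := by
      rw [eq_inv_of_mul_eq_one_left e, inv_eq_of_mul_eq_one_right s2]
    rw [← mul_inv_eq_iff_eq_mul, ← hz1, ← x2, ← e1, x1, e1])
  have m : z1 * z2 * (z2 * z) = z * z1 := by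
    rw [mul_assoc, ← mul_assoc z2, s2, one_mul, hc _ hq1]
  have a1 : ∀ a ∈ T, a ∉ Q → ∀ c, (∀ q ∈ Q, q * (u * c * u⁻¹) = u * c * u⁻¹ * q) →
      a * c * a⁻¹ = u * c * u⁻¹ := fun a ha ha' c e => by
    calc _ = a * u⁻¹ * (u * c * u⁻¹) * (a * u⁻¹)⁻¹ := by group
      _ = _ := by rw [e _ (h.mul_inv_mem ha ha' h.um h.un), mul_inv_cancel_right]
  have a2 : ∀ a ∈ Q, a * (z2 * z) * a⁻¹ = z2 * z := fun a ha => by
    rw [(Commute.mul_right (c2 a ha) (hc a ha)).eq, mul_inv_cancel_right]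
  have a3 : ∀ a ∈ T, a ∉ Q → a * (z2 * z) * a⁻¹ = z1 * z2 * (z2 * z) := fun a ha ha' => by
    have e : u * (z2 * z) * u⁻¹ = z * z1 := by rw [← conj_mul, u2, u0, hc _ hq1]
    rw [a1 a ha ha' _ fun q hq => ?_, e, m]
    rw [e]; exact (Commute.mul_right (hc q hq) (c1 q hq)).eq
  have hQ : Q = T ⊓ 𝐂[z2 * z] := le_antisymm
    (fun a ha => ⟨h.le ha, mem_centralizer_singleton_iff.2 (mul_inv_eq_iff_eq_mul.1 (a2 a ha))⟩)
    fun a ha => by_contra fun e => n1 (by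
      have := a3 a ha.1 e
      rw [mem_centralizer_singleton_iff.1 ha.2, mul_inv_cancel_right] at this
      exact mul_eq_right.1 this.symm)
  refine ⟨z1 * z2, z2 * z, ⟨x3, n1, ?_, h.le (Q.mul_mem hq1 hq2), fun a ha => ?_, ?_, ?_,
    h.le (Q.mul_mem hq2 hq0), fun a ha => ?_, hQ ▸ h.xn, u, h.um, h.inv⟩, hQ⟩
  · rw [Commute.mul_mul_mul_comm (c1 _ hq2), s1, s2, mul_one]
  · by_cases e : a ∈ Q
    · rw [(Commute.mul_right (c1 a e) (c2 a e)).eq, mul_inv_cancel_right]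
    · have e1 : u * (z1 * z2) * u⁻¹ = z1 * z2 := by rw [← conj_mul, u1, u2, c1 _ hq2]
      rw [a1 a ha e _ fun q hq => ?_, e1]
      rw [e1]; exact (Commute.mul_right (c1 q hq) (c2 q hq)).eq
  · rw [← conj_mul, x1, x2]
  · rw [← conj_mul, x2, m]
  · by_cases e : a ∈ Q
    · exact Or.inl (a2 a e)
    · exact Or.inr (a3 a ha e)

theorem amalgam (h6 : O6 G) (h1 : Pb T Q x u r) (h2 : Pb T R y w s) (hN : NoN T x y) :
    ∃ z v v', Am T x y z v v' ∧ Q = T ⊓ 𝐂[v] ∧ R = T ⊓ 𝐂[v'] := by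
  rcases h1.r35 with rfl | rfl
  swap
  · exact (h1.false_of_five h2 h6 hN).elim
  rcases h2.r35 with rfl | rfl
  swap
  · exact (h2.false_of_five h1 h6 hN.symm).elim
  have e1 : ¬ ∀ z ∈ OmZ T, y * z = z * y := cen_false h6 h1 h2 hN
  have e2 : ¬ ∀ z ∈ OmZ T, x * z = z * x := cen_false h6 h2 h1 hN.symm
  push Not at e1 e2
  obtain ⟨z1, a1, b1⟩ := e2
  obtain ⟨z2, a2, b2⟩ := e1
  obtain ⟨z, v, p1, q1⟩ := h1.par a1 b1
  obtain ⟨z', v', p2, q2⟩ := h2.par a2 b2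
  have hN' : ∀ N ≤ T, T ⊔ zpowers x ≤ 𝐍(N) → T ⊔ zpowers y ≤ 𝐍(N) → N = ⊥ := fun N a b c =>
    hN N a (le_sup_left.trans b) (b (mem_sup_right (mem_zpowers x)))
      (c (mem_sup_right (mem_zpowers y)))
  obtain ⟨rfl, h3⟩ := p1.amalgam p2 hN'
  exact ⟨z, v, v', ⟨p1, p2, h3, hN'⟩, q1, q2⟩

/-- A parabolic and its conjugate under a `2`-element normalizing `T` do not form an amalgam. -/
theorem Pb.swap_false (h : Pb T Q x u r) (h6 : O6 G) {g : G} (hg : g ∈ 𝐍(T)) (hgg : g * g ∈ T)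
    (hN : NoN T x (g * x * g⁻¹)) : False := by
  have h2 := h.cj g
  rw [cj_eq hg] at h2
  obtain ⟨z, v, v', A, e1, e2⟩ := amalgam h6 h h2 hN
  have h3 : v' ∉ Q := fun e => A.nc (mem_centralizer_singleton_iff.1 (e1 ▸ e).2).symm
  refine swap h6 h.two hg hgg (fun a ha => A.Q_sq (e1 ▸ ha)) h.le h.tn (fun t ht => ?_)
    (fun e => h.not_le h2 hN (cj_eq e).ge) fun a ha b hb e => ?_
  · by_cases e : t ∈ Q
    · exact ⟨t, e, 1, one_mem _, (mul_one t).symm⟩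
    · exact ⟨_, h.mul_inv_mem ht e A.r.v_mem h3, v', e2 ▸ A.symm.v_mem_Q,
        (inv_mul_cancel_right t v').symm⟩
  · rw [e2] at hb ⊢
    rw [e1] at ha ⊢
    by_contra e3
    push Not at e3
    have a1 := (A.mem_Q_cases ha).resolve_left e3.1
    have a2 := (A.symm.mem_Q_cases hb).resolve_left e3.2
    have c1 := fun t (ht : t ∈ T) => A.central (Subgroup.mul_mem _ ha A.v_mem_Q) a1 ht
    have c2 := fun t (ht : t ∈ T) => A.central a2 (Subgroup.mul_mem _ hb A.symm.v_mem_Q) ht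
    have c3 : Commute a v' := by
      have : Commute a (b * v') := c2 a ha.1
      simpa using (Commute.inv_right e).mul_right this
    have : Commute v' (a * v) := c1 v' A.r.v_mem
    exact A.nc (by simpa using (c3.symm.inv_right.mul_right this).symm.eq)

/-- An amalgam over a Sylow subgroup. -/
theorem Am.end {S : Subgroup G} {z v v' : G} (h : Am S x y z v v') (hS : IsSylowIn 2 S ⊤)
    (hp : pResidual 2 G = ⊤) : End G := by
  have : Fact (Nat.Prime 2) := ⟨Nat.prime_two⟩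
  obtain ⟨c, c1, c2, -, -, c3⟩ := h.exists_c
  have hv : v ∈ zpowers v ⊔ zpowers v' := mem_sup_left (mem_zpowers v)
  have hv' : v' ∈ zpowers v ⊔ zpowers v' := mem_sup_right (mem_zpowers v')
  have hz : z ∈ zpowers v ⊔ zpowers v' := h.vv_sq ▸ mul_mem (mul_mem hv hv') (mul_mem hv hv')
  set D := zpowers v ⊔ zpowers v' with hD
  have hDS : D ≤ S := sup_le (zpowers_le.2 h.l.v_mem) (zpowers_le.2 h.r.v_mem)
  have cc := h.Q_sq c1
  have h1 : ∀ b ∈ S, ∃ e ∈ S ⊓ 𝐂[v], e ∈ S ⊓ 𝐂[v'] ∧ ∃ d ∈ D, b = e * d ∧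
      (d = 1 ∨ d = v ∨ d = v' ∨ d = v * v') := fun b hb => by
    obtain ⟨e, e1, e2, e3 | e3 | e3 | e3⟩ := h.cases hb
    · exact ⟨e, e1, e2, 1, one_mem _, by rw [mul_one, e3], Or.inl rfl⟩
    · exact ⟨e, e1, e2, v, hv, e3, Or.inr (Or.inl rfl)⟩
    · exact ⟨e, e1, e2, v', hv', e3, Or.inr (Or.inr (Or.inl rfl))⟩
    · exact ⟨e, e1, e2, _, mul_mem hv hv', e3, Or.inr (Or.inr (Or.inr rfl))⟩
  have h2 : ∀ b ∈ S, b * c ∈ D ∨ b ∈ D := fun b hb => by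
    obtain ⟨e, e1, e2, d, hd, rfl, -⟩ := h1 b hb
    rcases c3 e e1 e2 with rfl | rfl | rfl | rfl
    · exact Or.inr (by simpa using hd)
    · exact Or.inr (mul_mem hz hd)
    · left
      rwa [mul_assoc, h.central c1 c2 (hDS hd), ← mul_assoc, cc, one_mul]
    · left
      rw [mul_assoc, mul_assoc, h.central c1 c2 (hDS hd), ← mul_assoc c, cc, one_mul]
      exact mul_mem hz hd
  by_cases hc : c ∈ D
  · refine Or.inr (Or.inr (Or.inl ⟨v, v', h.l.v_sq, h.r.v_sq, ?_⟩))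
    rwa [← hD, le_antisymm hDS fun b hb => (h2 b hb).elim (D.mul_mem_cancel_right hc).1 id]
  exfalso
  have c0 : c ≠ 1 := fun e => hc (e ▸ one_mem D)
  obtain ⟨g, -, h3⟩ := Sig.exists_conj_mem_of_relIndex_dvd (hp ▸ hS)
    (relIndex_dvd_two_iff.2 ⟨c, c1.1, h2⟩) c1.1 (orderOf_eq_prime (by rw [pow_two, cc]) c0)
  have h4 : IsConj z (g⁻¹ * c * g) := by
    have k1 : IsConj z v := isConj_iff.2 ⟨x, h.l.dz⟩
    have k2 : IsConj z (z * v) := k1.trans (isConj_iff.2 ⟨x, h.l.dv⟩)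
    have k3 : IsConj z v' := isConj_iff.2 ⟨y, h.r.dz⟩
    have k4 : IsConj z (z * v') := k3.trans (isConj_iff.2 ⟨y, h.r.dv⟩)
    have k5 : g⁻¹ * c * g * (g⁻¹ * c * g) = 1 := by
      calc _ = g⁻¹ * (c * c) * g := by group
        _ = _ := by rw [cc]; group
    have k6 : g⁻¹ * c * g ≠ 1 := fun e => c0 (by
      calc c = g * (g⁻¹ * c * g) * g⁻¹ := by group
        _ = _ := by rw [e]; group)
    obtain ⟨e, e1, e2, d, hd, e3, e4⟩ := h1 _ h3.1
    have e5 : e ∈ D := (D.mul_mem_cancel_right hd).1 (e3 ▸ h3.2)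
    rw [e3] at k5 k6 ⊢
    have k7 : d ≠ v * v' := by
      rintro rfl
      rw [mul_assoc, ← mul_assoc (v * v'), h.central e1 e2 (hDS hd), mul_assoc, ← mul_assoc e,
        h.Q_sq e1, one_mul, h.vv_sq] at k5
      exact h.l.z_ne k5
    rcases c3 e e1 e2 with rfl | rfl | rfl | rfl
    · rcases e4 with rfl | rfl | rfl | rfl
      · exact absurd (mul_one 1) k6
      · rwa [one_mul]
      · rwa [one_mul]
      · exact absurd rfl k7
    · rcases e4 with rfl | rfl | rfl | rfl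
      · rw [mul_one]
      · exact k2
      · exact k4
      · exact absurd rfl k7
    · exact absurd e5 hc
    · exact absurd ((D.mul_mem_cancel_left hz).1 e5) hc
  obtain ⟨k, hk⟩ := isConj_iff.1 h4
  obtain ⟨P, rfl⟩ := IsSylowIn.top_iff.1 hS
  have h5 : (k⁻¹ * g⁻¹)⁻¹ * z * (k⁻¹ * g⁻¹) = c := by
    calc _ = g * (k * z * k⁻¹) * g⁻¹ := by group
      _ = _ := by rw [hk]; group
  obtain ⟨n, hn, h6⟩ := P.conj_eq_normalizer_conj_of_mem_centralizer z (k⁻¹ * g⁻¹)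
    (mem_centralizer_iff.2 fun b hb => h.l.z_comm hb)
    (h5 ▸ mem_centralizer_iff.2 fun b hb => h.central c1 c2 hb)
  have h7 := h.conj_z (inv_mem hn)
  rw [inv_inv, ← h6, h5] at h7
  exact hc (h7 ▸ hz)

end CfsgLib.E6
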