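import Mathlib

/-! Automorphisms of `A₅` and `A₆`: finite checks. -/

set_option autoImplicit false
set_option maxRecDepth 100000

namespace CfsgLib.E6.AutA

open Equiv

/-- A three-cycle (for `n ≤ 6`): an element of order three with a fixed point. -/
def T3 {n : ℕ} (x : Perm (Fin n)) : Prop := (∃ i, x i = i) ∧ x * x * x = 1 ∧ x ≠ 1

instance decT3 {n : ℕ} (x : Perm (Fin n)) : Decidable (T3 x) := by unfold T3; infer_instance

/-- The product is an involution. -/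
def Rl {G : Type*} [Group G] (a h : G) : Prop := a * h * (a * h) = 1 ∧ a * h ≠ 1

instance decRl {n : ℕ} (a h : Perm (Fin n)) : Decidable (Rl a h) := by unfold Rl; infer_instance

def g6 (i : Fin 6) : Perm (Fin 6) := swap 0 i * swap 0 1
def g5 (i : Fin 5) : Perm (Fin 5) := swap 0 i * swap 0 1

theorem s6_1 : ∀ h : Perm (Fin 6), T3 h → ∃ σ : Perm (Fin 6), σ * h = g6 2 * σ := by
  decide +kernel

theorem s6_2 : ∀ h : Perm (Fin 6), T3 h → Rl (g6 2) h →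
    ∃ σ : Perm (Fin 6), σ * g6 2 = g6 2 * σ ∧ σ * h = g6 3 * σ := by
  decide +kernel

theorem s6_3 : ∀ h : Perm (Fin 6), T3 h → Rl (g6 2) h → Rl (g6 3) h →
    ∃ σ : Perm (Fin 6), σ * g6 2 = g6 2 * σ ∧ σ * g6 3 = g6 3 * σ ∧ σ * h = g6 4 * σ := by
  decide +kernel

theorem s6_4 : ∀ h : Perm (Fin 6), T3 h → Rl (g6 2) h → Rl (g6 3) h → Rl (g6 4) h →
    h = g6 5 := by
  decide +kernel

theorem s5_0 : ∀ h : Perm (Fin 5), h * h * h = 1 → ∃ i, h i = i := by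
  decide +kernel

theorem s5_1 : ∀ h : Perm (Fin 5), T3 h → ∃ σ : Perm (Fin 5), σ * h = g5 2 * σ := by
  decide +kernel

theorem s5_2 : ∀ h : Perm (Fin 5), T3 h → Rl (g5 2) h →
    ∃ σ : Perm (Fin 5), σ * g5 2 = g5 2 * σ ∧ σ * h = g5 3 * σ := by
  decide +kernel

theorem s5_3 : ∀ h : Perm (Fin 5), T3 h → Rl (g5 2) h → Rl (g5 3) h → h = g5 4 := by
  decide +kernel

theorem c6_5 : ∀ j : Fin 6, j = 5 ∨ g6 5 j = 5 ∨ (g6 5 * g6 5) j = 5 ∨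
    (j ≠ 0 ∧ j ≠ 1 ∧ (g6 5 * g6 5 * g6 j) j = 5) := by decide +kernel
theorem c6_4 : ∀ j : Fin 6, j ≠ 5 → j = 4 ∨ g6 4 j = 4 ∨ (g6 4 * g6 4) j = 4 ∨
    (j ≠ 0 ∧ j ≠ 1 ∧ (g6 4 * g6 4 * g6 j) j = 4) := by decide +kernel
theorem c6_3 : ∀ j : Fin 6, j ≠ 5 → j ≠ 4 → j = 3 ∨ g6 3 j = 3 ∨ (g6 3 * g6 3) j = 3 ∨
    (j ≠ 0 ∧ j ≠ 1 ∧ (g6 3 * g6 3 * g6 j) j = 3) := by decide +kernel
theorem c6_2 : ∀ x : Perm (Fin 6), (x 5 = 5 ∧ x 4 = 4 ∧ x 3 = 3) → Perm.sign x = 1 →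
    x ∈ [1, g6 2, g6 2 * g6 2] := by decide +kernel
theorem g6_fix : ∀ j k : Fin 6, j ≠ k → k ≠ 0 → k ≠ 1 → g6 j k = k := by decide +kernel
theorem g6_sign : ∀ j : Fin 6, j ≠ 0 → Perm.sign (g6 j) = 1 := by decide +kernel

theorem mem6 {H : Subgroup (Perm (Fin 6))} (h : ∀ j, j ≠ 0 → j ≠ 1 → g6 j ∈ H) (x : Perm (Fin 6))
    (hx : Perm.sign x = 1) : x ∈ H := by
  have h3 : ∀ x : Perm (Fin 6), x 5 = 5 → x 4 = 4 → x 3 = 3 → Perm.sign x = 1 → x ∈ H := by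
    intro x a b c d
    have := c6_2 x ⟨a, b, c⟩ d
    simp only [List.mem_cons, List.not_mem_nil, or_false] at this
    have e := h 2 (by decide) (by decide)
    rcases this with rfl | rfl | rfl
    exacts [one_mem _, e, mul_mem e e]
  have step : ∀ (k : Fin 6) (P : Perm (Fin 6) → Prop), k ≠ 0 → k ≠ 1 →
      (∀ j x, j ≠ 0 → j ≠ 1 → j ≤ k → P x → P (g6 j * x)) →
      (∀ x, P x → x k = k → Perm.sign x = 1 → x ∈ H) → ∀ x, P x → x k ≤ k →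
      (x k = k ∨ g6 k (x k) = k ∨ (g6 k * g6 k) (x k) = k ∨
        (x k ≠ 0 ∧ x k ≠ 1 ∧ (g6 k * g6 k * g6 (x k)) (x k) = k)) → Perm.sign x = 1 → x ∈ H := by
    intro k P k0 k1 hP hH x px hk hc sx
    have e := h k k0 k1
    have s := g6_sign k k0
    rcases hc with c | c | c | ⟨c0, c1, c⟩
    · exact hH x px c sx
    · exact (mul_mem_cancel_left e).1 (hH _ (hP k x k0 k1 le_rfl px) c (by simp [s, sx]))
    · refine (mul_mem_cancel_left e).1 ((mul_mem_cancel_left e).1 (hH _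
        (hP k _ k0 k1 le_rfl (hP k x k0 k1 le_rfl px)) c (by simp [s, sx])))
    · refine (mul_mem_cancel_left (h _ c0 c1)).1 ((mul_mem_cancel_left e).1
        ((mul_mem_cancel_left e).1 (hH _ (hP k _ k0 k1 le_rfl (hP k _ k0 k1 le_rfl
          (hP _ x c0 c1 hk px))) c (by simp [s, sx, g6_sign _ c0]))))
  have h4 : ∀ x : Perm (Fin 6), x 5 = 5 → x 4 = 4 → Perm.sign x = 1 → x ∈ H := by
    intro x a b d
    have n5 : x 3 ≠ 5 := fun e => absurd (x.injective (e.trans a.symm)) (by decide)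
    have n4 : x 3 ≠ 4 := fun e => absurd (x.injective (e.trans b.symm)) (by decide)
    refine step 3 (fun x => x 5 = 5 ∧ x 4 = 4) (by decide) (by decide) (fun j x _ _ hj px => ?_)
      (fun x px c d => h3 x px.1 px.2 c d) x ⟨a, b⟩ (by omega) (c6_3 _ n5 n4) d
    rw [Perm.mul_apply, Perm.mul_apply, px.1, px.2]
    exact ⟨g6_fix _ _ (by omega) (by decide) (by decide), g6_fix _ _ (by omega) (by decide) (by decide)⟩
  have h5 : ∀ x : Perm (Fin 6), x 5 = 5 → Perm.sign x = 1 → x ∈ H := by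
    intro x a d
    have n5 : x 4 ≠ 5 := fun e => absurd (x.injective (e.trans a.symm)) (by decide)
    refine step 4 (fun x => x 5 = 5) (by decide) (by decide) (fun j x _ _ hj px => ?_)
      (fun x px c d => h4 x px c d) x a (by omega) (c6_4 _ n5) d
    rw [Perm.mul_apply, px]
    exact g6_fix _ _ (by omega) (by decide) (by decide)
  exact step 5 (fun _ => True) (by decide) (by decide) (fun _ _ _ _ _ _ => trivial)
    (fun x _ c d => h5 x c d) x trivial (by omega) (c6_5 _) hx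

def w5 : List (Perm (Fin 5)) := [1, g5 2, g5 3, g5 4, g5 2 * g5 2, g5 3 * g5 3, g5 4 * g5 4]

theorem c5 : ∀ x : Perm (Fin 5), Perm.sign x = 1 →
    ∃ a ∈ w5, ∃ b ∈ w5, ∃ c ∈ w5, ∃ d ∈ w5, x = a * b * c * d := by decide +kernel

theorem mem5 {H : Subgroup (Perm (Fin 5))} (h2 : g5 2 ∈ H) (h3 : g5 3 ∈ H) (h4 : g5 4 ∈ H)
    (x : Perm (Fin 5)) (hx : Perm.sign x = 1) : x ∈ H := by
  have hw : ∀ a ∈ w5, a ∈ H := by
    intro a ha
    simp only [w5, List.mem_cons, List.not_mem_nil, or_false] at ha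
    rcases ha with rfl | rfl | rfl | rfl | rfl | rfl | rfl
    exacts [one_mem _, h2, h3, h4, mul_mem h2 h2, mul_mem h3 h3, mul_mem h4 h4]
  obtain ⟨a, ha, b, hb, c, hc, d, hd, rfl⟩ := c5 x hx
  exact mul_mem (mul_mem (mul_mem (hw a ha) (hw b hb)) (hw c hc)) (hw d hd)

def z6 : Perm (Fin 6) := swap 0 1 * swap 2 3
def q6 : Perm (Fin 6) := swap 0 2 * swap 1 3
def p6 : Perm (Fin 6) := swap 0 1 * swap 4 5

theorem i6_1 : ∀ h : Perm (Fin 6), h * h = 1 → h ≠ 1 → Perm.sign h = 1 →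
    ∃ σ : Perm (Fin 6), σ * h = z6 * σ ∧ Perm.sign σ = 1 := by decide +kernel

theorem i6_2 : ∀ h : Perm (Fin 6), (h * h = 1 ∧ h * z6 = z6 * h ∧ h ≠ 1 ∧ h ≠ z6) →
    Perm.sign h = 1 → h ∈ [q6, q6 * z6, p6, p6 * z6] := by decide +kernel

theorem i6_3 : ∀ h : Perm (Fin 6), h * h * h = 1 →
    (h * z6 = q6 * h ∨ h * z6 = q6 * z6 * h) → (h * q6 = z6 * h ∨ h * q6 = q6 * z6 * h) →
      ∃ i, h i = i := by decide +kernel

theorem i6_4 : ∀ h : Perm (Fin 6), T3 h →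
    ∃ σ : Perm (Fin 6), σ * h = g6 2 * σ ∧ Perm.sign σ = 1 := by decide +kernel

theorem i6_5 : g6 2 * z6 = q6 * z6 * g6 2 ∧ g6 2 * q6 = z6 * g6 2 ∧ z6 * z6 = 1 ∧ q6 * q6 = 1 ∧
    p6 * p6 = 1 ∧ z6 * q6 = q6 * z6 ∧ z6 * p6 = p6 * z6 ∧ q6 * p6 * (q6 * p6) = z6 ∧ z6 ≠ 1 ∧
    q6 ≠ 1 ∧ q6 ≠ z6 ∧ p6 ≠ 1 ∧ p6 ≠ z6 := by decide +kernel

theorem no6 : ∀ x : Perm (Fin 6), Perm.sign x = 1 → x ^ 6 = 1 → x ^ 2 = 1 ∨ x ^ 3 = 1 := by
  decide +kernel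

theorem cent6 : ∀ x : Perm (Fin 6), x * g6 2 = g6 2 * x → x * g6 3 = g6 3 * x →
    x * g6 4 = g6 4 * x → x = 1 := by decide +kernel

theorem cent5 : ∀ x : Perm (Fin 5), x * g5 2 = g5 2 * x → x * g5 3 = g5 3 * x → x = 1 := by
  decide +kernel

theorem rl6 : ∀ i j : Fin 6, 2 ≤ i → i < j → Rl (g6 i) (g6 j) := by decide +kernel
theorem rl5 : ∀ i j : Fin 5, 2 ≤ i → i < j → Rl (g5 i) (g5 j) := by decide +kernel
theorem t6 : ∀ i : Fin 6, 2 ≤ i → T3 (g6 i) := by decide +kernel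
theorem t5 : ∀ i : Fin 5, 2 ≤ i → T3 (g5 i) ∧ Perm.sign (g5 i) = 1 := by decide +kernel

end CfsgLib.E6.AutA
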