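import Cfsg.Agent.Lib.E6.S3L
import Cfsg.Agent.Lib.AssocLie

/-!
# The associated Lie ring of a `2`-group of exponent four acted on by a group of type `S₃`
-/

set_option autoImplicit false

namespace CfsgLib.E6

open Subgroup CfsgLib.AssocLie
open scoped commutatorElement

variable {G : Type*} [Group G]

/-- The homogeneous component of degree `n`. -/
def Dg (K : Subgroup G) (n : ℕ) : AddSubgroup (AL K.lowerCentralSeries) where
  carrier := {a | ∃ k ∈ K.lowerCentralSeries n, ι K.lowerCentralSeries n k = a}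
  add_mem' := by
    rintro _ _ ⟨a, ha, rfl⟩ ⟨b, hb, rfl⟩
    exact ⟨a * b, mul_mem ha hb, ι_mul ha hb⟩
  zero_mem' := ⟨1, one_mem _, ι_one n⟩
  neg_mem' := by
    rintro _ ⟨a, ha, rfl⟩
    exact ⟨a⁻¹, inv_mem ha, ι_inv ha⟩

theorem Dg_gen {K : Subgroup G} {n : ℕ} {M : Type*} [AddCommGroup M]
    (φ : AL K.lowerCentralSeries →+ M) (h : ∀ c ∈ Dg K n, ∀ k ∈ Dg K 0, φ ⁅c, k⁆ = 0) :
    ∀ a ∈ Dg K (n + 1), φ a = 0 := by
  rintro _ ⟨g, hg, rfl⟩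
  induction hg using closure_induction with
  | mem g hg =>
    obtain ⟨c, hc, k, hk, rfl⟩ := hg
    have := h _ ⟨c, hc, rfl⟩ _ ⟨k, hk, rfl⟩
    rwa [lie_ι (j := 0) hc hk] at this
  | one => rw [ι_one, map_zero]
  | mul a b ha hb h1 h2 => rw [ι_mul (n := n + 1) ha hb, map_add, h1, h2, add_zero]
  | inv a ha h1 => rw [ι_inv (n := n + 1) ha, map_neg, h1, neg_zero]

/-- The group theoretic data. -/
structure GS (K : Subgroup G) (ξ σ : G →* G) : Prop where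
  xm : ∀ n, ∀ g ∈ K.lowerCentralSeries n, ξ g ∈ K.lowerCentralSeries n
  sm : ∀ n, ∀ g ∈ K.lowerCentralSeries n, σ g ∈ K.lowerCentralSeries n
  x3 : ∀ g, ξ (ξ (ξ g)) = g
  sx : ∀ g, σ (ξ g) = ξ (ξ (σ g))
  four : ∀ k ∈ K, k ^ 4 = 1
  inv : ∀ k ∈ K, σ (σ (k * σ k)) = (k * σ k)⁻¹
  lift : ∀ n, ∀ k ∈ K.lowerCentralSeries n, ξ k * k⁻¹ ∈ K.lowerCentralSeries (n + 1) →
    ∃ m ∈ K.lowerCentralSeries (n + 1), ∃ f, k = m * f ∧ f * f = 1 ∧ σ (σ f) = f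
  norm0 : ∀ k ∈ K, k * ξ k * ξ (ξ k) ∈ K.lowerCentralSeries 1

theorem lcs_le (K : Subgroup G) (n : ℕ) : K.lowerCentralSeries n ≤ K :=
  K.lowerCentralSeries_antitone (Nat.zero_le n)

namespace GS

variable {K : Subgroup G} {ξ σ : G →* G} (h : GS K ξ σ)

/-- The action of the element of order three. -/
noncomputable def X : AL K.lowerCentralSeries →+ AL K.lowerCentralSeries := map ξ h.xm

/-- The action of the inverting element. -/
noncomputable def S : AL K.lowerCentralSeries →+ AL K.lowerCentralSeries := map σ h.sm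

variable {n : ℕ} {a : AL K.lowerCentralSeries}

theorem X_ι {g : G} (hg : g ∈ K.lowerCentralSeries n) :
    h.X (ι K.lowerCentralSeries n g) = ι K.lowerCentralSeries n (ξ g) := map_ι _ _ hg

theorem S_ι {g : G} (hg : g ∈ K.lowerCentralSeries n) :
    h.S (ι K.lowerCentralSeries n g) = ι K.lowerCentralSeries n (σ g) := map_ι _ _ hg

theorem X_lie (a b : AL K.lowerCentralSeries) : h.X ⁅a, b⁆ = ⁅h.X a, h.X b⁆ := map_lie _ _ a b

theorem S_lie (a b : AL K.lowerCentralSeries) : h.S ⁅a, b⁆ = ⁅h.S a, h.S b⁆ := map_lie _ _ a b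

theorem Xm (ha : a ∈ Dg K n) : h.X a ∈ Dg K n := by
  obtain ⟨g, hg, rfl⟩ := ha
  exact ⟨_, h.xm n g hg, (h.X_ι hg).symm⟩

theorem Sm (ha : a ∈ Dg K n) : h.S a ∈ Dg K n := by
  obtain ⟨g, hg, rfl⟩ := ha
  exact ⟨_, h.sm n g hg, (h.S_ι hg).symm⟩

theorem X3 (ha : a ∈ Dg K n) : h.X (h.X (h.X a)) = a := by
  obtain ⟨g, hg, rfl⟩ := ha
  rw [h.X_ι hg, h.X_ι (h.xm n g hg), h.X_ι (h.xm n _ (h.xm n g hg)), h.x3]

theorem SX (ha : a ∈ Dg K n) : h.S (h.X a) = h.X (h.X (h.S a)) := by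
  obtain ⟨g, hg, rfl⟩ := ha
  rw [h.X_ι hg, h.S_ι (h.xm n g hg), h.S_ι hg, h.X_ι (h.sm n g hg),
    h.X_ι (h.xm n _ (h.sm n g hg)), h.sx]

theorem SSX (ha : a ∈ Dg K n) : h.S (h.S (h.X a)) = h.X (h.S (h.S a)) := by
  rw [h.SX ha, h.SX (h.Xm (h.Sm ha)), h.SX (h.Sm ha), h.X3 (h.Xm (h.Sm (h.Sm ha)))]

include h in
theorem four' (ha : a ∈ Dg K n) : a + a + (a + a) = 0 := by
  obtain ⟨g, hg, rfl⟩ := ha
  have := ι_pow hg 4
  rw [h.four g (lcs_le K n hg), ι_one] at this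
  rw [this]
  abel

theorem inv' (ha : a ∈ Dg K n) : h.S (h.S (a + h.S a)) = -(a + h.S a) := by
  obtain ⟨g, hg, rfl⟩ := ha
  have h1 := mul_mem hg (h.sm n g hg)
  rw [h.S_ι hg, ← ι_mul hg (h.sm n g hg), h.S_ι h1, h.S_ι (h.sm n _ h1), h.inv g (lcs_le K n hg),
    ι_inv h1]

theorem exists_lift {g : G} (hg : g ∈ K.lowerCentralSeries n)
    (e : h.X (ι K.lowerCentralSeries n g) = ι K.lowerCentralSeries n g) :
    ∃ m ∈ K.lowerCentralSeries (n + 1), ∃ f, g = m * f ∧ f * f = 1 ∧ σ (σ f) = f := by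
  refine h.lift n g hg ((ι_eq_zero_iff (mul_mem (h.xm n g hg) (inv_mem hg))).1 ?_)
  rw [ι_mul (h.xm n g hg) (inv_mem hg), ι_inv hg, ← h.X_ι hg, e, add_neg_cancel]

theorem two_of_fix (ha : a ∈ Dg K n) (e : h.X a = a) : a + a = 0 := by
  obtain ⟨g, hg, rfl⟩ := ha
  obtain ⟨m, hm, f, rfl, f2, -⟩ := h.exists_lift hg e
  have hm' := K.lowerCentralSeries_antitone n.le_succ hm
  have hf := (mul_mem_cancel_left hm').1 hg
  rw [ι_mul hm' hf, ι_eq_zero hm, zero_add, ← ι_mul hf hf, f2, ι_one]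

theorem neg_of_norm (ha : a ∈ Dg K n) (e : a + h.X a + h.X (h.X a) = 0) : h.S (h.S a) = -a := by
  have key : ∀ b ∈ Dg K n, h.S (b + h.S (h.S b)) = -(b + h.S (h.S b)) := fun b hb => by
    have := h.inv' hb
    simp only [map_add] at this ⊢
    linear_combination (norm := abel1) this
  have hs : a + h.S (h.S a) ∈ Dg K n := add_mem ha (h.Sm (h.Sm ha))
  have e1 := key a ha
  have e2 := key _ (h.Xm ha)
  rw [h.SSX ha, ← map_add h.X, h.SX hs, e1, map_neg, map_neg, neg_inj] at e2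
  have e3 := congrArg (fun b => h.X (h.X b)) e2
  simp only [h.X3 hs, h.X3 (h.Xm hs)] at e3
  have e4 := congrArg (fun b => h.S (h.S b)) e
  simp only [map_add, map_zero, h.SSX ha, h.SSX (h.Xm ha)] at e4
  have e5 := h.four' hs
  simp only [map_add] at e2 e3
  linear_combination (norm := abel1) e5 - e - e4 + e2 + e3 + e3

theorem norm0' (ha : a ∈ Dg K 0) : a + h.X a + h.X (h.X a) = 0 := by
  obtain ⟨g, hg, rfl⟩ := ha
  have h1 := h.xm 0 g hg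
  have h2 := h.xm 0 _ h1
  rw [h.X_ι hg, h.X_ι h1, ← ι_mul hg h1, ← ι_mul (mul_mem hg h1) h2]
  exact ι_eq_zero (h.norm0 g hg)

theorem ss0 (ha : a ∈ Dg K 0) : h.S (h.S a) = -a := h.neg_of_norm ha (h.norm0' ha)

theorem ss1 (ha : a ∈ Dg K 1) : h.S (h.S a) = a := by
  have := Dg_gen (n := 0) (h.S.comp h.S - AddMonoidHom.id _) (fun c hc k hk => by
    simp only [AddMonoidHom.sub_apply, AddMonoidHom.comp_apply, AddMonoidHom.id_apply]
    rw [h.S_lie, h.S_lie, h.ss0 hc, h.ss0 hk, neg_lie, lie_neg, neg_neg, sub_self]) a ha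
  exact sub_eq_zero.1 this

theorem ss2 (ha : a ∈ Dg K 2) : h.S (h.S a) = -a := by
  have := Dg_gen (n := 1) (h.S.comp h.S + AddMonoidHom.id _) (fun c hc k hk => by
    simp only [AddMonoidHom.add_apply, AddMonoidHom.comp_apply, AddMonoidHom.id_apply]
    rw [h.S_lie, h.S_lie, h.ss1 hc, h.ss0 hk, lie_neg, neg_add_cancel]) a ha
  exact eq_neg_of_add_eq_zero_left this

include h in
theorem two1 (ha : a ∈ Dg K 1) : a + a = 0 := by
  have h1 := h.Xm ha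
  have h2 := h.Xm h1
  have e1 := h.two_of_fix (add_mem (add_mem ha h1) h2) (by
    simp only [map_add, h.X3 ha]; abel)
  have h3 : a + a - h.X a - h.X (h.X a) ∈ Dg K 1 := sub_mem (sub_mem (add_mem ha ha) h1) h2
  have e2 := h.neg_of_norm h3 (by
    simp only [map_add, map_sub, h.X3 ha, h.X3 h1]; abel)
  rw [h.ss1 h3] at e2
  have e3 := h.four' ha
  linear_combination (norm := abel1) e1 + e2 - e3

theorem lie_mem {i j : ℕ} {b : AL K.lowerCentralSeries} (ha : a ∈ Dg K i) (hb : b ∈ Dg K j) :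
    ⁅a, b⁆ ∈ Dg K (i + j + 1) := by
  obtain ⟨g, hg, rfl⟩ := ha
  obtain ⟨k, hk, rfl⟩ := hb
  exact ⟨_, comm_mem hg hk le_rfl, (lie_ι hg hk).symm⟩

theorem phi_eq {ρ c : G} (e : σ (σ (c * ρ)) = (c * ρ)⁻¹) :
    ρ * σ (σ ρ) = ⁅ρ, (σ (σ c))⁻¹⁆ * (c * σ (σ c))⁻¹ := by
  rw [map_mul, map_mul] at e
  rw [eq_inv_mul_of_mul_eq e, commutatorElement_def]
  group

theorem r_mul (p q : G) : p * q * σ (p * q) = p * ⁅q, σ p⁆ * p⁻¹ * (p * σ p * (q * σ q)) := by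
  rw [map_mul, commutatorElement_def]
  group

include h in
theorem comm_r {p q : G} (hp : p ∈ K) (hq : q ∈ K) :
    ⁅p * σ p, q * σ q⁆ = ⁅p * σ p * (q * σ q), (σ (σ (p * ⁅q, σ p⁆ * p⁻¹)))⁻¹⁆ *
      (p * ⁅q, σ p⁆ * p⁻¹ * σ (σ (p * ⁅q, σ p⁆ * p⁻¹)))⁻¹ := by
  have e := h.inv _ (mul_mem hp hq)
  rw [r_mul] at e
  rw [← phi_eq e, map_mul σ (p * σ p), map_mul σ (σ (p * σ p)), h.inv p hp, h.inv q hq,
    commutatorElement_def, mul_assoc (p * σ p * (q * σ q))]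

include h in
theorem c_mem {p q : G} (hp : p ∈ K) (hq : q ∈ K) :
    p * ⁅q, σ p⁆ * p⁻¹ ∈ K.lowerCentralSeries 1 :=
  conj_mem (i := 0) hp (comm_mem (i := 0) (j := 0) hq (h.sm 0 p hp) le_rfl)

theorem ι_c {p q : G} (hp : p ∈ K) (hq : q ∈ K) :
    ι K.lowerCentralSeries 1 (p * ⁅q, σ p⁆ * p⁻¹) =
      ⁅ι K.lowerCentralSeries 0 q, h.S (ι K.lowerCentralSeries 0 p)⁆ := by
  rw [ι_conj (i := 0) hp (comm_mem (i := 0) (j := 0) hq (h.sm 0 p hp) le_rfl), h.S_ι (n := 0) hp,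
    lie_ι (i := 0) (j := 0) hq (h.sm 0 p hp)]

theorem ι_r {p : G} (hp : p ∈ K) : ι K.lowerCentralSeries 0 (p * σ p) =
    ι K.lowerCentralSeries 0 p + h.S (ι K.lowerCentralSeries 0 p) := by
  rw [h.S_ι (n := 0) hp, ι_mul (n := 0) hp (h.sm 0 p hp)]

include h in
theorem r_mem {p : G} (hp : p ∈ K) : p * σ p ∈ K.lowerCentralSeries 0 := mul_mem hp (h.sm 0 p hp)

include h in
theorem cc_mem {c : G} (hc : c ∈ K.lowerCentralSeries 1) :
    c * σ (σ c) ∈ K.lowerCentralSeries 2 := by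
  have h1 := h.sm 1 _ (h.sm 1 c hc)
  rw [← ι_eq_zero_iff (mul_mem hc h1), ι_mul hc h1, ← h.S_ι (h.sm 1 c hc), ← h.S_ι hc,
    h.ss1 ⟨c, hc, rfl⟩, h.two1 ⟨c, hc, rfl⟩]

include h in
theorem rr_mem {p q : G} (hp : p ∈ K) (hq : q ∈ K) :
    ⁅p * σ p, q * σ q⁆ ∈ K.lowerCentralSeries 2 := by
  have hc := h.c_mem hp hq
  rw [h.comm_r hp hq]
  exact mul_mem (comm_mem (mul_mem (h.r_mem hp) (h.r_mem hq))
    (inv_mem (h.sm 1 _ (h.sm 1 _ hc))) le_rfl) (inv_mem (h.cc_mem hc))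

theorem uu' : ∀ a ∈ Dg K 0, ∀ b ∈ Dg K 0, ⁅a + h.S a, b + h.S b⁆ = 0 := by
  rintro _ ⟨p, hp, rfl⟩ _ ⟨q, hq, rfl⟩
  rw [← h.ι_r hp, ← h.ι_r hq, lie_ι (h.r_mem hp) (h.r_mem hq)]
  exact ι_eq_zero (n := 1) (h.rr_mem hp hq)

theorem x3' (ha : a ∈ Dg K 0) : h.X (h.X a) = -a - h.X a := by
  linear_combination (norm := abel1) h.norm0' ha

include h in
theorem two' : ∀ a ∈ Dg K 0, ∀ b ∈ Dg K 0, ⁅a, b⁆ + ⁅a, b⁆ = 0 := fun a ha b hb => by
  have := lie_mem ha hb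
  exact h.two1 this

theorem ls : LS (Dg K 0) h.X h.S := by
  refine ⟨?_, ?_, ?_, ?_, ?_, ?_, ?_, ?_⟩
  · exact h.X_lie
  · exact fun _ ha => h.Xm ha
  · exact fun _ ha => h.Sm ha
  · exact fun _ ha => h.x3' ha
  · exact fun _ ha => h.SX ha
  · exact fun _ ha => h.ss0 ha
  · exact h.two'
  · exact h.uu'

theorem fix1 (ha : a ∈ Dg K 1) : h.X a = a := by
  have := Dg_gen (n := 0) (h.X - AddMonoidHom.id _) (fun c hc k hk => by
    simp only [AddMonoidHom.sub_apply, AddMonoidHom.id_apply]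
    rw [h.ls.fix hc hk, sub_self]) a ha
  exact sub_eq_zero.1 this

include h in
theorem cc_mem3 {c : G} (hc : c ∈ K.lowerCentralSeries 1) :
    c * σ (σ c) ∈ K.lowerCentralSeries 3 := by
  obtain ⟨m, hm, f, rfl, f2, e⟩ := h.exists_lift hc (h.fix1 ⟨c, hc, rfl⟩)
  have hf := (mul_mem_cancel_left (K.lowerCentralSeries_antitone one_le_two hm)).1 hc
  have h1 := h.sm 2 _ (h.sm 2 m hm)
  have e1 : m * f * σ (σ (m * f)) = m * (f * σ (σ m) * f⁻¹) := by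
    rw [map_mul, map_mul, e, inv_eq_of_mul_eq_one_right f2]
    group
  rw [← ι_eq_zero_iff (h.cc_mem hc), e1, ι_mul hm (conj_mem hf h1), ι_conj hf h1,
    ← h.S_ι (h.sm 2 m hm), ← h.S_ι hm, h.ss2 ⟨m, hm, rfl⟩, add_neg_cancel]

include h in
theorem ι_phi {ρ c : G} (hρ : ρ ∈ K.lowerCentralSeries 0) (hc : c ∈ K.lowerCentralSeries 1) :
    ι K.lowerCentralSeries 2 (⁅ρ, (σ (σ c))⁻¹⁆ * (c * σ (σ c))⁻¹) =
      -⁅ι K.lowerCentralSeries 0 ρ, ι K.lowerCentralSeries 1 c⁆ := by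
  have h1 := h.sm 1 _ (h.sm 1 c hc)
  rw [ι_mul (comm_mem hρ (inv_mem h1) le_rfl) (inv_mem (h.cc_mem hc)),
    ι_eq_zero (inv_mem (h.cc_mem3 hc)), add_zero, ← lie_ι hρ (inv_mem h1), ι_inv h1,
    ← h.S_ι (h.sm 1 c hc), ← h.S_ι hc, h.ss1 ⟨c, hc, rfl⟩, lie_neg]

theorem ι_rr {p q : G} (hp : p ∈ K) (hq : q ∈ K) :
    ι K.lowerCentralSeries 2 ⁅p * σ p, q * σ q⁆ =
      -⁅ι K.lowerCentralSeries 0 (p * σ p) + ι K.lowerCentralSeries 0 (q * σ q),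
        ⁅ι K.lowerCentralSeries 0 q, h.S (ι K.lowerCentralSeries 0 p)⁆⁆ := by
  rw [h.comm_r hp hq, h.ι_phi (mul_mem (h.r_mem hp) (h.r_mem hq)) (h.c_mem hp hq), h.ι_c hp hq,
    ι_mul (h.r_mem hp) (h.r_mem hq)]

theorem triple : ∀ a ∈ Dg K 0, ∀ b ∈ Dg K 0, ∀ c ∈ Dg K 0,
    ⁅c + h.S c, ⁅b, h.S a⁆⁆ + ⁅b + h.S b, ⁅c, h.S a⁆⁆ + ⁅a + h.S a, ⁅c, h.S b⁆⁆ = 0 := by
  rintro _ ⟨p, hp, rfl⟩ _ ⟨q, hq, rfl⟩ _ ⟨s, hs, rfl⟩
  have e := h.inv _ (mul_mem hp (mul_mem hq hs))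
  have h1 := h.r_mem hp
  have h2 := h.r_mem hq
  have h3 := h.r_mem hs
  have c1 := h.c_mem hp (mul_mem hq hs)
  have c2 := h.c_mem hq hs
  have e0 : p * (q * s) * σ (p * (q * s)) = p * ⁅q * s, σ p⁆ * p⁻¹ *
      (p * σ p * (q * ⁅s, σ q⁆ * q⁻¹) * (p * σ p)⁻¹) * (p * σ p * (q * σ q * (s * σ s))) := by
    rw [r_mul, r_mul q s]
    group
  rw [e0] at e
  have e1 := congrArg (ι K.lowerCentralSeries 2) (phi_eq e)
  have e2 : p * σ p * (q * σ q * (s * σ s)) * σ (σ (p * σ p * (q * σ q * (s * σ s)))) =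
      ⁅p * σ p, q * σ q⁆ * (q * σ q * ⁅p * σ p, s * σ s⁆ * (q * σ q)⁻¹) * ⁅q * σ q, s * σ s⁆ := by
    rw [map_mul σ (p * σ p), map_mul σ (σ (p * σ p)), map_mul σ (q * σ q),
      map_mul σ (σ (q * σ q)), h.inv p hp, h.inv q hq, h.inv s hs]
    generalize p * σ p = r1
    generalize q * σ q = r2
    generalize s * σ s = r3
    simp only [commutatorElement_def]
    group
  rw [e2, h.ι_phi (mul_mem h1 (mul_mem h2 h3)) (mul_mem c1 (conj_mem h1 c2)),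
    ι_mul (mul_mem (h.rr_mem hp hq) (conj_mem h2 (h.rr_mem hp hs))) (h.rr_mem hq hs),
    ι_mul (h.rr_mem hp hq) (conj_mem h2 (h.rr_mem hp hs)), ι_conj h2 (h.rr_mem hp hs),
    h.ι_rr hp hq, h.ι_rr hp hs, h.ι_rr hq hs, ι_mul c1 (conj_mem h1 c2), ι_conj h1 c2,
    h.ι_c hp (mul_mem hq hs), h.ι_c hq hs, ι_mul h1 (mul_mem h2 h3), ι_mul h2 h3,
    ι_mul (n := 0) hq hs] at e1
  rw [← h.ι_r hp, ← h.ι_r hq, ← h.ι_r hs]
  simp only [add_lie, lie_add] at e1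
  linear_combination (norm := abel1) e1

include h in
theorem le_three : K.lowerCentralSeries 2 ≤ K.lowerCentralSeries 3 := fun g hg => by
  rw [← ι_eq_zero_iff hg]
  refine Dg_gen (n := 1) (AddMonoidHom.id _) (fun c hc k hk => ?_) _ ⟨g, hg, rfl⟩
  refine Dg_gen (n := 0) (AddMonoidHom.mk' (fun c => ⁅c, k⁆) fun a b => add_lie a b k)
    (fun a ha b hb => ?_) c hc
  rw [AddMonoidHom.mk'_apply, ← lie_skew, h.ls.three h.triple hk ha hb, neg_zero]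

include h in
theorem fix_mem {c : G} (hc : c ∈ K.lowerCentralSeries 1) : ξ c * c⁻¹ ∈ K.lowerCentralSeries 2 := by
  have h1 := h.xm 1 c hc
  rw [← ι_eq_zero_iff (mul_mem h1 (inv_mem hc)), ι_mul h1 (inv_mem hc), ι_inv hc, ← h.X_ι hc,
    h.fix1 ⟨c, hc, rfl⟩, add_neg_cancel]

end GS

end CfsgLib.E6
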