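import Cfsg.Agent.Lib.E6.Defs
import Cfsg.Agent.Lib.E6.S3G
import Cfsg.Agent.Lib.CoprimeAction

/-!
# Parabolics of type S3
-/

set_option autoImplicit false

namespace CfsgLib.E6

open Subgroup Cfsg CfsgLib.FT.BGN CfsgLib.Cit CfsgLib.H1
open scoped commutatorElement

universe u

variable {G : Type*} [Group G] [Finite G]

theorem mem_zpowers_three {x y : G} (hx : orderOf x = 3) (hy : y ∈ zpowers x) :
    y = 1 ∨ y = x ∨ y = x * x := by
  obtain ⟨i, rfl⟩ := mem_powers_iff_mem_zpowers.2 hy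
  have h1 : i % 3 = 0 ∨ i % 3 = 1 ∨ i % 3 = 2 := by omega
  simp only
  rw [← pow_mod_orderOf, hx]
  rcases h1 with e | e | e <;> rw [e]
  · exact Or.inl (pow_zero x)
  · exact Or.inr (Or.inl (pow_one x))
  · exact Or.inr (Or.inr (pow_two x))

omit [Finite G] in
theorem mem_norm_lcs {K : Subgroup G} {g : G} (hg : g ∈ 𝐍(K)) (n : ℕ) :
    g ∈ 𝐍(K.lowerCentralSeries n) := by
  induction n with
  | zero => exact hg
  | succ n ih =>
    exact zpowers_le.1 (Cop.le_normalizer_commutator (zpowers_le.2 ih) (zpowers_le.2 hg))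

namespace Pb

variable {T Q : Subgroup G} {x u : G} (h : Pb T Q x u 3)
include h

omit [Finite G] in
theorem comm_le : ⁅Q, zpowers x⁆ ≤ Q := Cop.commutator_le_left_of_le_normalizer (zpowers_le.2 h.xn)

omit [Finite G] in
theorem xxx : x * x * x = 1 := by rw [← h.xpow, pow_three, mul_assoc]

theorem sq_fix (h6 : O6 G) : ∀ a ∈ Q ⊓ 𝐂[x], a * a = 1 := fun a ha =>
  h6.sq_of_comm3 h.ox (two_of_mem h.twoQ ha.1) (mem_centralizer_iff.1 ha.2 x rfl)

omit [Finite G] in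
theorem uu_mem : u * u ∈ Q ⊓ 𝐂[x] := by
  refine ⟨h.sq_mem h.um, mem_centralizer_singleton_iff.2 (mul_inv_eq_iff_eq_mul.1 ?_)⟩
  calc _ = u * (u * x * u⁻¹) * u⁻¹ := by group
    _ = u * x⁻¹ * u⁻¹ := by rw [h.inv]
    _ = (u * x * u⁻¹)⁻¹ := by group
    _ = x := by rw [h.inv, inv_inv]

theorem gs (h6 : O6 G) :
    GS ⁅Q, zpowers x⁆ (MulAut.conj x).toMonoidHom (MulAut.conj u).toMonoidHom := by
  have hx : x ∈ 𝐍(⁅Q, zpowers x⁆) := normalizer_commutator_ge_right _ _ (mem_zpowers x)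
  have hu : u ∈ 𝐍(⁅Q, zpowers x⁆) := by
    refine zpowers_le.1 (Cop.le_normalizer_commutator (zpowers_le.2 (h.tn h.um)) (zpowers_le.2 ?_))
    refine mem_norm ?_
    rw [MonoidHom.map_zpowers]
    show zpowers (u * x * u⁻¹) = _
    rw [h.inv, zpowers_inv]
  have x3 := h.xxx
  have xi : x⁻¹ = x * x := inv_eq_of_mul_eq_one_left x3
  have hE := h.sq_fix h6
  have x3' : ∀ g, x * (x * (x * g * x⁻¹) * x⁻¹) * x⁻¹ = g := fun g => by
    calc _ = (x * x * x) * g * (x * x * x)⁻¹ := by group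
      _ = _ := by rw [x3]; group
  refine ⟨fun n g hg => cmem (mem_norm_lcs hx n) hg, fun n g hg => cmem (mem_norm_lcs hu n) hg,
    x3', fun g => ?_, fun k hk => ?_, fun k hk => ?_, fun n k hk e => ?_, fun k hk => ?_⟩
  · show u * (x * g * x⁻¹) * u⁻¹ = x * (x * (u * g * u⁻¹) * x⁻¹) * x⁻¹
    calc _ = (u * x * u⁻¹) * (u * g * u⁻¹) * (u * x * u⁻¹)⁻¹ := by group
      _ = (x * x) * (u * g * u⁻¹) * (x * x)⁻¹ := by rw [h.inv, xi]
      _ = _ := by group
  · rw [← h6.four h.twoQ (h.comm_le hk)]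
    simp only [pow_succ, pow_zero, one_mul, mul_assoc]
  · have e1 := h6.four h.two (T.mul_mem (h.le (h.comm_le hk)) h.um)
    have e2 := hE _ h.uu_mem
    show u * (u * (k * (u * k * u⁻¹)) * u⁻¹) * u⁻¹ = (k * (u * k * u⁻¹))⁻¹
    refine eq_inv_of_mul_eq_one_right ?_
    calc _ = k * u * (k * u) * (k * u * (k * u)) * (u * u * (u * u))⁻¹ := by group
      _ = 1 := by rw [e1, e2]; group
  · have hN := (lcs_le _ (n + 1)).trans h.comm_le
    have hP := h.twoQ.to_le hN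
    have h1 : zpowers x ≤ CommCalc.relCent (⁅Q, zpowers x⁆.lowerCentralSeries (n + 1)) {k} :=
      zpowers_le.2 (CommCalc.mem_relCent.2 ⟨mem_norm_lcs hx _, by rintro _ rfl; exact e⟩)
    have := Fact.mk Nat.prime_two
    obtain ⟨m, hm, f, hf, rfl⟩ := Cop.exists_mul_centralizer_of_commutator_mem (A := zpowers x)
      (g := k) (zpowers_le.2 (mem_norm_lcs hx (n + 1)))
      (Cop.coprime_card_of_isPGroup (p := 2) (by rw [Nat.card_zpowers, h.ox]; norm_num) hP)
      (Or.inr (Cop.solvable_of_isPGroup hP)) fun a ha => by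
        rw [← commutatorElement_inv]
        exact inv_mem ((CommCalc.mem_relCent.1 (h1 ha)).2 k rfl)
    have h2 : f ∈ Q ⊓ 𝐂[x] := ⟨(mul_mem_cancel_left (hN hm)).1 (h.comm_le (lcs_le _ n hk)),
      centralizer_le (Set.singleton_subset_iff.2 (mem_zpowers x)) hf⟩
    refine ⟨m, hm, f, rfl, hE f h2, ?_⟩
    show u * (u * f * u⁻¹) * u⁻¹ = f
    calc _ = u * u * f * (u * u)⁻¹ := by group
      _ = _ := by rw [comm_of_sq hE h.uu_mem h2, mul_inv_cancel_right]
  · have hm : ∀ g ∈ ⁅Q, zpowers x⁆, x * g * x⁻¹ ∈ ⁅Q, zpowers x⁆.lowerCentralSeries 0 :=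
      fun g hg => cmem hx hg
    have key : ∀ g ∈ ⁅Q, zpowers x⁆, AssocLie.ι ⁅Q, zpowers x⁆.lowerCentralSeries 0 g +
        AssocLie.ι ⁅Q, zpowers x⁆.lowerCentralSeries 0 (x * g * x⁻¹) +
        AssocLie.ι ⁅Q, zpowers x⁆.lowerCentralSeries 0 (x * (x * g * x⁻¹) * x⁻¹) = 0 := by
      intro g hg
      induction hg using closure_induction with
      | mem g hg =>
        obtain ⟨q, hq, y, hy, rfl⟩ := hg
        have h0 : ⁅q, y⁆ ∈ ⁅Q, zpowers x⁆ := commutator_mem_commutator hq hy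
        have h1 := hm _ h0
        have h2 := hm _ h1
        rcases mem_zpowers_three h.ox hy with rfl | rfl | rfl
        · simp [AssocLie.ι_one]
        · rw [← AssocLie.ι_mul (n := 0) h0 h1, ← AssocLie.ι_mul (Subgroup.mul_mem _ h0 h1) h2,
            ← AssocLie.ι_one (K := ⁅Q, zpowers y⁆.lowerCentralSeries) 0]
          congr 1
          calc _ = q * (y * (y * (y * q⁻¹ * y⁻¹) * y⁻¹) * y⁻¹) := by
                simp only [commutatorElement_def]; group
            _ = 1 := by rw [x3', mul_inv_cancel]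
        · rw [add_right_comm, ← AssocLie.ι_mul (n := 0) h0 h2,
            ← AssocLie.ι_mul (Subgroup.mul_mem _ h0 h2) h1,
            ← AssocLie.ι_one (K := ⁅Q, zpowers x⁆.lowerCentralSeries) 0]
          congr 1
          calc _ = q * (x * (x * (x * (x * q⁻¹ * x⁻¹) * x⁻¹) * x⁻¹) * x⁻¹) * (x * q * x⁻¹) *
                (x * (x * (x * q⁻¹ * x⁻¹) * x⁻¹) * x⁻¹) := by
                simp only [commutatorElement_def]; group
            _ = 1 := by rw [x3', x3']; group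
      | one => simp [AssocLie.ι_one]
      | mul a b ha hb h1 h2 =>
        rw [← conj_mul, ← conj_mul, AssocLie.ι_mul (n := 0) ha hb,
          AssocLie.ι_mul (hm a ha) (hm b hb), AssocLie.ι_mul (hm _ (hm a ha)) (hm _ (hm b hb))]
        linear_combination (norm := abel1) h1 + h2
      | inv a ha h1 =>
        rw [← conj_inv, ← conj_inv, AssocLie.ι_inv (n := 0) ha, AssocLie.ι_inv (hm a ha),
          AssocLie.ι_inv (hm _ (hm a ha))]
        linear_combination (norm := abel1) -h1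
    have h1 := hm _ hk
    have h2 := hm _ h1
    refine (AssocLie.ι_eq_zero_iff (n := 0) (Subgroup.mul_mem _ (Subgroup.mul_mem _ hk h1) h2)).1 ?_
    rw [AssocLie.ι_mul (Subgroup.mul_mem _ hk h1) h2, AssocLie.ι_mul (n := 0) hk h1]
    exact key k hk

end Pb

theorem Pb.s3 {T Q : Subgroup G} {x u : G} (h : Pb T Q x u 3) (h6 : O6 G) {a b : G}
    (ha : a ∈ ⁅Q, zpowers x⁆) (hb : b ∈ ⁅Q, zpowers x⁆) : ⁅a, b⁆ ∈ 𝐂(Q) ∧ ⁅a, b⁆ ∈ 𝐂[x] := by
  have := Fact.mk Nat.prime_two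
  have hg := h.gs h6
  have hP := h.twoQ.to_le h.comm_le
  have h2 : ⁅Q, zpowers x⁆.lowerCentralSeries 2 = ⊥ :=
    eq_bot_of_le_commutator_of_isNilpotent hP.isNilpotent (lcs_le _ 2) hg.le_three
  have hc : ⁅a, b⁆ ∈ ⁅Q, zpowers x⁆.lowerCentralSeries 1 := commutator_mem_commutator ha hb
  have h3 : ⁅a, b⁆ ∈ 𝐂[x] := by
    have := hg.fix_mem hc
    rw [h2, mem_bot, mul_inv_eq_one] at this
    refine mem_centralizer_iff.2 ?_
    rintro _ rfl
    exact mul_inv_eq_iff_eq_mul.1 this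
  refine ⟨mem_centralizer_iff.2 fun q hq => ?_, h3⟩
  obtain ⟨k, hk, c, hc', rfl⟩ := Cop.exists_commutator_mul_centralizer (zpowers_le.2 h.xn)
    (Cop.coprime_card_of_isPGroup (p := 2) (by rw [Nat.card_zpowers, h.ox]; norm_num) h.twoQ)
    (Or.inr (Cop.solvable_of_isPGroup h.twoQ)) hq
  have e1 : ⁅a, b⁆ * k = k * ⁅a, b⁆ := commutatorElement_eq_one_iff_mul_comm.1
    (mem_bot.1 (h2.le (commutator_mem_commutator hc hk)))
  have e2 := comm_of_sq (h.sq_fix h6) (a := c) (b := ⁅a, b⁆)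
    ⟨hc'.1, centralizer_le (Set.singleton_subset_iff.2 (mem_zpowers x)) hc'.2⟩
    ⟨h.comm_le (lcs_le _ 1 hc), h3⟩
  rw [mul_assoc, e2, ← mul_assoc, ← e1, mul_assoc]

end CfsgLib.E6
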