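import Cfsg.Agent.Lib.E6.AB
import Cfsg.Agent.Lib.E6.S3

/-!
# Amalgams in which one parabolic centralizes `Ω₁ Z(T)`
-/

set_option autoImplicit false

namespace CfsgLib.E6

open Subgroup Cfsg CfsgLib.FT.BGN CfsgLib.Cit CfsgLib.H1
open scoped commutatorElement

variable {G : Type*} [Group G] [Finite G]

omit [Finite G] in
theorem comm_of_mul_sq {a b : G} (ha : a * a = 1) (hb : b * b = 1) (h : a * b * (a * b) = 1) :
    a * b = b * a := by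
  rw [← inv_eq_of_mul_eq_one_right h, mul_inv_rev, inv_eq_of_mul_eq_one_right ha,
    inv_eq_of_mul_eq_one_right hb]

theorem mem_norm_sup {A B : Subgroup G} {g : G} (h1 : ∀ a ∈ A, g * a * g⁻¹ ∈ A ⊔ B)
    (h2 : ∀ b ∈ B, g * b * g⁻¹ ∈ A ⊔ B) : g ∈ 𝐍(A ⊔ B) := by
  have : A ⊔ B ≤ (A ⊔ B).comap (MulAut.conj g).toMonoidHom := sup_le h1 h2
  exact mem_normalizer_of_conj_mem this

/-- A parabolic with `K = [Q, x]` abelian and `C_{Z(Q)}(x) = 1`. -/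
structure KP (T Q K : Subgroup G) (x u : G) : Prop extends Pb T Q x u 3 where
  o6 : O6 G
  kq : K ≤ Q
  tk : T ≤ 𝐍(K)
  xk : x ∈ 𝐍(K)
  ab : ∀ a ∈ K, ∀ b ∈ K, a * b = b * a
  fpf : ∀ k ∈ K, x * k = k * x → k = 1
  dec : ∀ q ∈ Q, ∃ k ∈ K, ∃ e ∈ Q, x * e = e * x ∧ q = k * e
  triv : ∀ e ∈ Q, e ∈ 𝐂(Q) → x * e = e * x → e = 1

theorem Pb.kp {T Q : Subgroup G} {x u : G} (h : Pb T Q x u 3) (h6 : O6 G)
    (triv : ∀ e ∈ Q, e ∈ 𝐂(Q) → x * e = e * x → e = 1) : KP T Q ⁅Q, zpowers x⁆ x u := by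
  have : Fact (Nat.Prime 2) := ⟨Nat.prime_two⟩
  have hx : zpowers x ≤ 𝐍(Q) := zpowers_le.2 h.xn
  have h1 : ⁅Q, zpowers x⁆ ≤ Q := Cop.commutator_le_left_of_le_normalizer hx
  have hc : (Nat.card (zpowers x)).Coprime (Nat.card Q) :=
    Cop.coprime_card_of_isPGroup (by rw [Nat.card_zpowers, h.ox]; norm_num) h.twoQ
  have h2 : ∀ a ∈ ⁅Q, zpowers x⁆, ∀ b ∈ ⁅Q, zpowers x⁆, a * b = b * a := fun a ha b hb =>
    commutatorElement_eq_one_iff_mul_comm.1 (triv _ (Q.mul_mem (Q.mul_mem (Q.mul_mem (h1 ha)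
      (h1 hb)) (inv_mem (h1 ha))) (inv_mem (h1 hb))) (h.s3 h6 ha hb).1
      (mem_centralizer_singleton_iff.1 (h.s3 h6 ha hb).2).symm)
  have h3 : u ∈ 𝐍(⁅Q, zpowers x⁆) := zpowers_le.1 (Cop.le_normalizer_commutator
    (zpowers_le.2 (h.tn h.um)) (zpowers_le.2 (mem_normalizer_of_conj_mem (by
      rintro _ ⟨n, rfl⟩
      rw [← conj_zpow, h.inv]
      exact zpow_mem (inv_mem (mem_zpowers x)) n))))
  refine { h with
    o6 := h6, kq := h1, xk := normalizer_commutator_ge_right _ _ (mem_zpowers x), ab := h2,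
    triv := triv, tk := fun a ha => ?_, fpf := fun k hk e => ?_, dec := fun q hq => ?_ }
  · by_cases e : a ∈ Q
    · exact normalizer_commutator_ge_left _ _ e
    · simpa using Subgroup.mul_mem _ (normalizer_commutator_ge_left Q (zpowers x)
        (h.mul_inv_mem ha e h.um h.un)) h3
  · have h4 := Cop.commutator_inf_centralizer_eq_bot (A := zpowers x) (G := ⁅Q, zpowers x⁆)
      (normalizer_commutator_ge_right _ _) (hc.coprime_dvd_right (card_dvd_of_le h1))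
      ⟨⟨fun a b => Subtype.ext (h2 _ a.2 _ b.2)⟩⟩
    rw [Cop.commutator_commutator_eq hx hc] at h4
    refine mem_bot.1 (h4 ▸ ⟨hk, ?_⟩)
    rintro _ ⟨n, rfl⟩
    exact (Commute.zpow_left e n).eq
  · obtain ⟨n, hn, c, hc', e⟩ := Cop.exists_commutator_mul_centralizer hx hc
      (Or.inr (Cop.solvable_of_isPGroup h.twoQ)) hq
    exact ⟨n, hn, c, hc'.1, hc'.2 x (mem_zpowers x), e.symm⟩

namespace KP

variable {T Q K : Subgroup G} {x u : G} (h : KP T Q K x u)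
include h

theorem x3 : x * x * x = 1 := by
  rw [← h.xpow]; simp only [pow_succ, pow_zero, one_mul]

theorem x_inv : x⁻¹ = x * x := inv_eq_of_mul_eq_one_left h.x3

theorem tm {a k : G} (ha : a ∈ T) (hk : k ∈ K) : a * k * a⁻¹ ∈ K := cmem (h.tk ha) hk

theorem xm {k : G} (hk : k ∈ K) : x * k * x⁻¹ ∈ K := cmem h.xk hk

theorem xm' {k : G} (hk : k ∈ K) : x⁻¹ * k * x ∈ K := by simpa using cmem (inv_mem h.xk) hk

theorem esq {e : G} (he : e ∈ Q) (h1 : x * e = e * x) : e * e = 1 :=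
  h.o6.sq_of_comm3 h.ox (two_of_mem h.twoQ he) h1

theorem ecomm {e f : G} (he : e ∈ Q) (h1 : x * e = e * x) (hf : f ∈ Q) (h2 : x * f = f * x) :
    e * f = f * e :=
  comm_of_mul_sq (h.esq he h1) (h.esq hf h2)
    (h.esq (Q.mul_mem he hf) (Commute.mul_right h1 h2).eq)

theorem kconj {a k : G} (ha : a ∈ K) (hk : k ∈ K) : a * k * a⁻¹ = k := by
  rw [h.ab _ ha _ hk, mul_inv_cancel_right]

theorem exists_ne : ∃ k ∈ K, k ≠ 1 := by
  by_contra e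
  push Not at e
  refine h.not_cent (mem_centralizer_iff.2 fun q hq => ?_)
  obtain ⟨k, hk, f, -, h1, rfl⟩ := h.dec q hq
  rw [e k hk, one_mul, h1]

/-- `C_T(K) = K`. -/
theorem mem_of_cent {a : G} (ha : a ∈ T) (hc : ∀ k ∈ K, k * a = a * k) : a ∈ K := by
  by_cases e : a ∈ Q
  · obtain ⟨k, hk, f, hf, h1, rfl⟩ := h.dec a e
    have h2 : ∀ l ∈ K, l * f = f * l := fun l hl => by
      have := hc l hl
      rw [← mul_assoc, h.ab _ hl _ hk, mul_assoc, mul_assoc] at this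
      exact mul_left_cancel this
    rw [h.triv f hf (mem_centralizer_iff.2 fun q hq => ?_) h1, mul_one]
    · exact hk
    · obtain ⟨l, hl, g, hg, h3, rfl⟩ := h.dec q hq
      exact (Commute.mul_left (h2 l hl) (h.ecomm hg h3 hf h1)).eq
  · obtain ⟨k, hk, h1⟩ := h.exists_ne
    have h2 : Q ≤ 𝐍(𝐂(K)) := le_normalizer_centralizer (h.le.trans h.tk)
    have h3 : x ∈ 𝐍(𝐂(K)) := zpowers_le.1 (le_normalizer_centralizer (zpowers_le.2 h.xk))
    have h4 : a ∈ 𝐂(K) := mem_centralizer_iff.2 hc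
    have := h.toPb.mem_of h.o6 (M := 𝐂(K)) (fun q hq g hg => cmem (h2 hq) hg) ha e h4 (cmem h3 h4)
    exact absurd (h.fpf k hk (mem_centralizer_iff.1 this k hk).symm) h1

/-- The actions of `Q` and of `x` on `K` commute. -/
theorem act {b k : G} (hb : b ∈ Q) (hk : k ∈ K) :
    b * (x * k * x⁻¹) * b⁻¹ = x * (b * k * b⁻¹) * x⁻¹ := by
  obtain ⟨l, hl, e, he, h1, rfl⟩ := h.dec b hb
  have h2 : ∀ m ∈ K, l * e * m * (l * e)⁻¹ = e * m * e⁻¹ := fun m hm => by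
    rw [← h.kconj hl (h.tm (h.le he) hm)]; group
  rw [h2 _ hk, h2 _ (h.xm hk)]
  calc _ = (e * x) * k * (e * x)⁻¹ := by group
    _ = _ := by rw [← h1]; group

theorem act' {b k : G} (hb : b ∈ Q) (hk : k ∈ K) :
    b * (x⁻¹ * k * x) * b⁻¹ = x⁻¹ * (b * k * b⁻¹) * x := by
  have := h.act hb (h.xm' hk)
  calc _ = x⁻¹ * (x * (b * (x⁻¹ * k * x) * b⁻¹) * x⁻¹) * x := by group
    _ = _ := by rw [← this]; group

theorem inverts_aux {n k : G} (hn : n ∈ T) (h1 : n * x * n⁻¹ = x⁻¹) (hk : k ∈ K) :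
    n * n * k * (n * n)⁻¹ = k⁻¹ := by
  have h2 : x * (n * n) = n * n * x := by
    have : n * x⁻¹ * n⁻¹ = x := by rw [← conj_inv, h1, inv_inv]
    calc _ = n * x⁻¹ * n⁻¹ * (n * n) := by rw [this]
      _ = n * (n * x * n⁻¹) * n := by rw [h1]; group
      _ = _ := by group
  have h3 := h.esq (h.sq_mem hn) h2
  have h4 : ∀ k ∈ K, n * (k * (n * n * k * (n * n)⁻¹)) * n⁻¹ = (k * (n * n * k * (n * n)⁻¹))⁻¹ := by
    intro k hk
    have h5 := h.o6.four h.two (T.mul_mem (h.le (h.kq hk)) hn)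
    have h6 : k * n * (k * n) * (k * n * (k * n)) = k * ((n * k * n⁻¹) * (n * n * k * (n * n)⁻¹)) *
        (n * (n * n * k * (n * n)⁻¹) * n⁻¹) * (n * n * (n * n)) := by group
    rw [h6, h3, mul_one, h.ab _ (h.tm hn hk) _ (h.tm (T.mul_mem hn hn) hk)] at h5
    rw [eq_inv_iff_mul_eq_one, mul_eq_one_comm, ← h5]
    group
  have h5 := h4 k hk
  have h6 := h4 _ (h.xm hk)
  rw [h.act (h.sq_mem hn) hk, conj_mul] at h6
  set b := k * (n * n * k * (n * n)⁻¹) with hb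
  have h7 : n * (x * b * x⁻¹) * n⁻¹ = x⁻¹ * b⁻¹ * x := by
    calc _ = (n * x * n⁻¹) * (n * b * n⁻¹) * (n * x * n⁻¹)⁻¹ := by group
      _ = _ := by rw [h1, h5, inv_inv]
  rw [h7] at h6
  have h8 : x * b = b * x := by
    have : Commute (x * x) b := by
      calc x * x * b = x * (x * b * x⁻¹) * x := by group
        _ = x * (x⁻¹ * b⁻¹ * x)⁻¹ * x := by rw [h6, inv_inv]
        _ = _ := by group
    rw [← h.x_inv] at this
    exact (Commute.inv_left_iff.1 this).eq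
  exact eq_inv_of_mul_eq_one_right
    (h.fpf b (K.mul_mem hk (h.tm (T.mul_mem hn hn) hk)) h8)

theorem dec' {a : G} (ha : a ∈ T) (ha' : a ∉ Q) :
    ∃ k ∈ K, ∃ e ∈ Q, x * e = e * x ∧ a = k * (e * u) := by
  obtain ⟨k, hk, e, he, h1, h2⟩ := h.dec _ (h.mul_inv_mem ha ha' h.um h.un)
  exact ⟨k, hk, e, he, h1, by rw [← mul_assoc, ← h2, inv_mul_cancel_right]⟩

theorem eu_inv {e : G} (h1 : x * e = e * x) : e * u * x * (e * u)⁻¹ = x⁻¹ := by
  calc _ = e * (u * x * u⁻¹) * e⁻¹ := by group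
    _ = _ := by rw [h.inv, (Commute.inv_left h1).symm.eq, mul_inv_cancel_right]

/-- Squares of elements of `T - Q` invert `K`. -/
theorem inverts {a k : G} (ha : a ∈ T) (ha' : a ∉ Q) (hk : k ∈ K) :
    a * a * k * (a * a)⁻¹ = k⁻¹ := by
  obtain ⟨l, hl, e, he, h1, rfl⟩ := h.dec' ha ha'
  have hn : e * u ∈ T := T.mul_mem (h.le he) h.um
  have h2 : ∀ m ∈ K, l * (e * u) * m * (l * (e * u))⁻¹ = e * u * m * (e * u)⁻¹ := fun m hm => by
    rw [← h.kconj hl (h.tm hn hm)]; group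
  rw [← h.inverts_aux hn (h.eu_inv h1) hk]
  calc _ = l * (e * u) * (l * (e * u) * k * (l * (e * u))⁻¹) * (l * (e * u))⁻¹ := by group
    _ = _ := by rw [h2 _ hk, h2 _ (h.tm hn hk)]; group

theorem ue {e : G} (he : e ∈ Q) (h1 : x * e = e * x) : u * e = e * u := by
  have h2 : e * (u * e * u⁻¹) ∈ K := by
    refine h.mem_of_cent (T.mul_mem (h.le he) (h.le (h.conj_mem h.um he))) fun k hk => ?_
    have h3 := h.inverts_aux (T.mul_mem (h.le he) h.um) (h.eu_inv h1) (inv_mem hk)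
    have h4 := h.inverts_aux h.um h.inv (inv_mem hk)
    rw [inv_inv] at h3 h4
    calc _ = e * u * (e * u) * k⁻¹ * (e * u * (e * u))⁻¹ * (e * (u * e * u⁻¹)) := by rw [h3]
      _ = e * (u * e * u⁻¹) * (u * u * k⁻¹ * (u * u)⁻¹) := by group
      _ = _ := by rw [h4]
  have h3 : x * (u * e * u⁻¹) = u * e * u⁻¹ * x := by
    have e1 : u * x⁻¹ * u⁻¹ = x := by rw [← conj_inv, h.inv, inv_inv]
    calc _ = u * x⁻¹ * u⁻¹ * (u * e * u⁻¹) := by rw [e1]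
      _ = u * (x⁻¹ * e) * u⁻¹ := by group
      _ = u * e * u⁻¹ * (u * x⁻¹ * u⁻¹) := by rw [(Commute.inv_left h1).eq]; group
      _ = _ := by rw [e1]
  have h4 := h.fpf _ h2 (Commute.mul_right h1 h3).eq
  calc u * e = e * e * (u * e) := by rw [h.esq he h1, one_mul]
    _ = e * (e * (u * e * u⁻¹)) * u := by group
    _ = _ := by rw [h4, mul_one]

/-- `T / K` is abelian. -/
theorem comm_mem {a b : G} (ha : a ∈ T) (hb : b ∈ T) : ⁅a, b⁆ ∈ K := by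
  have h1 : ∀ a ∈ T, ∃ k ∈ K, ∃ n ∈ T, a = k * n ∧
      (∀ e ∈ Q, x * e = e * x → n * e = e * n) ∧ n * u = u * n := fun a ha => by
    by_cases e : a ∈ Q
    · obtain ⟨k, hk, f, hf, h1, rfl⟩ := h.dec a e
      exact ⟨k, hk, f, h.le hf, rfl, fun g hg h2 => h.ecomm hf h1 hg h2, (h.ue hf h1).symm⟩
    · obtain ⟨k, hk, f, hf, h1, rfl⟩ := h.dec' ha e
      exact ⟨k, hk, _, T.mul_mem (h.le hf) h.um, rfl,
        fun g hg h2 => (Commute.mul_left (h.ecomm hf h1 hg h2) (h.ue hg h2)).eq,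
        (Commute.mul_left (h.ue hf h1).symm (Commute.refl u)).eq⟩
  obtain ⟨k, hk, n, hn, rfl, h2, h3⟩ := h1 a ha
  have h4 : ∀ l ∈ K, ∀ m ∈ T, n * m = m * n → ⁅k * n, l * m⁆ ∈ K := fun l hl m hm e => by
    have : ⁅k * n, l * m⁆ = k * (n * l * n⁻¹) * (n * m * n⁻¹ * k⁻¹ * m⁻¹) * l⁻¹ := by
      simp only [commutatorElement_def]; group
    rw [this, e, mul_inv_cancel_right]
    exact K.mul_mem (K.mul_mem (K.mul_mem hk (h.tm hn hl)) (h.tm hm (inv_mem hk))) (inv_mem hl)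
  by_cases e : b ∈ Q
  · obtain ⟨l, hl, f, hf, h5, rfl⟩ := h.dec b e
    exact h4 l hl f (h.le hf) (h2 f hf h5)
  · obtain ⟨l, hl, f, hf, h5, rfl⟩ := h.dec' hb e
    exact h4 l hl _ (T.mul_mem (h.le hf) h.um) (Commute.mul_right (h2 f hf h5) h3).eq

theorem x_comm_mem {q : G} (hq : q ∈ Q) : x * q * x⁻¹ * q⁻¹ ∈ K := by
  obtain ⟨k, hk, e, -, h1, rfl⟩ := h.dec q hq
  have : x * (k * e) * x⁻¹ * (k * e)⁻¹ = x * k * x⁻¹ * (x * e * x⁻¹ * e⁻¹) * k⁻¹ := by group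
  rw [this, h1, mul_inv_cancel_right, mul_inv_cancel, mul_one]
  exact K.mul_mem (h.xm hk) (inv_mem hk)

/-- An element of `K` centralized by `a ∈ T - Q` and by `x a x⁻¹` is trivial. -/
theorem eq_one {a c : G} (ha : a ∈ T) (ha' : a ∉ Q) (hc : c ∈ K) (h1 : c * a = a * c)
    (h2 : x⁻¹ * c * x * a = a * (x⁻¹ * c * x)) : c = 1 := by
  have h3 : Q ≤ 𝐍(K ⊓ 𝐂[a]) := fun q hq => mem_normalizer_of_conj_mem fun k hk => by
    refine ⟨h.tm (h.le hq) hk.1, mem_centralizer_singleton_iff.2 ?_⟩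
    have e1 := h.ab _ hk.1 _ (h.comm_mem (inv_mem (h.le hq)) ha)
    calc _ = q * (k * ⁅q⁻¹, a⁆ * a) * q⁻¹ := by simp only [commutatorElement_def]; group
      _ = q * (⁅q⁻¹, a⁆ * (k * a)) * q⁻¹ := by rw [e1, mul_assoc _ k]
      _ = _ := by rw [mem_centralizer_singleton_iff.1 hk.2]; simp only [commutatorElement_def]; group
  have h4 : Q ≤ 𝐍(𝐂(K ⊓ 𝐂[a] ⊓ x •ᶜ (K ⊓ 𝐂[a]))) :=
    le_normalizer_centralizer (le_normalizer_inf h3 (norm_cj_of h.xn h3))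
  have := h.toPb.mem_of h.o6 (fun q hq g hg => cmem (h4 hq) hg) ha ha'
    (mem_centralizer_iff.2 fun g hg => mem_centralizer_singleton_iff.1 hg.1.2)
    (mem_centralizer_iff.2 fun g hg => by
      have := mem_centralizer_singleton_iff.1 (mem_cj.1 hg.2).2
      calc _ = x * (x⁻¹ * g * x * a) * x⁻¹ := by group
        _ = _ := by rw [this]; group)
  exact h.fpf c hc (mem_centralizer_iff.1 this c ⟨⟨hc, mem_centralizer_singleton_iff.2 h1⟩,
    mem_cj.2 ⟨h.xm' hc, mem_centralizer_singleton_iff.2 h2⟩⟩).symm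

theorem norm_one {k : G} (hk : k ∈ K) : k * (x * k * x⁻¹) * (x⁻¹ * k * x) = 1 := by
  refine h.fpf _ (K.mul_mem (K.mul_mem hk (h.xm hk)) (h.xm' hk)) ?_
  have e1 : x * (x * k * x⁻¹) * x⁻¹ = x⁻¹ * k * x := by
    calc _ = x * x * k * (x * x)⁻¹ := by group
      _ = _ := by rw [← h.x_inv, inv_inv]
  calc _ = x * k * x⁻¹ * (x * (x * k * x⁻¹) * x⁻¹) * k * x := by group
    _ = _ := by rw [e1, h.ab _ (K.mul_mem (h.xm hk) (h.xm' hk)) _ hk]; simp only [mul_assoc]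

/-- A property invariant under `x` holding on a subgroup of index two holds on `K`. -/
theorem of_two {D : Subgroup G} (hD : ∀ a ∈ K, ∀ b ∈ K, a ∉ D → b ∉ D → a * b ∈ D)
    {P : G → Prop} (h1 : ∀ k ∈ K, P k → P (x * k * x⁻¹)) (h2 : ∀ k ∈ K, k ∈ D → P k) {k : G}
    (hk : k ∈ K) : P k := by
  by_cases e1 : k ∈ D
  · exact h2 k hk e1
  by_cases e2 : x * k * x⁻¹ ∈ D
  · have := h1 _ (h.xm (h.xm hk)) (h1 _ (h.xm hk) (h2 _ (h.xm hk) e2))
    rwa [show x * (x * (x * k * x⁻¹) * x⁻¹) * x⁻¹ = x * x * x * k * (x * x * x)⁻¹ by group, h.x3,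
      one_mul, inv_one, mul_one] at this
  have h3 := inv_mem (hD _ hk _ (h.xm hk) e1 e2)
  rw [inv_eq_of_mul_eq_one_right (h.norm_one hk)] at h3
  simpa [mul_assoc] using h1 _ (h.xm' hk) (h2 _ (h.xm' hk) h3)

theorem uniq {D : Subgroup G} (hD : ∀ a ∈ K, ∀ b ∈ K, a ∉ D → b ∉ D → a * b ∈ D) {a : G}
    (ha : a ∈ T) (ha' : a ∉ Q) (h1 : ∀ d ∈ K, d ∈ D → d * a = a * d) {c d : G} (hc : c ∈ K)
    (hc' : c ∈ D) (hc1 : c ≠ 1) (hd : d ∈ K) (hd' : d ∈ D) (hd1 : d ≠ 1) : c * d = 1 := by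
  have h2 : ∀ c ∈ K, c ∈ D → x⁻¹ * c * x ∈ D → c = 1 := fun c hc e1 e2 =>
    h.eq_one ha ha' hc (h1 c hc e1) (h1 _ (h.xm' hc) e2)
  refine h2 _ (K.mul_mem hc hd) (D.mul_mem hc' hd') ?_
  have := hD _ (h.xm' hc) _ (h.xm' hd) (fun e => hc1 (h2 c hc hc' e)) fun e => hd1 (h2 d hd hd' e)
  simpa [mul_assoc] using this

end KP

/-- A pair of parabolics, the second of which centralizes `Ω₁ Z(T)`. -/
structure CP (T Q K R : Subgroup G) (x u y w : G) : Prop extends KP T Q K x u where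
  r : Pb T R y w 3
  noN : NoN T x y
  cen : ∀ z ∈ OmZ T, y * z = z * y

namespace CP

variable {T Q K R : Subgroup G} {x u y w : G} (h : CP T Q K R x u y w)
include h

theorem exists_z : ∃ z ∈ K, z ≠ 1 ∧ z ∈ R ∧ z ∈ 𝐂(T) ∧ y * z = z * y := by
  obtain ⟨z, hz, h1, h2⟩ := exists_OmZ_cent h.two le_rfl le_normalizer
    fun e => h.ne_bot (le_bot_iff.1 (e ▸ h.le))
  exact ⟨z, h.mem_of_cent hz.1 fun k hk => mem_centralizer_iff.1 h2 k (h.le (h.kq hk)), h1,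
    h.r.ch (centralizer_le h.r.le h2), h2, h.cen z hz⟩

theorem y_inv : y⁻¹ = y * y := inv_eq_of_mul_eq_one_left (by
  rw [← h.r.xpow]; simp only [pow_succ, pow_zero, one_mul])

theorem false_of_le (hK : K ≤ R) : False := by
  have hw : w •ᶜ K = K := cj_eq (h.tk h.r.um)
  have h1 : y •ᶜ K ≤ R := (map_mono hK).trans (cj_eq h.r.xn).le
  have h2 : w •ᶜ (y •ᶜ K) = y⁻¹ •ᶜ K := by
    rw [← map_conj_mul, ← h.r.inv, map_conj_mul (w * y), cj_eq (inv_mem (h.tk h.r.um))]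
  by_cases e : y •ᶜ K ≤ Q
  · have h3 : y⁻¹ •ᶜ K ≤ Q := h2 ▸ (map_mono e).trans (cj_eq (h.tn h.r.um)).le
    have h4 : K ⊔ y •ᶜ K ⊔ y⁻¹ •ᶜ K ≤ Q := sup_le (sup_le h.kq e) h3
    have h5 : K ≤ K ⊔ y •ᶜ K ⊔ y⁻¹ •ᶜ K := le_sup_left.trans le_sup_left
    obtain ⟨k, hk, hk1⟩ := h.exists_ne
    refine hk1 (mem_bot.1 (h.noN _ (h4.trans h.le) (le_normalizer_iff.2 fun a ha n hn => ?_)
      (mem_normalizer_of_conj_mem fun n hn => ?_) (mem_norm ?_) ▸ h5 hk))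
    · simpa [commutatorElement_def] using mul_mem (h5 (h.comm_mem ha (h.le (h4 hn)))) hn
    · simpa using mul_mem (h5 (h.x_comm_mem (h4 hn))) hn
    · rw [Subgroup.map_sup, Subgroup.map_sup, ← map_conj_mul, ← h.y_inv, map_conj_map_conj_inv,
        sup_comm, ← sup_assoc]
  obtain ⟨a, ha, ha'⟩ := SetLike.not_le_iff_exists.1 e
  have hab : K ≤ 𝐂(K) := fun a ha => mem_centralizer_iff.2 fun b hb => h.ab b hb a ha
  have haT := h.r.le (h1 ha)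
  have h3 : ∀ b ∈ y •ᶜ K, b ∈ Q → b ∈ K := fun b hb hb' => by
    have h4 : ∀ k ∈ K, b * k * b⁻¹ * k⁻¹ * a = a * (b * k * b⁻¹ * k⁻¹) := fun k hk => by
      refine cent_cj_of hab y ?_ ha
      rw [mul_assoc, mul_assoc, ← mul_assoc k]
      exact mul_mem hb (cmem (norm_cj_of h.r.xn (h.r.le.trans h.tk) (hK hk)) (inv_mem hb))
    refine h.mem_of_cent (h.le hb') fun k hk => ?_
    have h5 := h.eq_one haT ha' (K.mul_mem (h.tm (h.le hb') hk) (inv_mem hk)) (h4 k hk) (by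
      have := h4 _ (h.xm' hk)
      rw [h.act' hb' hk] at this
      simpa [mul_assoc] using this)
    rw [mul_inv_eq_one, mul_inv_eq_iff_eq_mul] at h5
    exact h5.symm
  have h4 : ∀ k, k ∈ y •ᶜ K ↔ y * w * k * (y * w)⁻¹ ∈ K := fun k => by
    rw [mem_cj, mem_normalizer_iff.1 (h.tk h.r.um)]
    have : y * w * k * (y * w)⁻¹ = w * (y⁻¹ * k * y) * w⁻¹ := by
      have e1 : w * y⁻¹ * w⁻¹ = y := by rw [← conj_inv, h.r.inv, inv_inv]
      calc _ = (w * y⁻¹ * w⁻¹) * w * k * ((w * y⁻¹ * w⁻¹) * w)⁻¹ := by rw [e1]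
        _ = _ := by group
    rw [this]
  have h5 : ∀ k ∈ K, y * w * k * (y * w)⁻¹ ∈ y •ᶜ K := fun k hk => by
    simpa [mul_assoc] using cj_mem (g := y) (h.tm h.r.um hk)
  have hD : ∀ c ∈ K, ∀ d ∈ K, c ∉ y •ᶜ K → d ∉ y •ᶜ K → c * d ∈ y •ᶜ K := fun c hc d hd e1 e2 => by
    rw [h4] at e1 e2 ⊢
    rw [← conj_mul]
    exact h3 _ (mul_mem (h5 c hc) (h5 d hd)) (h.toPb.mul_mem (h.r.le (h1 (h5 c hc)))
      (fun e => e1 (h3 _ (h5 c hc) e)) (h.r.le (h1 (h5 d hd))) fun e => e2 (h3 _ (h5 d hd) e))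
  obtain ⟨z, hz, hz1, -, hz2, hz3⟩ := h.exists_z
  have hz4 : z ∈ y •ᶜ K := by simpa [hz3] using cj_mem (g := y) hz
  have h6 : Q ≤ R := fun q hq => hK (h.mem_of_cent (h.le hq) fun k hk => by
    refine h.of_two hD (P := fun k => k * q = q * k) (fun k hk e => ?_) (fun k hk e => ?_) hk
    · have := h.act hq hk
      rw [← e, mul_inv_cancel_right, mul_inv_eq_iff_eq_mul] at this
      exact this.symm
    · by_cases e1 : k = 1
      · rw [e1, one_mul, mul_one]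
      · rw [eq_inv_of_mul_eq_one_left (h.uniq hD haT ha' (fun d _ hd => cent_cj_of hab y hd ha)
          hk e e1 hz hz4 hz1)]
        exact (Commute.inv_left (mem_centralizer_iff.1 hz2 q (h.le hq)).symm).eq)
  exact h.r.un ((R.mul_mem_cancel_left (h1 ha)).1
    (h6 (h.toPb.mul_mem haT ha' h.r.um fun e => h.r.un (h6 e))))

theorem toAB {k : G} (hk : k ∈ K) (hk' : k ∉ R) : AB T R K y w k :=
  { h.r with
    o6 := h.o6, bt := h.kq.trans h.le, nb := h.tk, km := hk, kn := hk'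
    ab := fun a ha => mem_centralizer_iff.2 fun b hb => h.toKP.ab b hb a ha }

theorem two_R : ∀ a ∈ K, ∀ b ∈ K, a ∉ R → b ∉ R → a * b ∈ R := fun _ ha _ hb e1 e2 =>
  h.r.mul_mem (h.le (h.kq ha)) e1 (h.le (h.kq hb)) e2

theorem comm_act {b k : G} (hb : b ∈ Q) (hk : k ∈ K) :
    ⁅b, x * k * x⁻¹⁆ = x * ⁅b, k⁆ * x⁻¹ := by
  rw [commutatorElement_def, h.act hb hk, commutatorElement_def]; group

theorem comm_K {b k : G} (hb : b ∈ T) (hk : k ∈ K) : ⁅b, k⁆ ∈ K :=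
  K.mul_mem (h.tm hb hk) (inv_mem hk)

theorem not_le_Q {k : G} (hk : k ∈ K) (hk' : k ∉ R) : ¬ y •ᶜ (K ⊓ R) ≤ Q := fun e => by
  have A := h.toAB hk hk'
  have h1 : ∀ b ∈ y •ᶜ (K ⊓ R), ∀ b' ∈ y •ᶜ (K ⊓ R), b' * ⁅b, k⁆ * b'⁻¹ = ⁅b, k⁆ :=
    fun b hb b' hb' => by
      refine h.of_two h.two_R (P := fun k => b' * ⁅b, k⁆ * b'⁻¹ = ⁅b, k⁆) (fun k hk e1 => ?_)
        (fun k hk e1 => ?_) hk
      · rw [h.comm_act (e hb) hk, h.act (e hb') (h.comm_K (h.le (e hb)) hk), e1]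
      · rw [A.comm1 hb' (A.comm_mem ⟨hk, e1⟩ hb).2, mul_inv_cancel_right]
  refine A.not_le fun b hb => h.mem_of_cent (h.le (e hb)) fun l hl => ?_
  refine h.of_two h.two_R (P := fun l => l * b = b * l) (fun l hl e1 => ?_) (fun l hl e1 => ?_) hl
  · have := h.act (e hb) hl
    rw [← e1, mul_inv_cancel_right, mul_inv_eq_iff_eq_mul] at this
    exact this.symm
  · obtain ⟨c, hc, h2⟩ := A.surj ⟨hl, e1⟩
    have h3 := A.comm1 h2 hb
    have h4 := mul_inv_eq_iff_eq_mul.1 (h1 c hc b hb)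
    rw [mul_assoc, ← h4, ← mul_assoc, ← mul_assoc] at h3
    exact mul_right_cancel h3

theorem mem_K {k a b : G} (hk : k ∈ K) (hk' : k ∉ R) (ha : a ∈ y •ᶜ (K ⊓ R)) (ha' : a ∉ Q)
    (hb : b ∈ y •ᶜ (K ⊓ R)) (hb' : b ∈ Q) : b ∈ K := by
  by_contra hbK
  have A := h.toAB hk hk'
  have haT := h.r.le (A.le1 ha)
  have hsq : ∀ l ∈ K, l * l = 1 := fun l hl => by
    have := h.inverts haT ha' hl
    rw [h.kconj (A.sq ha) hl] at this
    exact eq_inv_iff_mul_eq_one.1 this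
  have hsq1 := sq_cj (A := K ⊓ R) (fun l hl => hsq l hl.1) y
  have h1 : ∀ c ∈ y •ᶜ (K ⊓ R), c ∈ Q → c ∉ K → ∀ l ∈ K,
      (c * l = l * c ↔ l ∈ R ∧ x⁻¹ * l * x ∈ R) := fun c hc hc' hcK l hl => by
    have h2 : ∀ l ∈ K, c * l = l * c → l ∈ R := fun l hl e => by
      by_contra e1
      exact hcK ((h.toAB hl e1).inj hc (by
        rw [commutatorElement_eq_one_iff_mul_comm.2 e]; exact one_mem _))
    refine ⟨fun e => ⟨h2 l hl e, h2 _ (h.xm' hl) ?_⟩, fun e => ?_⟩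
    · have := h.act' hc' hl
      rwa [e, mul_inv_cancel_right, mul_inv_eq_iff_eq_mul] at this
    · refine commutatorElement_eq_one_iff_mul_comm.1 (h.eq_one haT ha' (h.comm_K (h.le hc') hl)
        (A.comm1 (A.comm_mem ⟨hl, e.1⟩ hc).2 ha) ?_)
      have h3 := h.comm_act hc' (h.xm' hl)
      have h4 : x⁻¹ * ⁅c, l⁆ * x = ⁅c, x⁻¹ * l * x⁆ := by
        calc _ = x⁻¹ * ⁅c, x * (x⁻¹ * l * x) * x⁻¹⁆ * x := by simp [mul_assoc]
          _ = _ := by rw [h3]; group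
      rw [h4]
      exact A.comm1 (A.comm_mem ⟨h.xm' hl, e.2⟩ hc).2 ha
  set X := K ⊓ 𝐂(y •ᶜ (K ⊓ R) ⊓ Q) with hX
  have h2 : ∀ c ∈ y •ᶜ (K ⊓ R), c ∈ Q → c ∉ K → ∀ l ∈ K, c * l = l * c → l ∈ X :=
    fun c hc hc' hcK l hl e => ⟨hl, mem_centralizer_iff.2 fun d hd => by
      by_cases e1 : d ∈ K
      · exact h.toKP.ab _ e1 _ hl
      · exact (h1 d hd.1 hd.2 e1 l hl).2 ((h1 c hc hc' hcK l hl).1 e)⟩
  have h3 : ∀ l ∈ X, b * l = l * b := fun l hl => mem_centralizer_iff.1 hl.2 b ⟨hb, hb'⟩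
  have h4 : ∀ c ∈ y •ᶜ (K ⊓ R), c ∈ K → c ∈ X := fun c hc e =>
    ⟨e, mem_centralizer_iff.2 fun d hd => A.comm1 hd.1 hc⟩
  have h5 : ∀ l ∈ X, x * l * x⁻¹ ∈ X := fun l hl => h2 b hb hb' hbK _ (h.xm hl.1) (by
    have := h.act hb' hl.1
    rwa [h3 l hl, mul_inv_cancel_right, mul_inv_eq_iff_eq_mul] at this)
  have h6 : R ≤ 𝐍(y •ᶜ (K ⊓ R) ⊓ Q) := le_normalizer_inf A.n1 (h.r.le.trans h.tn)
  have h7 : R ≤ 𝐍(X) := le_normalizer_inf (h.r.le.trans h.tk) (le_normalizer_centralizer h6)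
  have h8 : ∀ c ∈ y •ᶜ (K ⊓ R), c ∈ Q → ∀ l ∈ K, ⁅c, l⁆ ∈ X := fun c hc hc' l hl => by
    by_cases e : c ∈ K
    · rw [commutatorElement_eq_one_iff_mul_comm.2 (h.toKP.ab _ e _ hl)]; exact one_mem _
    refine h2 c hc hc' e _ (h.comm_K (h.le hc') hl) ?_
    have e1 := hsq _ (h.comm_K (h.le hc') hl)
    rw [← mul_inv_eq_iff_eq_mul]
    calc c * ⁅c, l⁆ * c⁻¹ = c * c * l * (c * c)⁻¹ * (c * l⁻¹ * c⁻¹) := by
          simp only [commutatorElement_def]; group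
      _ = ⁅c, l⁆⁻¹ := by rw [hsq1 c hc]; simp only [commutatorElement_def]; group
      _ = _ := inv_eq_of_mul_eq_one_right e1
  have h9 : T ≤ 𝐍(X ⊔ y •ᶜ (K ⊓ R) ⊓ Q) := by
    have e1 : k ∈ 𝐍(X ⊔ y •ᶜ (K ⊓ R) ⊓ Q) := mem_norm_sup
      (fun l hl => by rw [h.kconj hk hl.1]; exact mem_sup_left hl) fun c hc => by
        have : k * c * k⁻¹ = ⁅c, k⁆⁻¹ * c := by simp only [commutatorElement_def]; group
        rw [this]
        exact mul_mem_sup (inv_mem (h8 c hc.1 hc.2 k hk)) hc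
    have e2 := le_normalizer_sup h7 h6
    intro t ht
    by_cases e : t ∈ R
    · exact e2 e
    · simpa using mul_mem (e2 (h.r.mul_inv_mem ht e (A.bt hk) hk')) e1
  have h10 : x ∈ 𝐍(X ⊔ y •ᶜ (K ⊓ R) ⊓ Q) := mem_norm_sup
    (fun l hl => mem_sup_left (h5 l hl)) fun c hc => by
      by_cases e : c ∈ K
      · exact mem_sup_left (h5 c (h4 c hc.1 e))
      obtain ⟨l, hl, f, hf, e1, rfl⟩ := h.dec c hc.2
      have e2 : l ∈ X := h2 _ hc.1 hc.2 e l hl (by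
        rw [mul_assoc, ← comm_of_mul_sq (hsq l hl) (h.esq hf e1) (hsq1 _ hc.1)])
      have : x * (l * f) * x⁻¹ = x * l * x⁻¹ * l⁻¹ * (l * f) := by
        calc _ = x * l * x⁻¹ * (x * f * x⁻¹) := by group
          _ = _ := by rw [e1]; group
      rw [this]
      exact mul_mem_sup (X.mul_mem (h5 l e2) (inv_mem e2)) hc
  have h11 : y * k * y⁻¹ ∈ 𝐍(X ⊔ y •ᶜ (K ⊓ R) ⊓ Q) := mem_norm_sup
    (fun l hl => by
      have hlR := ((h1 b hb hb' hbK l hl.1).1 (h3 l hl)).1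
      have e1 : ⁅l⁻¹, y * k * y⁻¹⁆ ∈ y •ᶜ (K ⊓ R) := by
        have := cj_mem (g := y) (A.comm_k (h.r.xmem' (inv_mem hlR)))
        rwa [show y * ⁅y⁻¹ * l⁻¹ * y, k⁆ * y⁻¹ = ⁅l⁻¹, y * k * y⁻¹⁆ by
          simp only [commutatorElement_def]; group] at this
      have e2 : y * k * y⁻¹ * l * (y * k * y⁻¹)⁻¹ = l * ⁅l⁻¹, y * k * y⁻¹⁆ := by
        simp only [commutatorElement_def]; group
      by_cases e : ⁅l⁻¹, y * k * y⁻¹⁆ ∈ Q
      · rw [e2]; exact mul_mem_sup hl ⟨e1, e⟩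
      exfalso
      set a' := ⁅l⁻¹, y * k * y⁻¹⁆
      have e3 : k * (l * a') * k⁻¹ ∈ y •ᶜ (K ⊓ R) := by
        refine A.swap2 (A.bt hk) hk' ?_
        have e4 := mem_cj.1 (A.swap2 (y := y⁻¹ * l * y) (A.bt hk) hk'
          (by simpa [mul_assoc] using ⟨hl.1, hlR⟩))
        have : y * (l * a') * y⁻¹ = (y * y) * (k * (y⁻¹ * l * y) * k⁻¹) * (y * y)⁻¹ := by
          rw [← e2]; group
        rwa [this, ← h.y_inv, inv_inv]
      have e4 := (A.comm_k (A.le1 e1)).1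
      have e5 : l * ⁅a', k⁆⁻¹ ∈ X := h4 _ (by
        have : l * ⁅a', k⁆⁻¹ = k * (l * a') * k⁻¹ * a'⁻¹ := by
          conv_lhs => rw [← h.kconj hk hl.1]
          simp only [commutatorElement_def]; group
        rw [this]
        exact mul_mem e3 (inv_mem e1)) (K.mul_mem hl.1 (inv_mem e4))
      have e6 : ⁅a', k⁆ ∈ X := inv_mem_iff.1 ((X.mul_mem_cancel_left hl).1 e5)
      have e7 : ∀ c ∈ y •ᶜ (K ⊓ R), ⁅c, k⁆ ∈ X := fun c hc => by
        by_cases e8 : c ∈ Q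
        · exact h8 c hc e8 k hk
        have e9 := mul_mem hc (inv_mem e1)
        have : ⁅c, k⁆ = c * a'⁻¹ * ⁅a', k⁆ * (c * a'⁻¹)⁻¹ * ⁅c * a'⁻¹, k⁆ := by
          simp only [commutatorElement_def]; group
        rw [this]
        exact X.mul_mem (cmem (h7 (A.le1 e9)) e6) (h8 _ e9
          (h.mul_inv_mem (h.r.le (A.le1 hc)) e8 (h.r.le (A.le1 e1)) e) k hk)
      have e8 : k ∈ X := h.of_two h.two_R (P := fun m => m ∈ X) (fun m _ hm => h5 m hm)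
        (fun m hm hm' => by
          obtain ⟨c, hc, e9⟩ := A.surj ⟨hm, hm'⟩
          exact (X.mul_mem_cancel_right (e7 c hc)).1 (h4 _ e9 (K.mul_mem hm (e7 c hc).1))) hk
      exact hk' ((h1 b hb hb' hbK k hk).1 (h3 k e8)).1)
    fun c hc => by
      rw [← cent_cj_of A.ab y (map_mono inf_le_left hc.1) (cj_mem hk), mul_inv_cancel_right]
      exact mem_sup_right hc
  have h12 := h.r.mem_of h.o6 (M := 𝐍(X ⊔ y •ᶜ (K ⊓ R) ⊓ Q))
    (fun q hq g hg => mul_mem (mul_mem (h9 (h.r.le hq)) hg) (inv_mem (h9 (h.r.le hq))))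
    (A.bt hk) hk' (h9 (A.bt hk)) h11
  have h13 := h.noN _ (sup_le (inf_le_left.trans A.bt) (inf_le_right.trans h.le)) h9 h10 h12
  exact hbK (mem_bot.1 (h13 ▸ mem_sup_right ⟨hb, hb'⟩ : b ∈ ⊥) ▸ one_mem K)

theorem false : False := by
  by_cases e : K ≤ R
  · exact h.false_of_le e
  obtain ⟨k, hk, hk'⟩ := SetLike.not_le_iff_exists.1 e
  have A := h.toAB hk hk'
  obtain ⟨a, ha, ha'⟩ := SetLike.not_le_iff_exists.1 (h.not_le_Q hk hk')
  have haT := h.r.le (A.le1 ha)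
  have hsq : ∀ l ∈ K, l * l = 1 := fun l hl => by
    have := h.inverts haT ha' hl
    rw [h.kconj (A.sq ha) hl] at this
    exact eq_inv_iff_mul_eq_one.1 this
  have h1 : ∀ d ∈ K, d ∈ R → d * a = a * d := fun d hd hd' =>
    (A.cent_of_two hsq (fun c hc c' hc' e1 e2 => h.mem_K hk hk' ha ha' (mul_mem hc hc')
      (h.toPb.mul_mem (h.r.le (A.le1 hc)) (fun e => e1 (h.mem_K hk hk' ha ha' hc e))
        (h.r.le (A.le1 hc')) fun e => e2 (h.mem_K hk hk' ha ha' hc' e))) ⟨hd, hd'⟩ ha).symm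
  obtain ⟨z, hz, hz1, hz2, -, hz3⟩ := h.exists_z
  refine A.not_le ?_
  rintro _ ⟨d, hd, rfl⟩
  change y * d * y⁻¹ ∈ K
  by_cases e1 : d = 1
  · simp [e1]
  · rw [eq_inv_of_mul_eq_one_left (h.uniq h.two_R haT ha' h1 hd.1 hd.2 e1 hz hz2 hz1), ← conj_inv,
      hz3, mul_inv_cancel_right]
    exact inv_mem hz

end CP

/-- There is no amalgam in which one of the parabolics centralizes `Ω₁ Z(T)`. -/
theorem cen_false (h6 : O6 G) {T Q R : Subgroup G} {x u y w : G} (h1 : Pb T Q x u 3)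
    (h2 : Pb T R y w 3) (hN : NoN T x y) (hc : ∀ z ∈ OmZ T, y * z = z * y) : False := by
  refine CP.false (K := ⁅Q, zpowers x⁆) { h1.kp h6 fun e he e1 e2 => ?_ with
    r := h2, noN := hN, cen := hc }
  by_contra e3
  have h3 : T ≤ 𝐍(Q ⊓ 𝐂(Q) ⊓ 𝐂(zpowers x)) := fun a ha => by
    have e4 : Q ≤ 𝐍(Q ⊓ 𝐂(Q) ⊓ 𝐂(zpowers x)) := fun a e => by
      refine mem_normalizer_of_conj_mem fun c hc => ?_
      rwa [mem_centralizer_iff.1 hc.1.2 a e, mul_inv_cancel_right]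
    have e5 : zpowers u ≤ 𝐍(Q) := zpowers_le.2 (h1.tn h1.um)
    have e6 : zpowers u ≤ 𝐍(Q ⊓ 𝐂(Q) ⊓ 𝐂(zpowers x)) := le_normalizer_inf
      (le_normalizer_inf e5 (le_normalizer_centralizer e5))
      (le_normalizer_centralizer (zpowers_le.2 (mem_normalizer_of_conj_mem (by
        rintro _ ⟨n, rfl⟩
        rw [← conj_zpow, h1.inv]
        exact zpow_mem (inv_mem (mem_zpowers x)) n))))
    by_cases e : a ∈ Q
    · exact e4 e
    · simpa using mul_mem (e4 (h1.mul_inv_mem ha e h1.um h1.un)) (e6 (mem_zpowers u))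
  obtain ⟨z, hz, h4, h5⟩ := exists_OmZ_cent h1.two (D := Q ⊓ 𝐂(Q) ⊓ 𝐂(zpowers x))
    (inf_le_left.trans (inf_le_left.trans h1.le)) h3 fun e => e3 (mem_bot.1 (e ▸ ⟨⟨he, e1⟩, by
      rintro _ ⟨n, rfl⟩
      exact (Commute.zpow_left e2 n).eq⟩))
  have h7 : ∀ g : G, g * z = z * g → g ∈ 𝐍(zpowers z) := fun g e =>
    mem_normalizer_of_conj_mem (by
      rintro _ ⟨n, rfl⟩
      rw [← conj_zpow, e, mul_inv_cancel_right]
      exact zpow_mem (mem_zpowers z) n)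
  have hzT := h1.le hz.1.1.1
  exact h4 (zpowers_eq_bot.1 (hN _ (zpowers_le.2 hzT) (fun a ha => h7 a (h5 a ha))
    (h7 x (hz.1.2 x (mem_zpowers x))) (h7 y (hc z ⟨hzT, h5, hz.2.2⟩))))

end CfsgLib.E6
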