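import Cfsg.Agent.Lib.E6.Amal
import Cfsg.Agent.Lib.E6.A5

/-!
# Simple groups of characteristic two type
-/

set_option autoImplicit false

namespace CfsgLib.E6

open Subgroup Cfsg CfsgLib.FT.BGN CfsgLib.Cit CfsgLib.H1
open scoped commutatorElement

universe u

variable {G : Type u} [Group G] [Finite G]

namespace Ctx

variable (H : Ctx G)
include H

omit [Finite G] in
theorem nsolv : ¬ Group.IsSolvable G := fun h =>
  haveI := H.simple
  H.na ⟨⟨IsSimpleGroup.comm_iff_isSolvable.2 h⟩⟩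

theorem norm_ne_top {U : Subgroup G} (hU : IsPGroup 2 U) (h0 : U ≠ ⊥) : 𝐍(U) ≠ ⊤ := fun e => by
  have : Fact (Nat.Prime 2) := ⟨Nat.prime_two⟩
  have := H.simple
  obtain rfl := (normalizer_eq_top_iff.1 e).eq_bot_or_eq_top.resolve_left h0
  exact H.nsolv (Cop.solvable_of_isPGroup (hU.of_equiv topEquiv))

theorem res : pResidual 2 G = ⊤ := by
  have : Fact (Nat.Prime 2) := ⟨Nat.prime_two⟩
  have := H.simple
  exact (PRes.pResidual_normal.eq_bot_or_eq_top).resolve_left fun e =>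
    H.nsolv (Cop.solvable_of_isPGroup (PRes.pResidual_eq_bot_iff.1 e))

/-- A proper subgroup containing all `2`-local subgroups over a Sylow subgroup. -/
theorem exists_uniq (hc : Ch2 G) {S : Subgroup G} (hS : IsSylowIn 2 S ⊤) : End G ∨
    ∃ M : Subgroup G, M ≠ ⊤ ∧ ∀ V : Subgroup G, IsPGroup 2 V → V ≠ ⊥ → S ≤ 𝐍(V) → 𝐍(V) ≤ M := by
  by_cases h1 : ∃ U : Subgroup G, IsPGroup 2 U ∧ U ≠ ⊥ ∧ S ≤ 𝐍(U) ∧ ¬ Group.IsSolvable 𝐍(U)
  · obtain ⟨U, hU, h0, h2, h3⟩ := h1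
    exact (a5_main H hc hU h0 h3 (hS.mono h2 le_top)).imp (fun e => Or.inr (Or.inl e))
      fun e => ⟨_, H.norm_ne_top hU h0, e⟩
  push Not at h1
  by_cases h2 : ∃ Q x u r R y w s, Pb S Q x u r ∧ Pb S R y w s ∧ NoN S x y
  · obtain ⟨Q, x, u, r, R, y, w, s, p1, p2, hN⟩ := h2
    obtain ⟨z, v, v', A, -⟩ := amalgam H.o6 p1 p2 hN
    exact Or.inl (A.end hS H.res)
  push Not at h2
  by_cases h3 : IsMulCommutative S
  · exact Or.inl (Or.inr (Or.inr (Or.inr ⟨S, hS, h3⟩)))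
  set D := S ⊓ sInf {Q | ∃ x u r, Pb S Q x u r} with hD
  have hm : ∀ c, c ∈ D ↔ c ∈ S ∧ ∀ Q x u r, Pb S Q x u r → c ∈ Q := fun c => by
    rw [hD, mem_inf, Subgroup.mem_sInf]
    exact and_congr_right fun _ => ⟨fun e Q x u r p => e Q ⟨x, u, r, p⟩,
      fun e Q ⟨x, u, r, p⟩ => e Q x u r p⟩
  have h0 : D ≠ ⊥ := fun e => h3 ⟨⟨fun a b => Subtype.ext (by
    refine commutatorElement_eq_one_iff_mul_comm.1 (mem_bot.1 (e ▸ (hm _).2 ⟨S.mul_mem
      (S.mul_mem (S.mul_mem a.2 b.2) (inv_mem a.2)) (inv_mem b.2), fun Q x u r p => ?_⟩))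
    rw [commutatorElement_def, p.mul_mem_iff (S.mul_mem (S.mul_mem a.2 b.2) (inv_mem a.2))
      (inv_mem b.2), p.mul_mem_iff (S.mul_mem a.2 b.2) (inv_mem a.2), p.mul_mem_iff a.2 b.2,
      inv_mem_iff, inv_mem_iff]
    tauto)⟩⟩
  have h4 : 𝐍(S) ≤ 𝐍(D) := fun n hn => mem_normalizer_of_conj_mem fun c hc => by
    rw [hm] at hc ⊢
    refine ⟨cmem hn hc.1, fun Q x u r p => ?_⟩
    have := p.cj n⁻¹
    rw [cj_eq (inv_mem hn)] at this
    simpa using mem_cj.1 (hc.2 _ _ _ _ this)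
  have h5 : ∀ Q x u r, Pb S Q x u r → x ∈ 𝐍(D) := fun Q x u r p =>
    mem_normalizer_of_conj_mem fun c hc' => by
      rw [hm] at hc' ⊢
      refine ⟨p.le (p.xmem (hc'.2 _ _ _ _ p)), fun R y w s p' => ?_⟩
      have := h2 _ _ _ _ _ _ _ _ p p'
      simp only [NoN, not_forall] at this
      obtain ⟨N, n1, n2, n3, n4, n5⟩ := this
      have hN := hS.isPGroup.to_le n1
      have e1 := p.comm H.o6 (h1 N hN n5 n2) (hc N hN n5) (hS.mono n2 le_top) n3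
      have e2 := p'.comm H.o6 (h1 N hN n5 n2) (hc N hN n5) (hS.mono n2 le_top) n4
      simpa using R.mul_mem (e2.1 (e1.2 c (hc'.2 _ _ _ _ p))) (hc'.2 _ _ _ _ p')
  exact Or.inr ⟨_, H.norm_ne_top (hS.isPGroup.to_le inf_le_left) h0, fun V hV v0 v1 =>
    par H.o6 (h1 V hV v0 v1) (hc V hV v0) (hS.mono v1 le_top) (inf_le_right.trans h4)
      fun Q x u r p _ => h5 Q x u r p⟩

theorem norm_le (hc : Ch2 G) {S M : Subgroup G} (hS : IsSylowIn 2 S ⊤) (hM : S ≤ M)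
    (h : ∀ V : Subgroup G, IsPGroup 2 V → V ≠ ⊥ → S ≤ 𝐍(V) → 𝐍(V) ≤ M) (n : ℕ) :
    ∀ T U : Subgroup G, Nat.card G - Nat.card T = n → IsPGroup 2 T → T ≠ ⊥ → T ≤ M →
      IsPGroup 2 U → U ≠ ⊥ → T ≤ 𝐍(U) → 𝐍(U) ≤ M := by
  have : Fact (Nat.Prime 2) := ⟨Nat.prime_two⟩
  induction n using Nat.strong_induction_on with
  | _ n ih =>
  intro T U hn hT t0 hTM hU u0 hTU
  have ih' : ∀ T' U' : Subgroup G, T < T' → IsPGroup 2 T' → T' ≤ M → IsPGroup 2 U' → U' ≠ ⊥ →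
      T' ≤ 𝐍(U') → 𝐍(U') ≤ M := fun T' U' e a b c d f => by
    refine ih _ ?_ T' U' rfl a (ne_bot_of_gt e) b c d f
    have e1 : Nat.card T < Nat.card T' := lt_of_not_ge fun e1 => e.ne (eq_of_le_of_card_ge e.le e1)
    have e2 := T'.card_le_card_group
    omega
  obtain ⟨R, h1, hR⟩ := IsSylowIn.exists_ge hT hTM
  obtain ⟨m, hm, h2⟩ := (hS.mono hM le_top).exists_conj_eq hR
  have hR' : IsSylowIn 2 R ⊤ :=
    hS.of_card_le hR.isPGroup le_top (h2 ▸ (card_map_conj m R).le)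
  rcases h1.eq_or_lt with rfl | h3
  · have := h _ (pg_cj hU m) (fun e => u0 ((Subgroup.map_eq_bot_iff_of_injective _
      (MulAut.conj m).injective).1 e)) (by rw [norm_cj, ← h2]; exact map_mono hTU)
    intro g hg
    have e := this (by rw [norm_cj]; exact cj_mem hg)
    exact (mul_mem_cancel_left hm).1 ((mul_mem_cancel_right (inv_mem hm)).1 e)
  have h4 := lt_inf_normalizer_of_isPGroup hR.isPGroup h3
  have h5 : 𝐍(T) ≤ M := ih' _ T h4 hR.isPGroup.to_inf_left (inf_le_left.trans hR.le) hT t0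
    inf_le_right
  by_contra h6
  have h7 : IsSylowIn 2 T 𝐍(U) := IsSylowIn.of_maximal hTU hT fun T' a b c => by
    by_contra e
    exact h6 (ih' _ U (lt_inf_normalizer_of_isPGroup a (lt_of_le_not_ge b e)) a.to_inf_left
      (inf_le_right.trans h5) hU u0 (inf_le_left.trans c))
  by_cases h8 : Group.IsSolvable 𝐍(U)
  swap
  · exact h3.ne' ((a5_sylow H hc hU u0 h8 h7).eq_of_le hR.isPGroup h1 le_top)
  refine h6 (par H.o6 h8 (hc U hU u0) h7 (inf_le_right.trans h5) fun Q x u r p _ => ?_)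
  by_contra hx
  obtain ⟨s, hs, hs', hss⟩ : ∃ s ∈ R ⊓ 𝐍(T), s ∉ T ∧ s * s ∈ T := by
    obtain ⟨s, hs, hs'⟩ := SetLike.exists_of_lt h4
    by_cases e : s * s ∈ T
    · exact ⟨s, hs, hs', e⟩
    · exact ⟨s * s, mul_mem hs hs, e, H.o6.four hR.isPGroup hs.1 ▸ one_mem T⟩
  refine p.swap_false H.o6 hs.2 hss fun N n1 n2 n3 n4 => ?_
  by_contra n0
  have k1 : N ⊔ s •ᶜ N ≤ T := sup_le n1 ((map_mono n1).trans (cj_eq hs.2).le)
  have k2 : T ≤ 𝐍(N ⊔ s •ᶜ N) := le_normalizer_sup n2 (norm_cj_of hs.2 n2)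
  have k3 : s ∈ 𝐍(N ⊔ s •ᶜ N) := mem_norm (by
    rw [Subgroup.map_sup, ← map_conj_mul, cj_eq (n2 hss), sup_comm])
  have k4 : x ∈ 𝐍(s •ᶜ N) := by
    rw [norm_cj, mem_cj]
    have := mul_mem (mul_mem (inv_mem (n2 hss)) n4) (n2 hss)
    rwa [show (s * s)⁻¹ * (s * x * s⁻¹) * (s * s) = s⁻¹ * x * s by group] at this
  have k5 : x ∈ 𝐍(N ⊔ s •ᶜ N) :=
    zpowers_le.1 (le_normalizer_sup (zpowers_le.2 n3) (zpowers_le.2 k4))
  have k6 : T ⊔ zpowers s ≤ R := sup_le h1 (zpowers_le.2 hs.1)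
  exact hx (ih' (T ⊔ zpowers s) _ (lt_of_le_not_ge le_sup_left fun e =>
    hs' (e (mem_sup_right (mem_zpowers s)))) (hR.isPGroup.to_le k6) (k6.trans hR.le)
    (hT.to_le k1) (fun e => n0 (le_bot_iff.1 (e ▸ le_sup_left))) (sup_le k2 (zpowers_le.2 k3)) k5)

theorem glob (hc : Ch2 G) : End G := by
  have : Fact (Nat.Prime 2) := ⟨Nat.prime_two⟩
  obtain ⟨S, hS⟩ := IsSylowIn.exists_in (p := 2) (⊤ : Subgroup G)
  have h0 : S ≠ ⊥ := hS.ne_bot (by
    rw [card_top, ← even_iff_two_dvd, ← Nat.not_odd_iff_even]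
    exact fun h => H.nsolv (FT.feit_thompson h))
  refine (H.exists_uniq hc hS).elim id fun ⟨M, h1, h2⟩ => Or.inl ?_
  have h3 := h2 S hS.isPGroup h0 le_normalizer
  have hM := le_normalizer.trans h3
  have := Sig.isStronglyEmbedded_subgroupOf (M := M) hS h0 (fun e => h1 (top_le_iff.1 e))
    (inf_le_right.trans h3) fun t ht h4 => by
      have h5 := Sig.isPGroup_zpowers_of_orderOf h4
      have h6 : zpowers t ≠ ⊥ := fun e => by
        rw [zpowers_eq_bot.1 e, orderOf_one] at h4; omega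
      refine inf_le_right.trans (le_trans ?_ (H.norm_le hc hS hM h2 _ _ _ rfl h5 h6
        (zpowers_le.2 (hM ht)) h5 h6 le_normalizer))
      rw [← centralizer_zpowers']
      exact centralizer_le_normalizer _
  exact ⟨_, Sig.IsStronglyEmbedded.of_mulEquiv this topEquiv⟩

end Ctx

end CfsgLib.E6
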