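import Cfsg.Agent.Lib.E6.S2
import Cfsg.Agent.Lib.E6.Fr

/-!
# Abelian normal subgroups of nonsolvable groups
-/

set_option autoImplicit false

namespace CfsgLib.E6

open Subgroup Cfsg CfsgLib.FT.BGN CfsgLib.Cit CfsgLib.H1
open scoped commutatorElement

variable {G : Type*} [Group G] [Finite G]

omit [Finite G] in
theorem hc_of {X : Type*} [Group X] (Y : Subgroup X) [Finite Y] {m n : ℕ} (hmn : m.Coprime n)
    (hY : ∀ y ∈ Y, y ^ m = 1) {v : G} (hv : v ^ n = 1) (h : v ^ Nat.card Y = 1) : v = 1 := by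
  by_contra h1
  obtain ⟨p, hp, hd⟩ := Nat.exists_prime_and_dvd (mt orderOf_eq_one_iff.1 h1)
  have := Fact.mk hp
  obtain ⟨y, hy⟩ := exists_prime_orderOf_dvd_card' (G := Y) p
    (hd.trans (orderOf_dvd_of_pow_eq_one h))
  have h2 : p ∣ m := hy ▸ orderOf_dvd_of_pow_eq_one (Subtype.ext (hY y y.2))
  exact hp.one_lt.ne' (Nat.eq_one_of_dvd_coprimes hmn h2 (hd.trans (orderOf_dvd_of_pow_eq_one hv)))

theorem O6.ord_of (h6 : O6 G) {X : Type*} [Group X] (F : G →* X) {g : G} {p : ℕ}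
    (hp : orderOf (F g) = p) (h4 : 4 ≤ p) : orderOf g = p := by
  obtain ⟨k, hk⟩ := orderOf_map_dvd F g
  have h1 := h6 g
  have h2 := orderOf_pos g
  rw [hk, hp] at h1 h2 ⊢
  rcases k with _ | _ | k
  · omega
  · omega
  · nlinarith

theorem O6.pow_six (h6 : O6 G) {X : Type*} [Group X] (F : G →* X) {g : G}
    (hp : orderOf (F g) = 3) : g ^ 6 = 1 := by
  have h1 := hp ▸ orderOf_map_dvd F g
  refine orderOf_dvd_iff_pow_eq_one.1 ?_
  rcases h6.cases g with e | e | e | e | e | e <;> rw [e] at h1 ⊢ <;> omega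

theorem no_odd (h6 : O6 G) {V : Subgroup G} [V.Normal] [IsMulCommutative V] (h0 : V ≠ ⊥)
    (h15 : ∀ v ∈ V, v ^ 15 = 1) {X : Type*} [Group X] [Finite X] [IsSimpleGroup X] {F : G →* X}
    (hF : Function.Surjective F) (hV : V ≤ F.ker) (hk : ∀ k ∈ F.ker, k * k ∈ V) {c t z q : X}
    (hc : orderOf c = 5) (ht : orderOf t = 3) (hz : z ≠ 1) (hzq : z * q = q * z)
    (hY : ∀ x, z * x = x * z → q * x = x * q → x ^ 2 = 1 ∧ z * (t * x * t⁻¹) = t * x * t⁻¹ * z ∧
      q * (t * x * t⁻¹) = t * x * t⁻¹ * q ∧ (t * x = x * t → x = 1)) : False := by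
  have := Fact.mk Nat.prime_five
  have hVC : V ≤ 𝐂(V) := le_centralizer V
  have hC : 𝐂(V) ≤ F.ker := by
    rcases (Normal.map inferInstance F hF : (𝐂(V).map F).Normal).eq_bot_or_eq_top with e | e
    · exact (Subgroup.map_eq_bot_iff _).1 e
    · obtain ⟨c', hc', rfl⟩ : c ∈ 𝐂(V).map F := e ▸ mem_top c
      obtain ⟨t', ht', rfl⟩ : t ∈ 𝐂(V).map F := e ▸ mem_top t
      obtain ⟨⟨v, hv⟩, hv1⟩ := ne_bot_iff_exists_ne_one.1 h0
      have h1 := h6.pow_five_of_comm5 (h6.ord_of F hc (by norm_num))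
        (mem_centralizer_iff.1 hc' v hv).symm
      have h2 := h6.pow_five_of_comm5 (orderOf_eq_prime h1 fun e => hv1 (Subtype.ext e))
        (mem_centralizer_iff.1 ht' v hv)
      have h3 := orderOf_dvd_of_pow_eq_one (show F t' ^ 5 = 1 by rw [← map_pow, h2, map_one])
      rw [ht] at h3
      omega
  obtain ⟨x, rfl⟩ := hF c
  have sq : ∀ y ∈ F.ker.map (QuotientGroup.mk' 𝐂(V)), y ^ 2 = 1 := by
    rintro _ ⟨k, hk', rfl⟩
    rw [← map_pow, pow_two]
    exact (QuotientGroup.eq_one_iff _).2 (hVC (hk k hk'))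
  have hx := h6.ord_of F hc (by norm_num)
  have hK : F.ker ≤ 𝐂(V) := fun k hk' => by
    have := Normal.map (H := F.ker) inferInstance _ (QuotientGroup.mk'_surjective 𝐂(V))
    refine fr_amb (QuotientGroup.mk'_surjective 𝐂(V)) (QuotientGroup.ker_mk' _).le
      (F.ker.map (QuotientGroup.mk' 𝐂(V))) (u := x) (n := 5) (by norm_num)
      (le_normalizer_of_normal (K := ⊤) trivial) (fun i i0 i5 y hy e => ?_) (fun v hv => ?_)
      (fun v hv => hc_of _ (by norm_num) sq (h15 v hv)) (mem_map_of_mem _ hk')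
    · refine (h6.quot 𝐂(V)).eq_one_of_comm5 (orderOf_eq_prime ?_ fun e1 => ?_)
        (two_of_sq (by rw [← pow_two, sq y hy])) (mul_inv_eq_iff_eq_mul.1 e)
      · rw [← pow_mul, mul_comm, pow_mul, ← map_pow, ← hx, pow_orderOf_eq_one, map_one, one_pow]
      · rw [← map_pow] at e1
        have e2 : F (x ^ i) = 1 := hC ((QuotientGroup.eq_one_iff _).1 e1)
        rw [map_pow, ← orderOf_dvd_iff_pow_eq_one, hc] at e2
        omega
    · have e1 : orderOf (v * x) = 5 :=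
        h6.ord_of F (by rw [map_mul, show F v = 1 from hV hv, one_mul, hc]) (by norm_num)
      rw [← e1, pow_orderOf_eq_one, e1, ← hx, pow_orderOf_eq_one]
  obtain ⟨u, rfl⟩ := hF t
  obtain ⟨y, rfl⟩ := hF z
  have t3 : F u ^ 3 = 1 := ht ▸ pow_orderOf_eq_one _
  refine hz (hC (fr_amb hF hK (centralizer {F y} ⊓ centralizer {q}) (u := u) (n := 3) (by norm_num)
    (mem_normalizer_of_conj_mem fun a ha => ?_) (fun i i0 i3 a ha e => ?_) (fun v hv => ?_)
    (fun v hv => hc_of _ (m := 2) (by norm_num) (fun a ha => ?_) (h15 v hv))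
    ⟨mem_centralizer_singleton_iff.2 rfl, mem_centralizer_singleton_iff.2 hzq⟩))
  · have := hY a (mem_centralizer_singleton_iff.1 ha.1).symm
      (mem_centralizer_singleton_iff.1 ha.2).symm
    exact ⟨mem_centralizer_singleton_iff.2 this.2.1.symm,
      mem_centralizer_singleton_iff.2 this.2.2.1.symm⟩
  · refine (hY a (mem_centralizer_singleton_iff.1 ha.1).symm
      (mem_centralizer_singleton_iff.1 ha.2).symm).2.2.2 ?_
    have e1 : Commute (F u ^ i) a := mul_inv_eq_iff_eq_mul.1 e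
    have e2 := e1.pow_left i
    rw [← pow_mul] at e2
    interval_cases i
    · simpa using e2.eq
    · rw [show 2 * 2 = 3 + 1 from rfl, pow_succ, t3, one_mul] at e2
      exact e2
  · have hw : (v * u) ^ 3 * (u ^ 3)⁻¹ ∈ V := by
      rw [← QuotientGroup.eq_one_iff, ← QuotientGroup.mk'_apply]
      simp [(QuotientGroup.eq_one_iff v).2 hv]
    have e1 := h6.pow_six F (g := v * u) (by rw [map_mul, show F v = 1 from hV hv, one_mul, ht])
    have e2 := h6.pow_six F ht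
    have e3 : Commute ((v * u) ^ 3 * (u ^ 3)⁻¹) (u ^ 3) :=
      mem_centralizer_iff.1 (hK (show F (u ^ 3) = 1 by rw [map_pow, t3])) _ hw
    have e4 := e3.mul_pow 2
    rw [inv_mul_cancel_right, ← pow_mul, ← pow_mul, e1, e2, mul_one] at e4
    have e5 := h15 _ hw
    rw [show 15 = 2 * 7 + 1 from rfl, pow_succ, pow_mul, ← e4, one_pow, one_mul] at e5
    exact mul_inv_eq_one.1 e5
  · exact (hY a (mem_centralizer_singleton_iff.1 ha.1).symm
      (mem_centralizer_singleton_iff.1 ha.2).symm).1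

theorem fr4 (h6 : O6 G) {V : Subgroup G} [V.Normal] [IsMulCommutative V] (h0 : V ≠ ⊥)
    (h2 : IsPGroup 2 V) {X : Type*} [Group X] [Finite X] {F : G →* X}
    (hF : Function.Surjective F) (hk : F.ker = V) {a u s : X} (hu : u ^ 4 = 1) (hu2 : u ^ 2 ≠ 1)
    (ha : (a * (s * a * s⁻¹)) ^ 5 = 1) (ha' : a * (s * a * s⁻¹) ≠ 1)
    (hY : ∀ x, a * x = x * a → x ^ 15 = 1 ∧ a * (u * x * u⁻¹) = u * x * u⁻¹ * a ∧
      (u ^ 2 * x = x * u ^ 2 → x = 1)) : False := by
  have := Fact.mk Nat.prime_five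
  have := Fact.mk Nat.prime_two
  obtain ⟨u, rfl⟩ := hF u
  obtain ⟨a, rfl⟩ := hF a
  obtain ⟨s, rfl⟩ := hF s
  have o4 : orderOf (F u) = 4 := orderOf_eq_prime_pow (p := 2) (n := 1) hu2 hu
  have hC : a ∈ 𝐂(V) := fr_amb hF (hk ▸ le_centralizer V) (centralizer {F a}) (u := u) (n := 4)
    (by norm_num) (mem_normalizer_of_conj_mem fun b hb => mem_centralizer_singleton_iff.2
      (hY b (mem_centralizer_singleton_iff.1 hb).symm).2.1.symm)
    (fun i i0 i4 b hb e => (hY b (mem_centralizer_singleton_iff.1 hb).symm).2.2 (by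
      have e1 : Commute (F u ^ i) b := mul_inv_eq_iff_eq_mul.1 e
      have e2 := e1.pow_left 2
      rw [← pow_mul] at e2
      interval_cases i
      · exact e2
      · exact e1
      · rw [show 3 * 2 = 4 + 2 from rfl, pow_add, hu, one_mul] at e2
        exact e2))
    (fun v hv => by
      have e1 : orderOf (v * u) = 4 := h6.ord_of F (by
        rw [map_mul, show F v = 1 from (hk ▸ hv : v ∈ F.ker), one_mul, o4]) le_rfl
      rw [← e1, pow_orderOf_eq_one, e1, ← h6.ord_of F o4 le_rfl, pow_orderOf_eq_one])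
    (fun v hv => hc_of _ (m := 15) (n := 4) (by norm_num)
      (fun b hb => (hY b (mem_centralizer_singleton_iff.1 hb).symm).1) (by
        rw [← h6.four h2 hv]; simp only [pow_succ, pow_zero, one_mul, mul_assoc]))
    (mem_centralizer_singleton_iff.2 rfl)
  have h1 : a * (s * a * s⁻¹) ∈ 𝐂(V) := mul_mem hC (Normal.conj_mem inferInstance a hC s)
  have h3 : orderOf (a * (s * a * s⁻¹)) = 5 := h6.ord_of F (by
    rw [map_mul, map_mul, map_mul, map_inv]; exact orderOf_eq_prime ha ha') (by norm_num)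
  obtain ⟨⟨v, hv⟩, hv1⟩ := ne_bot_iff_exists_ne_one.1 h0
  exact hv1 (Subtype.ext (h6.eq_one_of_comm5 h3 (two_of_mem h2 hv)
    (mem_centralizer_iff.1 h1 v hv).symm))

/-- Exact inversion. -/
theorem exists_inv {K : Subgroup G} {x u : G} (hx : x ∈ 𝐍(K))
    (hf : ∀ k ∈ K, x * k = k * x → k = 1) (hw : x * (u * x * u⁻¹) ∈ K) :
    ∃ k ∈ K, k * u * x * (k * u)⁻¹ = x⁻¹ := by
  have hi : Function.Injective (fun k : K =>
      (⟨_, mul_mem (cmem hx (inv_mem k.2)) k.2⟩ : K)) := fun a b e => Subtype.ext (by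
    have e1 : x * (a : G)⁻¹ * x⁻¹ * a = x * (b : G)⁻¹ * x⁻¹ * b := congrArg Subtype.val e
    refine mul_inv_eq_one.1 (hf _ (mul_mem a.2 (inv_mem b.2)) ?_)
    calc _ = x * a * x⁻¹ * (x * (b : G)⁻¹ * x⁻¹ * b) * ((b : G)⁻¹ * x) := by group
      _ = _ := by rw [← e1]; group)
  obtain ⟨k, e⟩ := Finite.injective_iff_surjective.1 hi ⟨_, hw⟩
  have e1 : x * (k : G)⁻¹ * x⁻¹ * k = x * (u * x * u⁻¹) := congrArg Subtype.val e
  refine ⟨k, k.2, ?_⟩
  calc _ = k * x⁻¹ * (x * (u * x * u⁻¹)) * (k : G)⁻¹ := by group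
    _ = _ := by rw [← e1]; group

theorem ker_sq (h6 : O6 G) {X : Type*} [Group X] {F : G →* X} (hF : Function.Surjective F)
    (hk : IsPGroup 2 F.ker) {c i : X} (hc : orderOf c = 5) (hi : i * i = 1)
    (h : i * c * i⁻¹ = c⁻¹) : ∀ q ∈ F.ker, q * q = 1 := by
  obtain ⟨x, rfl⟩ := hF c
  obtain ⟨u, rfl⟩ := hF i
  have hx := h6.ord_of F hc (by norm_num)
  have hn : ∀ g, g ∈ 𝐍(F.ker) := fun g => le_normalizer_of_normal (K := ⊤) trivial
  obtain ⟨k, hk', e⟩ := exists_inv (u := u) (hn x)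
    (fun k hk' e => h6.eq_one_of_comm5 hx (two_of_mem hk hk') e) (by
      rw [MonoidHom.mem_ker, map_mul, map_mul, map_mul, map_inv, h, mul_inv_cancel])
  refine D10.sq ⟨h6, hk, hx, hn _, hn _, ?_, e⟩
  rw [MonoidHom.mem_ker, map_mul, map_mul, show F k = 1 from hk', one_mul, hi]

end CfsgLib.E6
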