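import Cfsg.Agent.Lib.E6.KnA
import Cfsg.Agent.Lib.E6.KnB
import Cfsg.Agent.Lib.E6.KnC
import Cfsg.Agent.Lib.H5Misc

/-!
# Nonsolvable groups
-/

set_option autoImplicit false

namespace CfsgLib.E6

open Subgroup Cfsg CfsgLib.FT.BGN CfsgLib.Cit CfsgLib.H1
open scoped commutatorElement

universe u

open AutA (An)

theorem ord_val {X : Type*} [Group X] {A : Subgroup X} {a : X} (ha : a ∈ A) {p : ℕ} (hp : p.Prime)
    (h1 : a ^ p = 1) (h2 : a ≠ 1) : orderOf (⟨a, ha⟩ : A) = p :=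
  have := Fact.mk hp
  orderOf_eq_prime (Subtype.ext h1) fun e => h2 (congrArg Subtype.val e)

theorem K56.ords {X : Type*} [Group X] (h : K56 X) :
    (∃ a : X, orderOf a = 3) ∧ ∃ b : X, orderOf b = 5 := by
  rcases h with ⟨⟨e⟩⟩ | ⟨⟨e⟩⟩
  · obtain ⟨-, -, a3, a4, -, a5, a6, a7, a8, -⟩ := KnC.b5
    exact ⟨⟨_, (e.symm.orderOf_eq _).trans (ord_val a3 Nat.prime_three a5 a6)⟩,
      ⟨_, (e.symm.orderOf_eq _).trans (ord_val a4 Nat.prime_five a7 a8)⟩⟩
  · obtain ⟨-, -, a3, a4, -, -, a5, a6, a7, a8, -⟩ := KnC.b6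
    exact ⟨⟨_, (e.symm.orderOf_eq _).trans (ord_val a3 Nat.prime_three a5 a6)⟩,
      ⟨_, (e.symm.orderOf_eq _).trans (ord_val a4 Nat.prime_five a7 a8)⟩⟩

theorem ker_le_ker {N X : Type*} [Group N] [Finite N] [Group X] [IsSimpleGroup X] (h6 : O6 N)
    (hX : K56 X) {f f' : N →* X} (hf : Function.Surjective f) (hf' : Function.Surjective f') :
    f'.ker ≤ f.ker := by
  obtain ⟨⟨a, ha⟩, b, hb⟩ := hX.ords
  rcases (Normal.map inferInstance f hf : (f'.ker.map f).Normal).eq_bot_or_eq_top with e | e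
  · exact (Subgroup.map_eq_bot_iff _).1 e
  obtain ⟨m, hm, rfl⟩ : b ∈ f'.ker.map f := e ▸ mem_top b
  rcases (Normal.map inferInstance f' hf' : (f.ker.map f').Normal).eq_bot_or_eq_top with e' | e'
  · obtain ⟨n, rfl⟩ := hf' a
    obtain ⟨k, hk, e1⟩ : f n ∈ f'.ker.map f := e ▸ mem_top _
    have e2 : f' (n * k⁻¹) = 1 := (Subgroup.map_eq_bot_iff _).1 e' (by
      rw [MonoidHom.mem_ker, map_mul, map_inv, e1, mul_inv_cancel])
    rw [map_mul, map_inv, show f' k = 1 from hk, inv_one, mul_one] at e2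
    rw [e2, orderOf_one] at ha
    omega
  · obtain ⟨n, hn, rfl⟩ : a ∈ f.ker.map f' := e' ▸ mem_top a
    have e1 : orderOf (n * m) = 5 :=
      h6.ord_of f (by rw [map_mul, show f n = 1 from hn, one_mul, hb]) (by norm_num)
    have e2 := orderOf_map_dvd f' (n * m)
    rw [map_mul, show f' m = 1 from hm, mul_one, ha, e1] at e2
    omega

theorem min_k56 {H : Type u} [Group H] [Finite H] (h6 : O6 H) (ih : AK.{u} (Nat.card H + 1))
    {N : Subgroup H} (hN : IsMinNormal N) (hs : ¬ Group.IsSolvable N) : K56 N := by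
  have := hN.1
  have : Nontrivial N := (nontrivial_iff_ne_bot N).2 hN.2.1
  obtain ⟨M, hM, -, h1, h2, -⟩ := H5.exists_maximal_normal_ge (L := (⊥ : Subgroup N)) bot_ne_top
  have hne : M.map N.subtype ≠ N := fun e => h1 (map_injective N.subtype_injective
    (e.trans (by rw [← MonoidHom.range_eq_map, range_subtype])))
  have hX : K56 (N ⧸ M) := ih _ h2 (fun hc => by
    rcases hN.2.2 ⁅N, N⁆ inferInstance (commutator_le_left _ _) with e | e
    · exact hs (Group.isSolvable_of_comm fun a b => Subtype.ext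
        (commutatorElement_eq_one_iff_mul_comm.1 (mem_bot.1 (e ▸ commutator_mem_commutator a.2 b.2))))
    · refine hne (le_antisymm (map_subtype_le _) (e.ge.trans (commutator_le.2 fun a ha b hb =>
        ⟨⁅(⟨a, ha⟩ : N), ⟨b, hb⟩⁆, ?_, rfl⟩)))
      rw [SetLike.mem_coe, ← QuotientGroup.eq_one_iff, ← QuotientGroup.mk'_apply,
        map_commutatorElement, commutatorElement_eq_one_iff_mul_comm]
      exact hc.is_comm.comm _ _) ((h6.subgroup N).quot M)
    (Nat.lt_succ_of_le ((Nat.le_of_dvd Nat.card_pos (card_quotient_dvd_card M)).trans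
      (Nat.le_of_dvd Nat.card_pos (card_subgroup_dvd_card N))))
  have hn : (M.map N.subtype).Normal := ⟨by
    rintro _ ⟨m, hm, rfl⟩ g
    have := ker_le_ker (h6.subgroup N) hX
      (f := (QuotientGroup.mk' M).comp (MulAut.conjNormal g : MulAut N).toMonoidHom)
      ((QuotientGroup.mk'_surjective M).comp (MulAut.conjNormal g : MulAut N).surjective)
      (QuotientGroup.mk'_surjective M) ((QuotientGroup.eq_one_iff m).2 hm)
    exact ⟨_, (QuotientGroup.eq_one_iff _).1 this, rfl⟩⟩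
  have h0 : M = ⊥ := (map_eq_bot_iff_of_injective _ N.subtype_injective).1
    ((hN.2.2 _ hn (map_subtype_le _)).resolve_right hne)
  subst h0
  exact hX.imp (fun ⟨e⟩ => ⟨QuotientGroup.quotientBot.symm.trans e⟩)
    fun ⟨e⟩ => ⟨QuotientGroup.quotientBot.symm.trans e⟩

theorem cent_bot {H : Type*} [Group H] [Finite H] (h6 : O6 H) {N : Subgroup H} (h : K56 N) :
    𝐂(N) = ⊥ := eq_bot_iff.2 fun c hc => mem_bot.2 (by
  obtain ⟨⟨a, ha⟩, b, hb⟩ := h.ords
  have := Fact.mk Nat.prime_five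
  by_contra h1
  have h2 := h6.pow_five_of_comm5 ((orderOf_coe b).trans hb) (mem_centralizer_iff.1 hc b b.2)
  have h3 := h6.pow_five_of_comm5 (orderOf_eq_prime h2 h1) (mem_centralizer_iff.1 hc a a.2).symm
  have h4 := orderOf_dvd_of_pow_eq_one h3
  rw [orderOf_coe, ha] at h4
  omega)

theorem O6.pow60 {H : Type*} [Group H] [Finite H] (h6 : O6 H) (g : H) : g ^ 60 = 1 := by
  refine orderOf_dvd_iff_pow_eq_one.1 ?_
  rcases h6.cases g with e | e | e | e | e | e <;> rw [e] <;> norm_num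

theorem exists_alpha {H X : Type*} [Group H] [Group X] {N : Subgroup H} [N.Normal]
    (hc : 𝐂(N) = ⊥) (e : N ≃* X) : ∃ α : H →* MulAut X, Function.Injective α ∧
      ∀ a, MulAut.conj a ∈ α.range := by
  refine ⟨(MulAut.congr e).toMonoidHom.comp MulAut.conjNormal,
    (MulAut.congr e).injective.comp ((injective_iff_map_eq_one _).2 fun g hg => ?_),
    fun a => ⟨e.symm a, ?_⟩⟩
  · refine mem_bot.1 (hc ▸ mem_centralizer_iff.2 fun n hn => ?_)
    exact (mul_inv_eq_iff_eq_mul.1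
      (congrArg Subtype.val (congrArg (fun s : MulAut N => s ⟨n, hn⟩) hg))).symm
  · ext1 x
    simp [MulAut.conjNormal_val]

theorem kn_base {H : Type u} [Group H] [Finite H] (h6 : O6 H) {N : Subgroup H}
    (hN : IsMinNormal N) (hs : ¬ Group.IsSolvable N) (hK : K56 N) :
    (∃ f : H →* An 5, Function.Surjective f ∧ ∀ q ∈ f.ker, q * q = 1) ∨
    (pCore 2 H = ⊥ ∧ (Nonempty (H ≃* An 6) ∨
      Nonempty (H ≃* Equiv.Perm (Fin 5)) ∨ Nonempty (H ≃* Equiv.Perm (Fin 6)))) := by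
  have := hN.1
  have hc := cent_bot h6 hK
  have h2 : pCore 2 H = ⊥ := by
    rcases hN.inf_eq_bot_or_le (pCore 2 H) with e | e
    · rw [eq_bot_iff, ← hc]
      refine fun g hg => mem_centralizer_iff.2 fun n hn => ?_
      exact commute_of_normal_of_disjoint _ _ inferInstance inferInstance (disjoint_iff.2 e) n g hn hg
    · have := Fact.mk Nat.prime_two
      have := ((pCore_isPGroup 2).to_le e).isNilpotent
      exact (hs inferInstance).elim
  rcases hK with ⟨⟨e⟩⟩ | ⟨⟨e⟩⟩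
  · obtain ⟨α, hi, h1⟩ := exists_alpha hc e
    rcases AutA.range_cases hi h1 (fun g => AutA.aut5 _) AutA.cn_inj5 with ⟨⟨f⟩⟩ | h
    · exact Or.inl ⟨f.toMonoidHom, f.surjective, fun q hq => by
        rw [(map_eq_one_iff f f.injective).1 hq, mul_one]⟩
    · exact Or.inr ⟨h2, Or.inr (Or.inl h)⟩
  · obtain ⟨α, hi, h1⟩ := exists_alpha hc e
    refine Or.inr ⟨h2, (AutA.range_cases hi h1 (fun g => AutA.aut6 _ fun a => ?_)
      AutA.cn_inj6).imp_right Or.inr⟩
    obtain ⟨k, hk⟩ := h1 a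
    rw [← hk, ← map_mul, ← map_pow, h6.pow60, map_one]

section
variable {G : Type*} [Group G] [Finite G] (h6 : O6 G) {V : Subgroup G} [V.Normal]
  [IsMulCommutative V] (h0 : V ≠ ⊥)
include h6 h0

theorem odd5 (h15 : ∀ v ∈ V, v ^ 15 = 1) {F : G →* An 5} (hF : Function.Surjective F)
    (hV : V ≤ F.ker) (hk : ∀ k ∈ F.ker, k * k ∈ V) : False := by
  obtain ⟨a1, a2, a3, a4, -, a5, a6, a7, a8, a9, a10, -⟩ := KnC.b5
  have := alternatingGroup.isSimpleGroup (α := Fin 5) (by simp)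
  refine no_odd h6 h0 h15 hF hV hk (ord_val a4 Nat.prime_five a7 a8)
    (ord_val a3 Nat.prime_three a5 a6) (z := ⟨_, a1⟩) (q := ⟨_, a2⟩)
    (fun e => a9 (congrArg Subtype.val e)) (Subtype.ext a10) fun x e1 e2 => ?_
  obtain ⟨b1, b2, b3, b4⟩ := KnC.v5 x (congrArg Subtype.val e1) (congrArg Subtype.val e2)
  exact ⟨Subtype.ext b1, Subtype.ext b2, Subtype.ext b3,
    fun e => Subtype.ext (b4 (congrArg Subtype.val e))⟩

theorem odd6 (h15 : ∀ v ∈ V, v ^ 15 = 1) {F : G →* An 6} (hF : Function.Surjective F)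
    (hV : V ≤ F.ker) (hk : ∀ k ∈ F.ker, k * k ∈ V) : False := by
  obtain ⟨a1, a2, a3, a4, -, -, a5, a6, a7, a8, a9, a10, -⟩ := KnC.b6
  have := alternatingGroup.isSimpleGroup (α := Fin 6) (by simp)
  refine no_odd h6 h0 h15 hF hV hk (ord_val a4 Nat.prime_five a7 a8)
    (ord_val a3 Nat.prime_three a5 a6) (z := ⟨_, a1⟩) (q := ⟨_, a2⟩)
    (fun e => a9 (congrArg Subtype.val e)) (Subtype.ext a10) fun x e1 e2 => ?_
  obtain ⟨b1, b2, b3, b4⟩ := KnC.v6 x (congrArg Subtype.val e1) (congrArg Subtype.val e2) x.2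
  exact ⟨Subtype.ext b1, Subtype.ext b2, Subtype.ext b3,
    fun e => Subtype.ext (b4 (congrArg Subtype.val e))⟩

theorem odd_perm (h15 : ∀ v ∈ V, v ^ 15 = 1) {n : ℕ} (hn : n = 5 ∨ n = 6)
    {F : G →* Equiv.Perm (Fin n)} (hF : Function.Surjective F) (hk : F.ker = V) : False := by
  have hs := F.subgroupComap_surjective_of_surjective (An n) hF
  have e : ∀ g, g ∈ (F.subgroupComap (An n)).ker ↔ g ∈ V.subgroupOf ((An n).comap F) := fun g => by
    rw [mem_subgroupOf, ← hk, MonoidHom.mem_ker, MonoidHom.mem_ker, Subtype.ext_iff]; rfl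
  have h1 : V.subgroupOf ((An n).comap F) ≠ ⊥ := by
    rw [Ne, subgroupOf_eq_bot, disjoint_iff, inf_eq_left.2 (hk ▸ ker_le_comap F _)]
    exact h0
  have h2 : ∀ v ∈ V.subgroupOf ((An n).comap F), v ^ 15 = 1 := fun v hv => Subtype.ext (h15 _ hv)
  have h3 := fun g => (e g).2
  have h4 := fun g hg => mul_mem ((e g).1 hg) ((e g).1 hg)
  rcases hn with rfl | rfl
  exacts [odd5 (h6.subgroup _) h1 h2 hs h3 h4, odd6 (h6.subgroup _) h1 h2 hs h3 h4]

end

theorem kn_aux (H : Type u) [Group H] [Finite H] : O6 H → AK.{u} (Nat.card H + 1) →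
    ¬ Group.IsSolvable H →
    (∃ f : H →* An 5, Function.Surjective f ∧ ∀ q ∈ f.ker, q * q = 1) ∨
    (pCore 2 H = ⊥ ∧ (Nonempty (H ≃* An 6) ∨
      Nonempty (H ≃* Equiv.Perm (Fin 5)) ∨ Nonempty (H ≃* Equiv.Perm (Fin 6)))) := by
  refine card_induction (P := fun H _ _ => O6 H → AK.{u} (Nat.card H + 1) →
    ¬ Group.IsSolvable H →
    (∃ f : H →* An 5, Function.Surjective f ∧ ∀ q ∈ f.ker, q * q = 1) ∨
    (pCore 2 H = ⊥ ∧ (Nonempty (H ≃* An 6) ∨
      Nonempty (H ≃* Equiv.Perm (Fin 5)) ∨ Nonempty (H ≃* Equiv.Perm (Fin 6))))) ?_ H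
  intro H _ _ IH h6 ih hs
  have : Nontrivial H := not_subsingleton_iff_nontrivial.1 fun _ => hs inferInstance
  obtain ⟨V, hV⟩ := exists_isMinNormal (G := H)
  by_cases hS : Group.IsSolvable V
  swap
  · exact kn_base h6 hV hS (min_k56 h6 ih hV hS)
  have := hV.1
  have h0 := hV.2.1
  obtain ⟨p, hp, hc, hV'⟩ := hV.exists_isElementaryAbelian hS
  have hlt := card_quotient_lt h0
  have key := IH (H ⧸ V) hlt (h6.quot V) (fun X _ _ a b c d => ih X a b c (by omega)) fun h =>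
    hs (Group.isSolvable_of_ker_le_range V.subtype (QuotientGroup.mk' V) (by simp))
  have sj := QuotientGroup.mk'_surjective V
  have ke : ∀ {X : Type} [Group X] (e : H ⧸ V ≃* X),
      (e.toMonoidHom.comp (QuotientGroup.mk' V)).ker = V := fun e => by
    ext g
    simp [MonoidHom.mem_ker]
  have k1 : ∀ f : H ⧸ V →* An 5, (∀ q ∈ f.ker, q * q = 1) →
      ∀ k ∈ (f.comp (QuotientGroup.mk' V)).ker, k * k ∈ V := fun f hf k hk =>
    (QuotientGroup.eq_one_iff _).1 (hf _ hk)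
  have hp' : p = 2 ∨ p = 3 ∨ p = 5 := by
    obtain ⟨⟨v, hv⟩, hv1⟩ := ne_bot_iff_exists_ne_one.1 h0
    have := Fact.mk hp
    exact h6.prime_cases hp
      (orderOf_eq_prime (hV' v hv) (fun e => hv1 (Subtype.ext e)) ▸ orderOf_dvd_natCard v)
  rcases hp' with rfl | hp'
  · have h2 : IsPGroup 2 V := isPGroup_of_isElementaryAbelian ⟨hc, hV'⟩
    obtain ⟨-, -, -, a4, a5, -, -, a7, a8, -, -, a9, a10, a11, a12, a13, a14⟩ := KnC.b5
    obtain ⟨-, -, b3, -, b4, b5, -, -, -, -, -, -, b9, b10, b11, b12, b13, b14, b15, b16⟩ := KnC.b6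
    rcases key with ⟨f, hf, hk⟩ | ⟨-, ⟨⟨e⟩⟩ | ⟨⟨e⟩⟩ | ⟨⟨e⟩⟩⟩
    · refine Or.inl ⟨f.comp (QuotientGroup.mk' V), hf.comp sj, ker_sq h6 (hf.comp sj)
        (fun k => ⟨2, Subtype.ext ?_⟩) (ord_val a4 Nat.prime_five a7 a8) (i := ⟨_, a5⟩)
        (Subtype.ext a13) (Subtype.ext a14)⟩
      have := hV' _ (k1 f hk k k.2)
      rwa [← pow_two, ← pow_mul] at this
    · refine (fr4 h6 h0 h2 (e.surjective.comp sj) (ke e) (a := ⟨_, b3⟩) (u := ⟨_, b4⟩)
        (s := ⟨_, b5⟩) (Subtype.ext b13) (fun e => b14 (congrArg Subtype.val e)) (Subtype.ext b15)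
        (fun e => b16 (congrArg Subtype.val e)) fun x e1 => ?_).elim
      obtain ⟨c1, c2, c3⟩ := KnC.e6 x (congrArg Subtype.val e1) x.2
      exact ⟨Subtype.ext c1, Subtype.ext c2, fun e => Subtype.ext (c3 (congrArg Subtype.val e))⟩
    · exact (fr4 h6 h0 h2 (e.surjective.comp sj) (ke e) a9 a10 a11 a12 KnC.f5).elim
    · exact (fr4 h6 h0 h2 (e.surjective.comp sj) (ke e) b9 b10 b11 b12 KnC.f6).elim
  · have h15 : ∀ v ∈ V, v ^ 15 = 1 := fun v hv => by
      rcases hp' with rfl | rfl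
      · rw [show 15 = 3 * 5 from rfl, pow_mul, hV' v hv, one_pow]
      · rw [show 15 = 5 * 3 from rfl, pow_mul, hV' v hv, one_pow]
    exfalso
    rcases key with ⟨f, hf, hk⟩ | ⟨-, ⟨⟨e⟩⟩ | ⟨⟨e⟩⟩ | ⟨⟨e⟩⟩⟩
    · exact odd5 h6 h0 h15 (hf.comp sj) (fun v hv => by
        simp [MonoidHom.mem_ker, (QuotientGroup.eq_one_iff v).2 hv]) (k1 f hk)
    · exact odd6 h6 h0 h15 (e.surjective.comp sj) (ke e).ge fun k hk =>
        mul_mem ((ke e).le hk) ((ke e).le hk)
    · exact odd_perm h6 h0 h15 (Or.inl rfl) (e.surjective.comp sj) (ke e)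
    · exact odd_perm h6 h0 h15 (Or.inr rfl) (e.surjective.comp sj) (ke e)

theorem kn {H : Type u} [Group H] [Finite H] (h6 : O6 H) (ih : AK.{u} (Nat.card H + 1))
    (hs : ¬ Group.IsSolvable H) :
    (∃ f : H →* alternatingGroup (Fin 5), Function.Surjective f ∧ ∀ q ∈ f.ker, q * q = 1) ∨
    (pCore 2 H = ⊥ ∧ (Nonempty (H ≃* alternatingGroup (Fin 6)) ∨
      Nonempty (H ≃* Equiv.Perm (Fin 5)) ∨ Nonempty (H ≃* Equiv.Perm (Fin 6)))) :=
  kn_aux H h6 ih hs

end CfsgLib.E6
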