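import Cfsg.Agent.Lib.E6.AutA

/-! Automorphisms of `A₅` and `A₆` of small order. -/

set_option autoImplicit false
set_option maxRecDepth 100000

namespace CfsgLib.E6.AutA

open Equiv

abbrev An (n : ℕ) := alternatingGroup (Fin n)

theorem T3.cj {n : ℕ} {x y σ : Perm (Fin n)} (h : T3 x) (e : σ * x = y * σ) : T3 y := by
  obtain rfl : y = σ * x * σ⁻¹ := by rw [e, mul_inv_cancel_right]
  obtain ⟨⟨i, hi⟩, h3, h1⟩ := h
  refine ⟨⟨σ i, by simp [hi]⟩, by rw [conj_mul, conj_mul, h3]; simp, fun e => h1 (by simpa using e)⟩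

theorem Rl.map {G X : Type*} [Group G] [Group X] {f : G →* X} (hf : Function.Injective f) {a b : G}
    (h : Rl a b) : Rl (f a) (f b) :=
  ⟨by rw [← map_mul, ← map_mul, h.1, map_one], fun e => h.2 (hf (by rw [map_mul, e, map_one]))⟩

theorem Rl.cj {G : Type*} [Group G] {a b : G} (h : Rl a b) (s : G) :
    Rl (s * a * s⁻¹) (s * b * s⁻¹) :=
  h.map (f := (MulAut.conj s).toMonoidHom) (MulAut.conj s).injective

theorem T3.cj' {n : ℕ} {x : Perm (Fin n)} (h : T3 x) (s : Perm (Fin n)) : T3 (s * x * s⁻¹) :=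
  h.cj (σ := s) (by rw [inv_mul_cancel_right])

theorem gen6 {a b c d : Perm (Fin 6)} (ta : T3 a) (tb : T3 b) (tc : T3 c) (td : T3 d)
    (ab : Rl a b) (ac : Rl a c) (ad : Rl a d) (bc : Rl b c) (bd : Rl b d) (cd : Rl c d) :
    ∃ σ : Perm (Fin 6), σ * a * σ⁻¹ = g6 2 ∧ σ * b * σ⁻¹ = g6 3 ∧ σ * c * σ⁻¹ = g6 4 ∧
      σ * d * σ⁻¹ = g6 5 := by
  obtain ⟨s1, h1⟩ := s6_1 a ta
  have e1 := mul_inv_eq_of_eq_mul h1
  obtain ⟨s2, h2, h2'⟩ := s6_2 _ (tb.cj' s1) (e1 ▸ ab.cj s1)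
  have e2 : s2 * s1 * a * (s2 * s1)⁻¹ = g6 2 := by
    rw [← mul_inv_eq_of_eq_mul h2, ← e1]; group
  have e3 : s2 * s1 * b * (s2 * s1)⁻¹ = g6 3 := by
    rw [← mul_inv_eq_of_eq_mul h2']; group
  obtain ⟨s3, h3, h3', h3''⟩ := s6_3 _ (tc.cj' (s2 * s1)) (e2 ▸ ac.cj _) (e3 ▸ bc.cj _)
  have f2 : s3 * (s2 * s1) * a * (s3 * (s2 * s1))⁻¹ = g6 2 := by
    rw [← mul_inv_eq_of_eq_mul h3, ← e2]; group
  have f3 : s3 * (s2 * s1) * b * (s3 * (s2 * s1))⁻¹ = g6 3 := by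
    rw [← mul_inv_eq_of_eq_mul h3', ← e3]; group
  have f4 : s3 * (s2 * s1) * c * (s3 * (s2 * s1))⁻¹ = g6 4 := by
    rw [← mul_inv_eq_of_eq_mul h3'']; group
  exact ⟨_, f2, f3, f4, s6_4 _ (td.cj' _) (f2 ▸ ad.cj _) (f3 ▸ bd.cj _) (f4 ▸ cd.cj _)⟩

theorem gen5 {a b c : Perm (Fin 5)} (ta : T3 a) (tb : T3 b) (tc : T3 c)
    (ab : Rl a b) (ac : Rl a c) (bc : Rl b c) :
    ∃ σ : Perm (Fin 5), σ * a * σ⁻¹ = g5 2 ∧ σ * b * σ⁻¹ = g5 3 ∧ σ * c * σ⁻¹ = g5 4 := by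
  obtain ⟨s1, h1⟩ := s5_1 a ta
  have e1 := mul_inv_eq_of_eq_mul h1
  obtain ⟨s2, h2, h2'⟩ := s5_2 _ (tb.cj' s1) (e1 ▸ ab.cj s1)
  have e2 : s2 * s1 * a * (s2 * s1)⁻¹ = g5 2 := by
    rw [← mul_inv_eq_of_eq_mul h2, ← e1]; group
  have e3 : s2 * s1 * b * (s2 * s1)⁻¹ = g5 3 := by
    rw [← mul_inv_eq_of_eq_mul h2']; group
  exact ⟨_, e2, e3, s5_3 _ (tc.cj' _) (e2 ▸ ac.cj _) (e3 ▸ bc.cj _)⟩

/-- The permutation-valued homomorphism of an automorphism. -/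
def hm {n : ℕ} (t : MulAut (An n)) : An n →* Perm (Fin n) :=
  (alternatingGroup (Fin n)).subtype.comp t.toMonoidHom

theorem hm_inj {n : ℕ} (t : MulAut (An n)) : Function.Injective (hm t) :=
  (Subgroup.subtype_injective _).comp t.injective

theorem rl_sub {n : ℕ} {a b : An n} (h : Rl (a : Perm (Fin n)) b) : Rl a b :=
  ⟨Subtype.ext h.1, fun e => h.2 (congrArg Subtype.val e)⟩

theorem eq_conj {n : ℕ} (t : MulAut (An n)) (σ : Perm (Fin n))
    (h : ∀ x : Perm (Fin n), Perm.sign x = 1 → x ∈ (((MulAut.conj σ).toMonoidHom.comp (hm t)).eqLocus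
      (alternatingGroup (Fin n)).subtype).map (alternatingGroup (Fin n)).subtype) :
    t = MulAut.conjNormal σ⁻¹ := by
  ext1 x
  obtain ⟨y, hy, e⟩ := h x x.2
  obtain rfl : y = x := Subtype.ext e
  refine Subtype.ext ?_
  have : σ * (t y : Perm (Fin n)) * σ⁻¹ = y := hy
  rw [MulAut.conjNormal_apply, ← this]; group

def G5 (i : Fin 5) (h : 2 ≤ i) : An 5 := ⟨g5 i, (t5 i h).2⟩
def G6 (i : Fin 6) (h : 2 ≤ i) : An 6 := ⟨g6 i, g6_sign i (by omega)⟩

theorem cube {n : ℕ} (t : MulAut (An n)) {a : An n} (h : T3 (a : Perm (Fin n))) :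
    hm t a * hm t a * hm t a = 1 ∧ hm t a ≠ 1 :=
  ⟨by rw [← map_mul, ← map_mul, show a * a * a = 1 from Subtype.ext h.2.1, map_one],
    fun e => h.2.2 (congrArg Subtype.val (hm_inj t (e.trans (map_one _).symm)))⟩

theorem aut5 (t : MulAut (An 5)) : ∃ σ : Perm (Fin 5), t = MulAut.conjNormal σ := by
  have T : ∀ i h, T3 (hm t (G5 i h)) := fun i h =>
    have := cube t (a := G5 i h) (t5 i h).1
    ⟨s5_0 _ this.1, this⟩
  have R : ∀ i j h h', i < j → Rl (hm t (G5 i h)) (hm t (G5 j h')) := fun i j h h' e =>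
    (rl_sub (a := G5 i h) (b := G5 j h') (rl5 i j h e)).map (hm_inj t)
  obtain ⟨σ, e2, e3, e4⟩ := gen5 (T 2 (by decide)) (T 3 (by decide)) (T 4 (by decide))
    (R _ _ _ _ (by decide)) (R _ _ _ _ (by decide)) (R _ _ _ _ (by decide))
  exact ⟨_, eq_conj t σ (mem5 ⟨G5 2 (by decide), e2, rfl⟩ ⟨G5 3 (by decide), e3, rfl⟩
    ⟨G5 4 (by decide), e4, rfl⟩)⟩

theorem aut6_of (t : MulAut (An 6)) (h2 : T3 (hm t (G6 2 le_rfl))) :
    ∃ σ : Perm (Fin 6), t = MulAut.conjNormal σ := by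
  have T : ∀ i h, T3 (hm t (G6 i h)) := fun i h => by
    obtain ⟨s, hs, hs'⟩ := i6_4 _ (t6 i h)
    have e : (⟨s, hs'⟩ : An 6) * G6 i h = G6 2 le_rfl * ⟨s, hs'⟩ := Subtype.ext hs
    have e1 := congrArg (hm t) e
    rw [map_mul, map_mul] at e1
    refine h2.cj (σ := (hm t ⟨s, hs'⟩)⁻¹) ?_
    rw [inv_mul_eq_iff_eq_mul, ← mul_assoc, e1, mul_inv_cancel_right]
  have R : ∀ i j h h', i < j → Rl (hm t (G6 i h)) (hm t (G6 j h')) := fun i j h h' e =>
    (rl_sub (a := G6 i h) (b := G6 j h') (rl6 i j h e)).map (hm_inj t)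
  obtain ⟨σ, e2, e3, e4, e5⟩ := gen6 (T 2 (by decide)) (T 3 (by decide)) (T 4 (by decide))
    (T 5 (by decide)) (R _ _ _ _ (by decide)) (R _ _ _ _ (by decide)) (R _ _ _ _ (by decide))
    (R _ _ _ _ (by decide)) (R _ _ _ _ (by decide)) (R _ _ _ _ (by decide))
  refine ⟨_, eq_conj t σ (mem6 fun j j0 j1 => ?_)⟩
  have : j = 2 ∨ j = 3 ∨ j = 4 ∨ j = 5 := by omega
  rcases this with rfl | rfl | rfl | rfl
  exacts [⟨G6 2 (by decide), e2, rfl⟩, ⟨G6 3 (by decide), e3, rfl⟩, ⟨G6 4 (by decide), e4, rfl⟩,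
    ⟨G6 5 (by decide), e5, rfl⟩]

theorem sg6 : Perm.sign z6 = 1 ∧ Perm.sign q6 = 1 ∧ Perm.sign p6 = 1 := by decide +kernel

def Z6 : An 6 := ⟨z6, sg6.1⟩
def Q6 : An 6 := ⟨q6, sg6.2.1⟩
def P6 : An 6 := ⟨p6, sg6.2.2⟩

theorem img6 (t : MulAut (An 6)) (hz : t Z6 = Z6) {a : An 6} (h1 : a * a = 1) (h2 : a * Z6 = Z6 * a)
    (h3 : a ≠ 1) (h4 : a ≠ Z6) : t a = Q6 ∨ t a = Q6 * Z6 ∨ t a = P6 ∨ t a = P6 * Z6 := by
  have := i6_2 (t a : An 6) ⟨congrArg Subtype.val (show t a * t a = 1 by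
      rw [← map_mul, h1, map_one]),
    congrArg Subtype.val (show t a * Z6 = Z6 * t a by rw [← hz, ← map_mul, h2, map_mul]),
    fun e => h3 (t.injective ((Subtype.ext e).trans (map_one t).symm)),
    fun e => h4 (t.injective ((Subtype.ext e).trans hz.symm))⟩ (t a).2
  simp only [List.mem_cons, List.not_mem_nil, or_false] at this
  rcases this with e | e | e | e
  exacts [Or.inl (Subtype.ext e), Or.inr (Or.inl (Subtype.ext e)),
    Or.inr (Or.inr (Or.inl (Subtype.ext e))), Or.inr (Or.inr (Or.inr (Subtype.ext e)))]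

theorem k6 : ∀ a ∈ [p6, p6 * z6], a * a = 1 ∧ a * z6 = z6 * a ∧ a ≠ 1 ∧ a ≠ z6 ∧
    (q6 * a) ^ 30 = z6 ∧ q6 * z6 * (a * z6) = q6 * a ∧ q6 * a ≠ a * q6 ∧ p6 * a = a * p6 ∧
    p6 * z6 * a = a * (p6 * z6) := by decide +kernel

theorem aut6_z (t : MulAut (An 6)) (hz : t Z6 = Z6) (h0 : t ^ 60 = 1)
    (h : (MulAut.conj Q6 * t) ^ 60 = 1) : T3 (hm t (G6 2 le_rfl)) := by
  obtain ⟨k1, k2, k3, k4, -, k5, -, -, k7, k8, k9, -⟩ := i6_5
  have c := cube t (a := G6 2 le_rfl) (t6 2 le_rfl)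
  have e1 : t (G6 2 le_rfl) * Z6 = t Q6 * Z6 * t (G6 2 le_rfl) := by
    conv_lhs => rw [← hz, ← map_mul, show G6 2 le_rfl * Z6 = Q6 * Z6 * G6 2 le_rfl from
      Subtype.ext k1, map_mul, map_mul, hz]
  have e2 : t (G6 2 le_rfl) * t Q6 = Z6 * t (G6 2 le_rfl) := by
    rw [← map_mul, show G6 2 le_rfl * Q6 = Z6 * G6 2 le_rfl from Subtype.ext k2, map_mul, hz]
  have zz : Z6 * Z6 = 1 := Subtype.ext k3
  have sw : t Q6 = P6 ∨ t Q6 = P6 * Z6 → False := fun hq => by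
    obtain ⟨a1, a2, a3, a4, a5, a6, a7, a8, a9⟩ := k6 (t Q6 : An 6) (by
      rcases hq with e | e <;> rw [e] <;> simp [P6, Z6])
    have b7 : ¬ t (t Q6) * t Q6 = t Q6 * t (t Q6) := fun e => a7 (congrArg Subtype.val
      (show Q6 * t Q6 = t Q6 * Q6 from t.injective (by rw [map_mul, map_mul, e])))
    have b : t (t (Q6 * t Q6)) = Q6 * t Q6 := by
      rw [map_mul, map_mul]
      rcases img6 t hz (a := t Q6) (Subtype.ext a1) (Subtype.ext a2)
        (fun e => a3 (congrArg Subtype.val e)) (fun e => a4 (congrArg Subtype.val e)) with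
        e | e | e | e
      · rw [e]
      · rw [e, map_mul, hz]; exact Subtype.ext a6
      · exact absurd (by rw [e]; exact Subtype.ext a8) b7
      · exact absurd (by rw [e]; exact Subtype.ext a9) b7
    have d1 : (MulAut.conj Q6 * t) ^ 2 = MulAut.conj (Q6 * t Q6) * t ^ 2 := by
      ext1 x; simp [pow_two, mul_assoc]
    have d2 : Commute (MulAut.conj (Q6 * t Q6)) (t ^ 2) := by
      generalize Q6 * t Q6 = r at b
      ext1 x
      simp only [pow_two, MulAut.mul_apply, MulAut.conj_apply, map_mul (t), map_inv, b]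
    rw [show 60 = 2 * 30 from rfl, pow_mul, d1, d2.mul_pow, ← pow_mul, h0, mul_one, ← map_pow,
      show (Q6 * t Q6) ^ 30 = Z6 from Subtype.ext a5] at h
    have d3 : z6 * g6 2 * z6⁻¹ = g6 2 :=
      congrArg Subtype.val (congrArg (fun s : MulAut (An 6) => s (G6 2 le_rfl)) h)
    rw [mul_inv_eq_iff_eq_mul, k1, mul_assoc] at d3
    exact k8 (by simpa using d3)
  refine ⟨i6_3 _ c.1 ?_ ?_, c⟩
  all_goals
    rcases img6 t hz (a := Q6) (Subtype.ext k4) (Subtype.ext k5.symm)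
      (fun e => k8 (congrArg Subtype.val e)) (fun e => k9 (congrArg Subtype.val e)) with
      e | e | e | e
  · exact Or.inr (congrArg Subtype.val (e ▸ e1))
  · rw [e, mul_assoc Q6, zz, mul_one] at e1
    exact Or.inl (congrArg Subtype.val e1)
  · exact (sw (Or.inl e)).elim
  · exact (sw (Or.inr e)).elim
  · exact Or.inl (congrArg Subtype.val (e ▸ e2))
  · rw [e, mul_assoc Q6, zz, mul_one] at e1
    have e3 : t (G6 2 le_rfl) * Q6 = Q6 * Z6 * t (G6 2 le_rfl) := by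
      calc _ = t (G6 2 le_rfl) * (Q6 * Z6) * Z6 := by rw [mul_assoc, mul_assoc, zz, mul_one]
        _ = _ := by
          rw [e] at e2
          rw [e2, mul_assoc, e1, ← mul_assoc, show Z6 * Q6 = Q6 * Z6 from Subtype.ext k5]
    exact Or.inr (congrArg Subtype.val e3)
  · exact (sw (Or.inl e)).elim
  · exact (sw (Or.inr e)).elim

theorem aut6 (t : MulAut (An 6)) (h : ∀ a, (MulAut.conj a * t) ^ 60 = 1) :
    ∃ σ : Perm (Fin 6), t = MulAut.conjNormal σ := by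
  obtain ⟨-, -, k3, -, -, -, -, -, k7, -⟩ := i6_5
  obtain ⟨s, hs, hs'⟩ := i6_1 (t Z6 : An 6) (congrArg Subtype.val (show t Z6 * t Z6 = 1 by
    rw [← map_mul, show Z6 * Z6 = 1 from Subtype.ext k3, map_one]))
    (fun e => k7 (congrArg Subtype.val (t.injective ((Subtype.ext e).trans (map_one t).symm))))
    (t Z6).2
  have := aut6_z (MulAut.conj (⟨s, hs'⟩ : An 6) * t) (Subtype.ext (mul_inv_eq_of_eq_mul hs)) (h _)
    (by rw [← mul_assoc, ← map_mul]; exact h _)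
  refine aut6_of t (this.cj (σ := s⁻¹) ?_)
  change s⁻¹ * (s * hm t (G6 2 le_rfl) * s⁻¹) = _
  group

/-- A group with a self-centralizing normal subgroup `Aₙ` all of whose elements induce
conjugations by permutations. -/
theorem range_cases {H : Type*} [Group H] {n : ℕ} [Nontrivial (Fin n)] {α : H →* MulAut (An n)}
    (hi : Function.Injective α) (h1 : ∀ a, MulAut.conj a ∈ α.range)
    (h2 : ∀ g, ∃ σ : Perm (Fin n), α g = MulAut.conjNormal σ)
    (h3 : Function.Injective (MulAut.conjNormal : Perm (Fin n) →* MulAut (An n))) :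
    Nonempty (H ≃* An n) ∨ Nonempty (H ≃* Perm (Fin n)) := by
  set c : Perm (Fin n) →* MulAut (An n) := MulAut.conjNormal
  have e : H ≃* α.range.comap c := (MonoidHom.ofInjective hi).trans (MulEquiv.ofBijective
    (c.subgroupComap α.range) ⟨fun a b e => Subtype.ext (h3 (congrArg Subtype.val e)), by
      rintro ⟨_, g, rfl⟩
      obtain ⟨σ, hσ⟩ := h2 g
      exact ⟨⟨σ, g, hσ⟩, Subtype.ext hσ.symm⟩⟩).symm
  have hle : alternatingGroup (Fin n) ≤ α.range.comap c := fun a ha => by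
    have := h1 ⟨a, ha⟩
    rwa [← MulAut.conjNormal_val] at this
  have hd := Subgroup.index_dvd_of_le hle
  rw [alternatingGroup.index_eq_two] at hd
  rcases (Nat.dvd_prime Nat.prime_two).1 hd with h | h
  · exact Or.inr ⟨e.trans ((MulEquiv.subgroupCongr (Subgroup.index_eq_one.1 h)).trans
      Subgroup.topEquiv)⟩
  · exact Or.inl ⟨e.trans (MulEquiv.subgroupCongr (Perm.eq_alternatingGroup_of_index_eq_two h))⟩

theorem cn_inj5 : Function.Injective (MulAut.conjNormal : Perm (Fin 5) →* MulAut (An 5)) :=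
  (injective_iff_map_eq_one _).2 fun σ h => by
    have := fun a => mul_inv_eq_iff_eq_mul.1
      (congrArg Subtype.val (congrArg (fun s : MulAut (An 5) => s a) h))
    exact cent5 σ (this (G5 2 (by decide))) (this (G5 3 (by decide)))

theorem cn_inj6 : Function.Injective (MulAut.conjNormal : Perm (Fin 6) →* MulAut (An 6)) :=
  (injective_iff_map_eq_one _).2 fun σ h => by
    have := fun a => mul_inv_eq_iff_eq_mul.1
      (congrArg Subtype.val (congrArg (fun s : MulAut (An 6) => s a) h))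
    exact cent6 σ (this (G6 2 (by decide))) (this (G6 3 (by decide))) (this (G6 4 (by decide)))

end CfsgLib.E6.AutA
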