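import Mathlib

/-!
# A Lie ring computation for parabolics of type `S₃`
-/

set_option autoImplicit false

namespace CfsgLib.E6

/-- The linear data: `X` has order three without fixed points on `D`, `S` inverts `X`. -/
structure LS {L : Type*} [LieRing L] (D : AddSubgroup L) (X S : L →+ L) : Prop where
  xl : ∀ a b, X ⁅a, b⁆ = ⁅X a, X b⁆
  xm : ∀ a ∈ D, X a ∈ D
  sm : ∀ a ∈ D, S a ∈ D
  x3 : ∀ a ∈ D, X (X a) = -a - X a
  sx : ∀ a ∈ D, S (X a) = X (X (S a))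
  ss : ∀ a ∈ D, S (S a) = -a
  two : ∀ a ∈ D, ∀ b ∈ D, ⁅a, b⁆ + ⁅a, b⁆ = 0
  uu : ∀ a ∈ D, ∀ b ∈ D, ⁅a + S a, b + S b⁆ = 0

namespace LS

variable {L : Type*} [LieRing L] {D : AddSubgroup L} {X S : L →+ L} (h : LS D X S)
include h

theorem dec {w : L} (hw : w ∈ D) : ∃ a ∈ D, ∃ b ∈ D, ∃ v ∈ D,
    w = (a + S a) + X (b + S b) + (v + v) := by
  have h1 := h.sm w hw
  refine ⟨X (S w), h.xm _ h1, S w, h1, -X (S w), neg_mem (h.xm _ h1), ?_⟩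
  rw [h.sx _ h1, h.ss w hw, map_neg, map_neg, h.x3 w hw, map_add, map_neg]
  abel

theorem um {a : L} (ha : a ∈ D) : a + S a ∈ D := add_mem ha (h.sm a ha)

theorem two_l {v b : L} (hv : v ∈ D) (hb : b ∈ D) : ⁅v + v, b⁆ = 0 := by
  rw [add_lie, h.two v hv b hb]

theorem two_r {v b : L} (hv : v ∈ D) (hb : b ∈ D) : ⁅b, v + v⁆ = 0 := by
  rw [lie_add, h.two b hb v hv]

theorem xx {a b : L} (ha : a ∈ D) (hb : b ∈ D) : ⁅X (a + S a), X (b + S b)⁆ = 0 := by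
  rw [← h.xl, h.uu a ha b hb, map_zero]

theorem symm {a b : L} (ha : a ∈ D) (hb : b ∈ D) :
    ⁅a + S a, X (b + S b)⁆ = ⁅b + S b, X (a + S a)⁆ := by
  have e : ⁅X (X (a + S a)), X (X (b + S b))⁆ = 0 := by rw [← h.xl, h.xx ha hb, map_zero]
  have e1 := h.uu a ha b hb
  have e2 := h.xx ha hb
  rw [h.x3 _ (h.um ha), h.x3 _ (h.um hb)] at e
  generalize a + S a = u at *
  generalize b + S b = w at *
  rw [sub_lie, lie_sub, lie_sub, neg_lie, neg_lie, lie_neg, lie_neg, e1, e2,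
    ← lie_skew (X u) w] at e
  linear_combination (norm := abel1) e

theorem fix0 {a b : L} (ha : a ∈ D) (hb : b ∈ D) :
    X ⁅a + S a, X (b + S b)⁆ = ⁅a + S a, X (b + S b)⁆ := by
  rw [h.xl, h.x3 _ (h.um hb), lie_sub, h.xx ha hb, lie_neg, sub_zero, lie_skew, h.symm ha hb]

theorem expand {a b v a' b' v' : L} (ha : a ∈ D) (hb : b ∈ D) (hv : v ∈ D) (ha' : a' ∈ D)
    (hb' : b' ∈ D) (hv' : v' ∈ D) :
    ⁅(a + S a) + X (b + S b) + (v + v), (a' + S a') + X (b' + S b') + (v' + v')⁆ =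
      ⁅a + S a, X (b' + S b')⁆ - ⁅a' + S a', X (b + S b)⁆ := by
  have h1 := add_mem (h.um ha) (h.xm _ (h.um hb))
  have h2 := add_mem (h.um ha') (h.xm _ (h.um hb'))
  rw [add_lie _ (v + v), h.two_l hv (add_mem h2 (add_mem hv' hv')), add_zero, lie_add _ _ (v' + v'),
    h.two_r hv' h1, add_zero, add_lie (a + S a), lie_add (a + S a), lie_add (X (b + S b)),
    h.uu a ha a' ha', h.xx hb hb', ← lie_skew (X (b + S b))]
  abel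

theorem fix {w w' : L} (hw : w ∈ D) (hw' : w' ∈ D) : X ⁅w, w'⁆ = ⁅w, w'⁆ := by
  obtain ⟨a, ha, b, hb, v, hv, rfl⟩ := h.dec hw
  obtain ⟨a', ha', b', hb', v', hv', rfl⟩ := h.dec hw'
  rw [h.expand ha hb hv ha' hb' hv', map_sub, h.fix0 ha hb', h.fix0 ha' hb]

theorem three (h3 : ∀ a ∈ D, ∀ b ∈ D, ∀ c ∈ D,
      ⁅c + S c, ⁅b, S a⁆⁆ + ⁅b + S b, ⁅c, S a⁆⁆ + ⁅a + S a, ⁅c, S b⁆⁆ = 0)
    {w w' w'' : L} (hw : w ∈ D) (hw' : w' ∈ D) (hw'' : w'' ∈ D) : ⁅w, ⁅w', w''⁆⁆ = 0 := by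
  have e1 : ∀ a ∈ D, S (X (a + S a)) =
      -(a + S a) - X (a + S a) + (-X (X a) + -X (X a)) := fun a ha => by
    rw [h.sx _ (h.um ha), ← h.x3 _ (h.um ha), map_add S, h.ss a ha]
    simp only [map_add, map_neg]
    abel
  have e2 : ∀ a ∈ D, ∀ b ∈ D, ⁅X (b + S b), S (X (a + S a))⁆ = ⁅a + S a, X (b + S b)⁆ :=
    fun a ha b hb => by
      rw [e1 a ha, lie_add, h.two_r (neg_mem (h.xm _ (h.xm a ha))) (h.xm _ (h.um hb)), add_zero,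
        lie_sub, h.xx hb ha, lie_neg, sub_zero, lie_skew]
  have e3 : ∀ v : L, ∀ b ∈ D, ∀ c ∈ D, ⁅v + v, ⁅b, c⁆⁆ = 0 := fun v b hb c hc => by
    rw [add_lie, ← lie_add, h.two b hb c hc, lie_zero]
  have e4 : ∀ a ∈ D, ∀ b ∈ D, ∀ c ∈ D,
      ⁅X (a + S a) + S (X (a + S a)), ⁅b, c⁆⁆ = -⁅a + S a, ⁅b, c⁆⁆ := fun a ha b hb c hc => by
    rw [e1 a ha, ← add_assoc, add_lie, e3 _ b hb c hc, add_zero, ← neg_lie]
    congr 1
    abel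
  have e5 : ∀ a ∈ D, ∀ b ∈ D, ∀ c ∈ D, ⁅a + S a, ⁅b + S b, X (c + S c)⁆⁆ =
      ⁅b + S b, ⁅a + S a, X (c + S c)⁆⁆ := fun a ha b hb c hc => by
    rw [leibniz_lie, h.uu a ha b hb, zero_lie, zero_add]
  have e6 : ∀ a ∈ D, ∀ b ∈ D, ∀ c ∈ D, ⁅a + S a, ⁅b + S b, X (c + S c)⁆⁆ = 0 :=
    fun a ha b hb c hc => by
      have a1 := h3 _ (h.xm _ (h.um ha)) _ (h.xm _ (h.um hb)) _ (h.xm _ (h.um hc))
      rw [e2 a ha b hb, e2 a ha c hc, e2 b hb c hc, e4 c hc _ (h.um ha) _ (h.xm _ (h.um hb)),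
        e4 b hb _ (h.um ha) _ (h.xm _ (h.um hc)), e4 a ha _ (h.um hb) _ (h.xm _ (h.um hc)),
        e5 c hc a ha b hb, h.symm hc hb, e5 b hb a ha c hc] at a1
      have a2 : ⁅a + S a, ⁅b + S b, X (c + S c)⁆⁆ + ⁅a + S a, ⁅b + S b, X (c + S c)⁆⁆ = 0 := by
        rw [← lie_add, h.two _ (h.um hb) _ (h.xm _ (h.um hc)), lie_zero]
      linear_combination (norm := abel1) -a1 - a2
  have e7 : ∀ a ∈ D, ⁅a + S a, ⁅w', w''⁆⁆ = 0 := fun a ha => by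
    obtain ⟨b, hb, c, hc, v, hv, rfl⟩ := h.dec hw'
    obtain ⟨b', hb', c', hc', v', hv', rfl⟩ := h.dec hw''
    rw [h.expand hb hc hv hb' hc' hv', lie_sub, e6 a ha b hb c' hc', e6 a ha b' hb' c hc, sub_zero]
  obtain ⟨a, ha, b, hb, v, hv, rfl⟩ := h.dec hw
  rw [add_lie, add_lie, e3 v _ hw' _ hw'', e7 a ha, ← h.fix hw' hw'', ← h.xl, e7 b hb, map_zero,
    add_zero, add_zero]

end LS

end CfsgLib.E6
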