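import Cfsg.Agent.Lib.FrobTwo
import Cfsg.Agent.Lib.CG.Cover
import Cfsg.Agent.Lib.PGroupDihQuat
import Cfsg.Prelude.Def_Transfer

/-! Solvable groups whose element orders are exactly `1, …, 6`. -/

set_option autoImplicit false

namespace CfsgLib.E6.Sv

open Subgroup Cfsg Frob
open scoped MatrixGroups

theorem ring_false {R : Type*} [Ring R] (h3 : (3 : R) = 0) {X Y : R} (hX : X ^ 5 = 1)
    (hN : 1 + X + X ^ 2 + X ^ 3 + X ^ 4 = 0) {r : ℕ} (hr : r = 2 ∨ r = 3 ∨ (r = 4 ∧ Y ^ 2 = 1))
    (hYX : Y * X = X ^ r * Y)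
    (hY : ∀ j ≤ 5, 1 + X ^ j * Y * X ^ (5 - j) + X ^ j * Y ^ 2 * X ^ (5 - j) +
      X ^ j * Y ^ 3 * X ^ (5 - j) = 0) : (1 : R) = 0 := by
  have h1 : ∀ k, Y * X ^ k = X ^ (r * k) * Y := fun k => by
    induction k with
    | zero => simp
    | succ k ih => rw [pow_succ, ← mul_assoc, ih, mul_assoc, hYX, ← mul_assoc, ← pow_add, Nat.mul_succ]
  have h2 : ∀ i k, Y ^ i * X ^ k = X ^ (r ^ i * k) * Y ^ i := fun i => by
    induction i with
    | zero => simp
    | succ i ih =>
      intro k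
      rw [pow_succ', mul_assoc, ih, ← mul_assoc, h1, mul_assoc, ← pow_succ', pow_succ' r, mul_assoc]
  have hm : ∀ j i, X ^ j * Y ^ i * X ^ (5 - j) = X ^ ((j + r ^ i * (5 - j)) % 5) * Y ^ i := fun j i => by
    rw [mul_assoc, h2, ← mul_assoc, ← pow_add, ← pow_eq_pow_mod _ hX]
  have hY' : ∀ j ≤ 5, 1 + X ^ ((j + r ^ 1 * (5 - j)) % 5) * Y + X ^ ((j + r ^ 2 * (5 - j)) % 5) * Y ^ 2 +
      X ^ ((j + r ^ 3 * (5 - j)) % 5) * Y ^ 3 = 0 := fun j hj => by
    have := hY j hj
    rw [hm j 2, hm j 3, ← pow_one Y, hm j 1, pow_one] at this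
    simpa using this
  have e0 := hY' 0 (by norm_num)
  have e1 := hY' 1 (by norm_num)
  have e2 := hY' 2 (by norm_num)
  have e3 := hY' 3 (by norm_num)
  have e4 := hY' 4 (by norm_num)
  have n1 := congrArg (· * Y) hN
  have n2 := congrArg (· * Y ^ 2) hN
  have n3 := congrArg (· * Y ^ 3) hN
  simp only [add_mul, one_mul, zero_mul] at n1 n2 n3
  have h3' : (1 : R) + 1 + 1 = 0 := by rw [← h3]; norm_num
  rcases hr with rfl | rfl | ⟨rfl, hy⟩
  · simp only [Nat.reducePow, Nat.reduceMul, Nat.reduceSub, Nat.reduceAdd, Nat.reduceMod, pow_zero,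
      pow_one, one_mul, mul_one] at e0 e1 e2 e3 e4
    linear_combination (norm := abel1) h3' + h3' - (e0 + e1 + e2 + e3 + e4 - n1 - n2 - n3)
  · simp only [Nat.reducePow, Nat.reduceMul, Nat.reduceSub, Nat.reduceAdd, Nat.reduceMod, pow_zero,
      pow_one, one_mul, mul_one] at e0 e1 e2 e3 e4
    linear_combination (norm := abel1) h3' + h3' - (e0 + e1 + e2 + e3 + e4 - n1 - n2 - n3)
  · rw [hy] at e0 e1 e2 e3 e4
    simp only [Nat.reducePow, Nat.reduceMul, Nat.reduceSub, Nat.reduceAdd, Nat.reduceMod, pow_zero,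
      pow_one, one_mul, mul_one] at e0 e1 e2 e3 e4
    linear_combination (norm := abel1) (e0 + e1 + e2 + e3 + e4 - n1 - n3) - h3' - h3' - h3'

variable {G : Type*} [Group G]

/-- elements of order dividing three in the centre of `K` -/
def om (K : Subgroup G) : Subgroup G where
  carrier := {v | v ∈ K ∧ (∀ k ∈ K, k * v = v * k) ∧ v ^ 3 = 1}
  one_mem' := ⟨K.one_mem, by simp, one_pow _⟩
  mul_mem' := fun {a b} ha hb => ⟨K.mul_mem ha.1 hb.1, fun k hk => by
    rw [← mul_assoc, ha.2.1 k hk, mul_assoc, hb.2.1 k hk, mul_assoc], by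
    rw [Commute.mul_pow (hb.2.1 a ha.1), ha.2.2, hb.2.2, one_mul]⟩
  inv_mem' := fun {a} ha => ⟨K.inv_mem ha.1, fun k hk => (show Commute k a from ha.2.1 k hk).inv_right,
    by rw [inv_pow, ha.2.2, inv_one]⟩

theorem om_normal (K : Subgroup G) [hK : K.Normal] : (om K).Normal := ⟨fun v hv g =>
  ⟨hK.conj_mem v hv.1 g, fun k hk => by
    have := hv.2.1 _ (hK.conj_mem' k hk g)
    calc k * (g * v * g⁻¹) = g * (g⁻¹ * k * g * v) * g⁻¹ := by group
      _ = g * v * g⁻¹ * k := by rw [this]; group, by rw [conj_pow, hv.2.2]; simp⟩⟩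

theorem orderOf_mul_cop {x y : G} (h : Commute x y) {a b : ℕ} (hx : orderOf x = a)
    (hy : orderOf y = b) (hc : a.Coprime b) : orderOf (x * y) = a * b := by
  rw [h.orderOf_mul_eq_mul_orderOf_of_coprime (by rwa [hx, hy]), hx, hy]

theorem f20_false [Finite G] (h6 : ∀ g : G, orderOf g ≤ 6) {K : Subgroup G} [K.Normal]
    (hV : om K ≠ ⊥) {x g : G} (hx : orderOf x = 5) (hg : orderOf g = 4) {r : ℕ}
    (hr : r = 2 ∨ r = 3 ∨ (r = 4 ∧ g ^ 2 ∈ K)) (hc : (x ^ r)⁻¹ * (g * x * g⁻¹) ∈ K) : False := by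
  haveI := om_normal K
  letI : CommGroup (om K) := { (inferInstance : Group (om K)) with
    mul_comm := fun a b => Subtype.ext (b.2.2.1 a a.2.1) }
  let ρ : G →* AddMonoid.End (Additive (om K)) :=
    { toFun := fun g => MonoidHom.toAdditive (MulAut.conjNormal (H := om K) g).toMonoidHom
      map_one' := AddMonoidHom.ext fun v => Additive.toMul.injective (Subtype.ext (by
        show (1 : G) * v.toMul * 1⁻¹ = v.toMul
        simp))
      map_mul' := fun a b => AddMonoidHom.ext fun v => Additive.toMul.injective (Subtype.ext (by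
        show a * b * v.toMul * (a * b)⁻¹ = a * (b * v.toMul * b⁻¹) * a⁻¹
        group)) }
  have hρ : ∀ (g : G) (v : Additive (om K)), ((ρ g v).toMul : G) = g * v.toMul * g⁻¹ := fun _ _ => rfl
  have hK : ∀ k ∈ K, ρ k = 1 := fun k hk => by
    refine AddMonoidHom.ext fun v => Additive.toMul.injective (Subtype.ext ?_)
    show k * v.toMul * k⁻¹ = v.toMul
    rw [v.toMul.2.2.1 k hk]; simp
  have hnorm : ∀ (y : G) (n : ℕ), orderOf y = n → n.Coprime 3 → 2 < n →
      ∑ i ∈ Finset.range n, ρ y ^ i = 0 := fun y n hy hn h2 => by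
    have h1 : (ρ y - 1) * ∑ i ∈ Finset.range n, ρ y ^ i = 0 := by
      rw [mul_geom_sum, ← map_pow, ← hy, pow_orderOf_eq_one, map_one, sub_self]
    refine AddMonoidHom.ext fun v => ?_
    set w := (∑ i ∈ Finset.range n, ρ y ^ i) v
    have h2' : ρ y w = w := sub_eq_zero.1 (DFunLike.congr_fun h1 v)
    by_contra hw
    have hw1 : (w.toMul : G) ≠ 1 := fun e => hw (Additive.toMul.injective (Subtype.ext e))
    have hc : Commute y (w.toMul : G) := by
      have := hρ y w
      rw [h2'] at this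
      exact mul_inv_eq_iff_eq_mul.1 this.symm
    have := h6 (y * w.toMul)
    rw [orderOf_mul_cop hc hy (orderOf_eq_prime w.toMul.2.2.2 hw1) hn] at this
    omega
  have hx5 : x ^ 5 = 1 := hx ▸ pow_orderOf_eq_one x
  have : (1 : AddMonoid.End (Additive (om K))) = 0 := by
    refine ring_false (X := ρ x) (Y := ρ g) (r := r) ?_ (by rw [← map_pow, hx5, map_one]) ?_ ?_ ?_ ?_
    · refine AddMonoidHom.ext fun v => Additive.toMul.injective (Subtype.ext ?_)
      exact v.toMul.2.2.2
    · simpa [Finset.sum_range_succ] using hnorm x 5 hx (by norm_num) (by norm_num)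
    · rcases hr with h | h | h
      · exact Or.inl h
      · exact Or.inr (Or.inl h)
      · exact Or.inr (Or.inr ⟨h.1, by rw [← map_pow, hK _ h.2]⟩)
    · have h1 : g * x = x ^ r * ((x ^ r)⁻¹ * (g * x * g⁻¹)) * g := by group
      rw [← map_mul, h1, map_mul, map_mul, hK _ hc, mul_one, map_pow]
    · intro j hj
      have hi : x ^ (5 - j) = (x ^ j)⁻¹ := by
        rw [eq_inv_iff_mul_eq_one, ← pow_add, Nat.sub_add_cancel hj, hx5]
      have := hnorm (x ^ j * g * (x ^ j)⁻¹) 4 (by rw [orderOf_conj_eq, hg]) (by norm_num) (by norm_num)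
      simp only [Finset.sum_range_succ, Finset.sum_range_zero, zero_add, ← map_pow, conj_pow,
        pow_zero, pow_one, mul_one, mul_inv_cancel] at this
      simpa only [← hi, map_mul, map_pow, map_one] using this
  refine hV (eq_bot_iff.2 fun v hv => ?_)
  have h0 := DFunLike.congr_fun this (Additive.ofMul ⟨v, hv⟩)
  exact congrArg (fun w : Additive (om K) => (w.toMul : G)) h0

theorem le_six_map [Finite G] (h6 : ∀ g : G, orderOf g ≤ 6) {G' : Type*} [Group G'] {f : G →* G'}
    (hf : Function.Surjective f) (g : G') : orderOf g ≤ 6 := by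
  obtain ⟨g, rfl⟩ := hf g
  exact (Nat.le_of_dvd (orderOf_pos g) (orderOf_map_dvd f g)).trans (h6 g)

theorem two_frob [Finite G] (h6 : ∀ g : G, orderOf g ≤ 6) {H K : Subgroup G} [H.Normal] [K.Normal]
    (h1 : IsFrobeniusKernel (H.subgroupOf K))
    (h2 : IsFrobeniusKernel (K.map (QuotientGroup.mk' H))) :
    Nat.card (K.map (QuotientGroup.mk' H)) = 3 ∨ Nat.card (K.map (QuotientGroup.mk' H)) = 5 := by
  have hF : HasFPF (K.map (QuotientGroup.mk' H)) := by
    obtain ⟨e⟩ := nonempty_quotient_subgroupOf_equiv_map H K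
    exact h1.hasFPF_quotient.of_mulEquiv e
  have ho := h2.odd_of_hasFPF hF
  obtain ⟨g, hg⟩ := (h2.isCyclic_of_hasFPF hF).exists_ofOrder_eq_natCard
  have h3 := le_six_map h6 (QuotientGroup.mk'_surjective H) g
  rw [orderOf_coe, hg] at h3
  have h4 : Nat.card (K.map (QuotientGroup.mk' H)) ≠ 1 := fun e => h2.ne_bot (card_eq_one.1 e)
  obtain ⟨k, hk⟩ := ho
  omega

theorem om_ne_bot [Finite G] (h6 : ∀ g : G, orderOf g ≤ 6) {K : Subgroup G}
    (hK : Group.IsNilpotent K) {w : G} (hw : w ∈ K) (h3 : orderOf w = 3) : om K ≠ ⊥ := by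
  haveI : Fact (Nat.Prime 3) := ⟨Nat.prime_three⟩
  obtain ⟨P⟩ : Nonempty (Sylow 3 K) := inferInstance
  haveI : (P : Subgroup K).Normal := Sylow.normal_of_normalizerCondition normalizerCondition_of_isNilpotent P
  have hP : (P : Subgroup K) ≠ ⊥ := P.ne_bot_of_dvd_card (h3 ▸ orderOf_dvd_natCard K hw)
  obtain ⟨z, hz, hz1⟩ := (Subgroup.bot_or_exists_ne_one _).resolve_left
    (inf_center_ne_bot_of_isNilpotent hP)
  obtain ⟨k, hk⟩ := (IsPGroup.iff_orderOf.1 P.2) ⟨z, hz.1⟩
  rw [← orderOf_coe] at hk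
  have h1 := h6 z
  rw [orderOf_coe] at h1
  change orderOf z = _ at hk
  have hk1 : k = 1 := by
    rcases k with _ | _ | k
    · exact absurd (orderOf_eq_one_iff.1 hk) hz1
    · rfl
    · have : 3 ^ 2 ≤ 3 ^ (k + 1 + 1) := Nat.pow_le_pow_right (by norm_num) (by omega)
      omega
  intro e
  have : (z : G) ∈ om K := ⟨z.2, fun k hk => congrArg Subtype.val (mem_center_iff.1 hz.2 ⟨k, hk⟩), by
    rw [← coe_pow, ← pow_one 3, ← hk1, ← hk, pow_orderOf_eq_one, coe_one]⟩
  rw [e] at this
  exact hz1 (Subtype.ext this)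

theorem orderOf_sq_of_six {w : G} (h : orderOf w = 6) : orderOf (w ^ 2) = 3 := by
  rw [orderOf_pow' _ two_ne_zero, h]; rfl

theorem core_five_ne_bot [Finite G] [Group.IsSolvable G] (h6 : ∀ g : G, orderOf g ≤ 6)
    (hs : PiSplit {5} G) {g x w : G} (hg : orderOf g = 4) (hx : orderOf x = 5) (hw : orderOf w = 6) :
    piCore {5} G ≠ ⊥ := by
  intro h0
  haveI : Nontrivial G := nontrivial_of_ne g 1 fun e => by simp [e] at hg
  set K := piCore ({5}ᶜ) G with hKd
  have hKπ : ∀ k ∈ K, ¬ 5 ∣ orderOf k := fun k hk h =>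
    isPiNum_orderOf_of_mem (piCore_isPiSubgroup _) hk 5 Nat.prime_five h rfl
  have hK1 : K ≠ ⊥ := by
    obtain ⟨p, hp, hne⟩ := exists_pCore_ne_bot (G := G)
    haveI := Fact.mk hp
    rw [pCore_eq_piCore] at hne
    by_cases h5 : p = 5
    · exact absurd h0 (h5 ▸ hne)
    · exact fun e => hne (eq_bot_iff.2 (e ▸ piCore_mono (by simpa using Ne.symm h5)))
  have hxK : x ∉ K := fun h => hKπ x h (hx ▸ dvd_rfl)
  have hK2 : K ≠ ⊤ := fun e => hxK (e ▸ mem_top x)
  have hnil : Group.IsNilpotent K := by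
    refine H5.isNilpotent_of_fpf Nat.prime_five (by rw [normalizer_eq_top]; trivial)
      (hx ▸ pow_orderOf_eq_one x) ?_
    intro k hk hc
    refine (hs.eq_one_of_commute (x := x) hc ?_ (isPiNum_orderOf_of_mem (piCore_isPiSubgroup _) hk)).resolve_left ?_
    · intro p hp hd
      exact (Nat.prime_dvd_prime_iff_eq hp Nat.prime_five).1 (hx ▸ hd)
    · intro e; simp [e] at hx
  have hw3 := orderOf_sq_of_six hw
  have key : g ∈ K → w ^ 2 ∈ K → False := fun h1 h2 => by
    have := h6 (g * w ^ 2)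
    rw [orderOf_mul_cop (commute_of_coprime_of_mem_isNilpotent hnil h1 h2 (by rw [hg, hw3]; norm_num))
      hg hw3 (by norm_num)] at this
    omega
  have h6' := le_six_map h6 (QuotientGroup.mk'_surjective K)
  haveI : Fact (Nat.Prime 5) := ⟨Nat.prime_five⟩
  have hx5 : x ^ 5 = 1 := hx ▸ pow_orderOf_eq_one x
  have hx' : orderOf (x : G ⧸ K) = 5 := orderOf_eq_prime
    (by rw [← QuotientGroup.mk_pow, hx5, QuotientGroup.mk_one])
    fun e => hxK ((QuotientGroup.eq_one_iff x).1 e)
  rcases hs.compl.frobenius_or_twoFrobenius hK1 hK2 with hF | ⟨L, hL, -, hF1, hF2⟩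
  · have hodd : ¬ 2 ∣ K.index := fun h2 => by
      haveI : Fact (Nat.Prime 2) := ⟨Nat.prime_two⟩
      obtain ⟨t, ht⟩ := exists_prime_orderOf_dvd_card' (G := G ⧸ K) 2 h2
      have hc := hF.hasFPF_quotient.involution_mem_center (t := t)
        (by rw [← pow_two, ← ht, pow_orderOf_eq_one])
      have := h6' (x * t)
      rw [orderOf_mul_cop (mem_center_iff.1 hc x) hx' ht (by norm_num)] at this
      omega
    have h1 : ∀ y : G, 2 ∣ orderOf y → y ∈ K := fun y hy => by
      by_contra h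
      exact hodd (hy.trans (hF.orderOf_dvd_index h))
    exact key (h1 g (by rw [hg]; norm_num)) (K.pow_mem (h1 w (by rw [hw]; norm_num)) 2)
  · set F := L.map (QuotientGroup.mk' K)
    have hi := hF2.index_dvd_card_sub_one
    have hxF : (x : G ⧸ K) ∈ F := by
      by_contra h
      have := (hF2.orderOf_dvd_index h).trans hi
      rw [hx'] at this
      rcases two_frob h6 hF1 hF2 with e | e <;> rw [e] at this <;> omega
    have hF5 : Nat.card F = 5 := by
      have := orderOf_dvd_natCard F hxF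
      rw [hx'] at this
      rcases two_frob h6 hF1 hF2 with e | e
      · rw [e] at this; omega
      · exact e
    rw [hF5] at hi
    have hsm : ∀ (y : G) (n : ℕ), y ^ n = 1 → n.Coprime 5 → (y : G ⧸ K) ∈ F → y ∈ K := fun y n hy hn h => by
      have h1 := orderOf_dvd_natCard F h
      have h2 : orderOf (y : G ⧸ K) ∣ n := orderOf_dvd_of_pow_eq_one (by
        rw [← QuotientGroup.mk_pow, hy, QuotientGroup.mk_one])
      rw [hF5] at h1
      exact (QuotientGroup.eq_one_iff y).1 (orderOf_eq_one_iff.1 (Nat.eq_one_of_dvd_coprimes hn h2 h1))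
    have hw2 : w ^ 2 ∈ K := by
      have h3 : (w ^ 2) ^ 3 = 1 := hw3 ▸ pow_orderOf_eq_one _
      refine hsm _ 3 h3 (by norm_num) ?_
      by_contra h
      have h1 := (hF2.orderOf_dvd_index h).trans hi
      have h2 : orderOf ((w ^ 2 : G) : G ⧸ K) ∣ 3 := orderOf_dvd_of_pow_eq_one (by
        rw [← QuotientGroup.mk_pow, h3, QuotientGroup.mk_one])
      have := orderOf_eq_one_iff.1 (Nat.eq_one_of_dvd_coprimes (by norm_num) h2 h1)
      exact h (this ▸ F.one_mem)
    have hg4 : g ^ 4 = 1 := hg ▸ pow_orderOf_eq_one g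
    have hgK : g ∉ K := fun h => key h hw2
    have hx1 : (x : G ⧸ K) ≠ 1 := fun e => by simp [e] at hx'
    have hzp : zpowers (x : G ⧸ K) = F :=
      eq_of_le_of_card_ge (zpowers_le.2 hxF) (by rw [Nat.card_zpowers, hx', hF5])
    have hm := hF2.normal.conj_mem _ hxF (g : G ⧸ K)
    rw [← hzp] at hm
    classical
    rw [mem_zpowers_iff_mem_range_orderOf, hx'] at hm
    obtain ⟨r, hr, hm⟩ := Finset.mem_image.1 hm
    rw [Finset.mem_range] at hr
    refine f20_false h6 (om_ne_bot h6 hnil hw2 hw3) hx hg (r := r) ?_ ?_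
    · interval_cases r
      · exact absurd (by simpa using hm.symm) hx1
      · refine absurd (hsm g 4 hg4 (by norm_num) (hF2.mem_of_commute _ hxF hx1 _ ?_)) hgK
        rw [pow_one] at hm
        exact mul_inv_eq_iff_eq_mul.1 hm.symm
      · exact Or.inl rfl
      · exact Or.inr (Or.inl rfl)
      · refine Or.inr (Or.inr ⟨rfl, hsm _ 2 (by rw [← pow_mul, hg4]) (by norm_num)
          (hF2.mem_of_commute _ hxF hx1 _ ?_)⟩)
        have h5 : (x : G ⧸ K) ^ 5 = 1 := by rw [← QuotientGroup.mk_pow, hx5, QuotientGroup.mk_one]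
        have h7 : (g : G ⧸ K) * ((g : G ⧸ K) * x * (g : G ⧸ K)⁻¹) * (g : G ⧸ K)⁻¹ = x := by
          rw [← hm, ← conj_pow, ← hm, ← pow_mul, pow_eq_pow_mod _ h5]; simp
        rw [QuotientGroup.mk_pow]
        calc (g : G ⧸ K) ^ 2 * x = g * (g * x * (g : G ⧸ K)⁻¹) * (g : G ⧸ K)⁻¹ * g ^ 2 := by
              rw [pow_two]; group
          _ = _ := by rw [h7]
    · rw [← QuotientGroup.eq]
      exact hm

theorem complement [Finite G] (h6 : ∀ g : G, orderOf g ≤ 6) (hF : HasFPF G) (h5 : ¬ 5 ∣ Nat.card G)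
    {y x : G} (hy : orderOf y = 4) (hx : orderOf x = 6) :
    Nonempty (G ≃* QuaternionGroup 3) ∨ Nonempty (G ≃* SL(2, ZMod 3)) := by
  have hd : Nat.card G ∣ 24 := by
    rw [Nat.dvd_iff_prime_pow_dvd_dvd]
    intro p k hp hk
    haveI := Fact.mk hp
    obtain ⟨P, hP⟩ := Sylow.exists_subgroup_card_pow_prime p hk
    rcases hF.isCyclic_or_quaternion (IsPGroup.of_card hP) with hc | ⟨-, m, hm, ⟨e⟩⟩
    · obtain ⟨g, hg⟩ := hc.exists_ofOrder_eq_natCard
      have h1 := h6 g
      rw [orderOf_coe, hg, hP] at h1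
      have h2 : p ^ k ≠ 5 := fun e => h5 (e ▸ hk)
      have h3 : p ^ k ≠ 0 := pow_ne_zero _ hp.ne_zero
      generalize p ^ k = n at *
      interval_cases n <;> simp_all
    · haveI : NeZero (2 ^ m) := ⟨by positivity⟩
      have h1 := h6 (e.symm (QuaternionGroup.a 1))
      rw [orderOf_coe, MulEquiv.orderOf_eq, QuaternionGroup.orderOf_a_one] at h1
      have h2 : m = 1 := by
        by_contra h
        have : 2 ^ 2 ≤ 2 ^ m := Nat.pow_le_pow_right (by norm_num) (by omega)
        omega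
      rw [← hP, Nat.card_congr e.toEquiv, Nat.card_eq_fintype_card, QuaternionGroup.card, h2]
      norm_num
  have h4 : 4 ∣ Nat.card G := hy ▸ orderOf_dvd_natCard y
  have h3 : 6 ∣ Nat.card G := hx ▸ orderOf_dvd_natCard x
  have hw := orderOf_sq_of_six hx
  have hno : ∀ g : G, orderOf g = 4 → ¬ Commute g (x ^ 2) := fun g hg hc => by
    have := h6 (g * x ^ 2)
    rw [orderOf_mul_cop hc hg hw (by norm_num)] at this
    omega
  have hx6 : x ^ 6 = 1 := hx ▸ pow_orderOf_eq_one x
  have hz1 : x ^ 3 ≠ 1 := pow_ne_one_of_lt_orderOf (by norm_num) (by omega)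
  have hzz : x ^ 3 * x ^ 3 = 1 := by rw [← pow_add, hx6]
  have hu : ∀ g : G, g * g = 1 → g = 1 ∨ g = x ^ 3 := fun g hg =>
    (em (g = 1)).imp_right fun h => hF.involution_unique h hg hz1 hzz
  have hcard : Nat.card G = 12 ∨ Nat.card G = 24 := by
    have := Nat.le_of_dvd (by norm_num) hd
    generalize Nat.card G = n at *
    interval_cases n <;> simp_all
  classical
  rcases hcard with hc | hc
  · left
    have hyx : y ∉ zpowers x := fun h => by
      have := orderOf_dvd_of_mem_zpowers h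
      rw [hx, hy] at this; omega
    have hi : (zpowers x).index = 2 := by
      have := (zpowers x).card_mul_index
      rw [Nat.card_zpowers, hx, hc] at this; omega
    have hm := (normal_of_index_eq_two hi).conj_mem _ (mem_zpowers x) y
    rw [mem_zpowers_iff_mem_range_orderOf, hx] at hm
    obtain ⟨r, hr, hm⟩ := Finset.mem_image.1 hm
    rw [Finset.mem_range] at hr
    have ho : orderOf (x ^ r) = 6 := by rw [hm, orderOf_conj_eq, hx]
    refine PGrp.nonempty_mulEquiv_quaternionGroup (x := x) (y := y) (m := 3) hx hyx ?_ ?_ hc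
    · refine (hu _ (by rw [← pow_add]; exact orderOf_dvd_iff_pow_eq_one.1 (by rw [hy]))).resolve_left
        (pow_ne_one_of_lt_orderOf (by norm_num) (by omega))
    · rw [orderOf_pow x, hx] at ho
      interval_cases r <;> try norm_num at ho
      · refine absurd (Commute.pow_right ?_ 2) (hno y hy)
        rw [pow_one] at hm
        exact mul_inv_eq_iff_eq_mul.1 hm.symm
      · rw [← hm, eq_inv_iff_mul_eq_one, ← pow_succ, hx6]
  · right
    have hcen := mem_center_iff.1 (hF.involution_mem_center hzz)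
    haveI hN : (zpowers (x ^ 3)).Normal := ⟨fun n hn g => by
      rw [mem_center_iff.1 (zpowers_le.2 (hF.involution_mem_center hzz) hn) g, mul_inv_cancel_right]
      exact hn⟩
    have hcov := CG.cover_mk hz1 hzz hu
    set π := QuotientGroup.mk' (zpowers (x ^ 3))
    have h12 : Nat.card (G ⧸ zpowers (x ^ 3)) = 12 := by
      have := hcov.card
      omega
    set w := x ^ 2 with hwd
    have hw3 : w ^ 3 = 1 := hw ▸ pow_orderOf_eq_one w
    have hcube : ∀ a b : G, a ^ 3 = 1 → b ^ 3 = 1 → π a = π b → a = b := fun a b ha hb e => by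
      rcases (hcov.ker (a * b⁻¹)).1 (by rw [map_mul, map_inv, e, mul_inv_cancel]) with h | h
      · exact mul_inv_eq_one.1 h
      · exfalso
        rw [mul_inv_eq_iff_eq_mul] at h
        rw [h, Commute.mul_pow (hcen b).symm, hb, mul_one, pow_succ, pow_two, hzz, one_mul] at ha
        exact hz1 ha
    have ho : orderOf (π w) = 3 := orderOf_eq_prime (by rw [← map_pow, hw3, map_one]) fun e => by
      have := hcube w 1 hw3 (one_pow 3) (by rw [e, map_one])
      simp [this] at hw
    obtain ⟨e⟩ := H5.nonempty_alt4 h12 (zpowers (π w)) (by rw [Nat.card_zpowers, ho]) fun hn => by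
      have hs : ∀ g : G, orderOf g = 4 → g * w * g⁻¹ = w⁻¹ := fun g hg => by
        have hm := hn.conj_mem _ (mem_zpowers (π w)) (π g)
        rw [mem_zpowers_iff_mem_range_orderOf, ho] at hm
        obtain ⟨r, hr, hm⟩ := Finset.mem_image.1 hm
        rw [Finset.mem_range] at hr
        have hm' : w ^ r = g * w * g⁻¹ := hcube _ _ (by rw [← pow_mul, mul_comm, pow_mul, hw3, one_pow])
          (by rw [conj_pow, hw3]; simp) (by simpa using hm)
        interval_cases r
        · have : w = 1 := by simpa using hm'.symm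
          simp [this] at hw
        · rw [pow_one] at hm'
          exact absurd (mul_inv_eq_iff_eq_mul.1 hm'.symm) (hno g hg)
        · rw [← hm', eq_inv_iff_mul_eq_one, ← pow_succ, hw3]
      haveI : Fact (Nat.Prime 2) := ⟨Nat.prime_two⟩
      obtain ⟨P, hP⟩ := Sylow.exists_subgroup_card_pow_prime (G := G) 2 (n := 3) (by rw [hc]; norm_num)
      obtain ⟨i, j, -, -, h1, h2, h3, h4⟩ := hF.exists_quaternion_pair (IsPGroup.of_card hP) fun hcy => by
        obtain ⟨g, hg⟩ := hcy.exists_ofOrder_eq_natCard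
        have h1 := h6 g
        rw [orderOf_coe, hg, hP] at h1
        omega
      have ho4 : ∀ g : G, g * g = i * i → orderOf g = 4 := fun g hg => by
        refine orderOf_eq_prime_pow (p := 2) (n := 1) (by rwa [pow_one, pow_two, hg]) ?_
        rw [show 2 ^ (1 + 1) = 2 * 2 by norm_num, pow_mul, pow_two, pow_two, hg, h2]
      have hij : i * j * (i * j) = i * i := by
        have hc : ∀ g, g * (i * i) = i * i * g := mem_center_iff.1 (hF.involution_mem_center h2)
        calc i * j * (i * j) = i * i * (j * i) * (i * j) := by rw [← h4]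
          _ = i * i * (j * (i * i)) * j := by group
          _ = i * i * (i * i) * (j * j) := by rw [hc j]; group
          _ = i * i := by rw [h2, one_mul, h3]
      refine hno _ (ho4 _ hij) (mul_inv_eq_iff_eq_mul.1 ?_)
      calc i * j * w * (i * j)⁻¹ = i * (j * w * j⁻¹) * i⁻¹ := by group
        _ = (i * w * i⁻¹)⁻¹ := by rw [hs j (ho4 j h3)]; group
        _ = w := by rw [hs i (ho4 i rfl), inv_inv]
    obtain ⟨π', hπ'⟩ := CG.cover_SL23
    exact CG.nonempty_equiv_of_cover (hcov.comp e) hπ' (CG.alt_sq 4 (Or.inl rfl))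

theorem solv [Finite G] [Group.IsSolvable G] (h6 : ∀ g : G, orderOf g ≤ 6) {g x w : G}
    (hg : orderOf g = 4) (hx : orderOf x = 5) (hw : orderOf w = 6) :
    ∃ (N : Subgroup G) (_ : N.Normal), IsElementaryAbelian 5 N ∧
      (Nonempty (G ⧸ N ≃* QuaternionGroup 3) ∨ Nonempty (G ⧸ N ≃* SL(2, ZMod 3))) := by
  have hs : PiSplit {5} G := piSplit_of_forall_orderOf_ne fun a ha b _ _ hb _ _ ⟨y, hy⟩ => by
    have h1 := h6 y
    have h2 := hb.two_le
    rw [hy, show a = 5 from ha] at h1
    omega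
  have h1 := core_five_ne_bot h6 hs hg hx hw
  set N := piCore {5} G
  have hN : ∀ k ∈ N, k ^ 5 = 1 := fun k hk => by
    have h2 := isPiNum_orderOf_of_mem (piCore_isPiSubgroup _) hk
    have h3 := h6 k
    have h4 := orderOf_pos k
    have h5 : ¬ 2 ∣ orderOf k := fun h => by simpa using h2 2 Nat.prime_two h
    have h7 : ¬ 3 ∣ orderOf k := fun h => by simpa using h2 3 Nat.prime_three h
    refine orderOf_dvd_iff_pow_eq_one.1 ?_
    generalize orderOf k = n at *
    interval_cases n <;> simp_all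
  have hout : ∀ y : G, ¬ orderOf y ∣ 5 → y ∉ N := fun y hy h => hy (orderOf_dvd_of_pow_eq_one (hN y h))
  have hgN := hout g (by rw [hg]; norm_num)
  have h2 : N ≠ ⊤ := fun e => hgN (e ▸ mem_top g)
  rcases hs.frobenius_or_twoFrobenius h1 h2 with hF | ⟨L, hL, -, hF1, hF2⟩
  · have h4 : 4 ∣ N.index := hg ▸ hF.orderOf_dvd_index hgN
    refine ⟨N, inferInstance, ⟨⟨⟨fun a b => Subtype.ext (hF.comm_of_even_index
      (even_iff_two_dvd.2 (Dvd.dvd.trans (by norm_num) h4)) a a.2 b b.2)⟩⟩, hN⟩, ?_⟩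
    refine complement (le_six_map h6 (QuotientGroup.mk'_surjective N)) hF.hasFPF_quotient ?_
      (y := g) (x := w) (by rw [hF.orderOf_mk hgN, hg])
      (by rw [hF.orderOf_mk (hout w (by rw [hw]; norm_num)), hw])
    obtain ⟨k, hk, hk1⟩ := (Subgroup.bot_or_exists_ne_one N).resolve_left h1
    haveI : Fact (Nat.Prime 5) := ⟨Nat.prime_five⟩
    have h5 : 5 ∣ Nat.card N := orderOf_eq_prime (hN k hk) hk1 ▸ orderOf_dvd_natCard N hk
    intro h
    have := Nat.eq_one_of_dvd_coprimes hF.coprime h5 h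
    omega
  · exfalso
    have hg' : orderOf (g : G ⧸ N) = 4 := by
      have hg4 : g ^ 4 = 1 := hg ▸ pow_orderOf_eq_one g
      refine orderOf_eq_prime_pow (p := 2) (n := 1) (fun e => ?_) (by
        rw [← QuotientGroup.mk_pow, show 2 ^ (1 + 1) = 4 by norm_num, hg4, QuotientGroup.mk_one])
      rw [← QuotientGroup.mk_pow, QuotientGroup.eq_one_iff] at e
      refine hout _ ?_ e
      rw [orderOf_pow g, hg]; norm_num
    set F := L.map (QuotientGroup.mk' N)
    have hgF : (g : G ⧸ N) ∉ F := fun h => by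
      have := orderOf_dvd_natCard F h
      rw [hg'] at this
      rcases two_frob h6 hF1 hF2 with e | e <;> rw [e] at this <;> omega
    have hi := (hF2.orderOf_dvd_index hgF).trans hF2.index_dvd_card_sub_one
    rw [hg'] at hi
    rcases two_frob h6 hF1 hF2 with e | e
    · rw [e] at hi; omega
    · haveI := hF2.normal
      have : F ≤ piCore {5} (G ⧸ N) := le_piCore fun p hp hd =>
        (Nat.prime_dvd_prime_iff_eq hp Nat.prime_five).1 (e ▸ hd)
      rw [piCore_quotient_piCore] at this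
      exact hF2.ne_bot (eq_bot_iff.2 this)

end CfsgLib.E6.Sv
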